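import Mathlib
import Cfsg.Agent.Lib.Helper1.BrandtGA

/-!
# S4648 (Külshammer), piece KU-FA: symmetric functionals on the group algebra in characteristic `p`
that vanish on nilpotent elements
-/

set_option autoImplicit false

namespace Cfsg.Agent.Lib.Helper16.Kuls

open Cfsg Cfsg.Agent.Lib.Helper1

universe u

section

variable {K : Type} [Field K] {G : Type u} [Group G] [Fintype G] [DecidableEq G]

/-- Two invariant matrices with the same first column are equal. -/
theorem col_ext (X Y : invAlg K G)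
    (h : ∀ g : G, (X : Matrix G G K) g 1 = (Y : Matrix G G K) g 1) : X = Y := by
  apply Subtype.ext
  rw [eq_Lm X.2, eq_Lm Y.2]
  congr 1
  funext g
  exact h g

theorem dl_col (h g : G) : ((dl h : invAlg K G) : Matrix G G K) g 1 = if g = h then 1 else 0 := by
  change (Pi.single h (1 : K) : G → K) (g * 1⁻¹) = _
  rw [inv_one, mul_one, Pi.single_apply]

theorem dl_mul (a b : G) : (dl (a * b) : invAlg K G) = dl a * dl b := by
  apply col_ext
  intro g
  rw [dl_col]
  change _ = (((dl a : invAlg K G) : Matrix G G K) * ((dl b : invAlg K G) : Matrix G G K)) g 1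
  rw [mul_dl_apply]
  change _ = (Pi.single a (1 : K) : G → K) (g * b⁻¹)
  rw [Pi.single_apply]
  by_cases hg : g = a * b
  · rw [if_pos hg, if_pos (by rw [hg, mul_inv_cancel_right])]
  · rw [if_neg hg, if_neg]
    intro h
    apply hg
    rw [← h, inv_mul_cancel_right]

theorem dl_one : (dl (1 : G) : invAlg K G) = 1 := by
  apply col_ext
  intro g
  rw [dl_col]
  change _ = (1 : Matrix G G K) g 1
  rw [Matrix.one_apply]

/-- `dl` as a monoid homomorphism. -/
def dlHom : G →* invAlg K G where
  toFun := dl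
  map_one' := dl_one
  map_mul' := dl_mul

theorem dlHom_apply (g : G) : (dlHom g : invAlg K G) = dl g := rfl

theorem dl_pow (g : G) (n : ℕ) : (dl (g ^ n) : invAlg K G) = dl g ^ n := by
  rw [← dlHom_apply, map_pow, dlHom_apply]

/-- Expansion of an invariant matrix over the group elements. -/
theorem eq_sum_dl (X : invAlg K G) :
    X = ∑ g : G, ((X : Matrix G G K) g 1) • (dl g : invAlg K G) := by
  apply col_ext
  intro g₀
  have h1 : ((∑ g : G, ((X : Matrix G G K) g 1) • (dl g : invAlg K G) : invAlg K G) :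
      Matrix G G K) = ∑ g : G, ((X : Matrix G G K) g 1) • ((dl g : invAlg K G) : Matrix G G K) := by
    rw [← Subalgebra.coe_val, map_sum]
    rfl
  rw [h1, Matrix.sum_apply, Finset.sum_eq_single g₀]
  · rw [Matrix.smul_apply, dl_col, if_pos rfl, smul_eq_mul, mul_one]
  · intro g _ hg
    rw [Matrix.smul_apply, dl_col, if_neg (Ne.symm hg), smul_zero]
  · intro h; exact absurd (Finset.mem_univ _) h

instance nontrivial_invAlg : Nontrivial (invAlg K G) :=
  ⟨⟨1, 0, fun h => by
    have h1 := congrArg (fun X : invAlg K G => (X : Matrix G G K) 1 1) h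
    change (1 : Matrix G G K) 1 1 = (0 : Matrix G G K) 1 1 at h1
    rw [Matrix.one_apply_eq, Matrix.zero_apply] at h1
    exact one_ne_zero h1⟩⟩

/-- FA -/
theorem kuls_funcA {K : Type} [Field K] {G : Type u} [Group G] [Fintype G] [DecidableEq G]
    (p : ℕ) [Fact p.Prime] (hp0 : (p : K) = 0)
    (φ : invAlg K G →ₗ[K] K) (hsym : ∀ X Y, φ (X * Y) = φ (Y * X))
    (hnil : ∀ X, IsNilpotent X → φ X = 0) :
    (∀ g h : G, φ (dl (h * g * h⁻¹)) = φ (dl g)) ∧
    (∀ s u : G, Commute s u → (∃ k : ℕ, orderOf u = p ^ k) → φ (dl (s * u)) = φ (dl s)) ∧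
    (∀ X : invAlg K G, φ X = ∑ g : G, (X : Matrix G G K) g 1 * φ (dl g)) := by
  have hp : p.Prime := Fact.out
  refine ⟨?_, ?_, ?_⟩
  · intro g h
    rw [dl_mul, dl_mul, mul_assoc, hsym, mul_assoc, ← dl_mul, inv_mul_cancel, dl_one, mul_one]
  · rintro s u hsu ⟨k, hk⟩
    have : CharP K p := (CharP.charP_iff_prime_eq_zero hp).mpr hp0
    have : CharP (invAlg K G) p :=
      charP_of_injective_algebraMap (algebraMap K (invAlg K G)).injective p
    have hcomm : Commute (dl s : invAlg K G) (dl u) := by
      unfold Commute SemiconjBy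
      rw [← dl_mul, ← dl_mul, hsu.eq]
    have hnilp : IsNilpotent ((dl u : invAlg K G) - 1) := by
      refine ⟨p ^ k, ?_⟩
      rw [sub_pow_char_pow_of_commute p k (Commute.one_right _), one_pow, ← dl_pow, ← hk,
        pow_orderOf_eq_one, dl_one, sub_self]
    have h1 : IsNilpotent ((dl s : invAlg K G) * (dl u - 1)) :=
      Commute.isNilpotent_mul_left (hcomm.sub_right (Commute.one_right _)) hnilp
    have h2 := hnil _ h1
    rw [mul_sub, mul_one, map_sub, ← dl_mul, sub_eq_zero] at h2
    exact h2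
  · intro X
    conv_lhs => rw [eq_sum_dl X]
    rw [map_sum]
    refine Finset.sum_congr rfl fun g _ => ?_
    rw [map_smul, smul_eq_mul]

end

end Cfsg.Agent.Lib.Helper16.Kuls
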