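import Mathlib
import Cfsg.Agent.Lib.Helper65.MonoDefs

/-!
# S5634 (helper65), piece QG (helper16): the blocks on the complement of `J` of the stabiliser of
`V_J` in `X` form a subgroup of `GL(S)` containing all monomial matrices.
-/

set_option autoImplicit false
set_option linter.unusedSectionVars false

namespace Cfsg.Agent.Lib.Helper65.Mono

open Matrix

section
variable {F : Type*} [Field F] {κ : Type} [Fintype κ] [DecidableEq κ]

/-- the matrix `[[1,0],[0,C]]` for the decomposition `κ = J ⊔ Jᶜ` -/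
def qg_ext (J : Finset κ) (C : Matrix {i // i ∉ J} {i // i ∉ J} F) : Matrix κ κ F :=
  (Matrix.fromBlocks (1 : Matrix {i // i ∈ J} {i // i ∈ J} F) 0 0 C).submatrix
    (Equiv.sumCompl (fun i => i ∈ J)).symm (Equiv.sumCompl (fun i => i ∈ J)).symm

theorem qg_ext_mul (J : Finset κ) (C C' : Matrix {i // i ∉ J} {i // i ∉ J} F) :
    qg_ext J (C * C') = qg_ext J C * qg_ext J C' := by
  unfold qg_ext
  rw [Matrix.submatrix_mul_equiv, Matrix.fromBlocks_multiply]
  simp

theorem qg_ext_one (J : Finset κ) :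
    qg_ext J (1 : Matrix {i // i ∉ J} {i // i ∉ J} F) = 1 := by
  unfold qg_ext
  rw [Matrix.fromBlocks_one, Matrix.submatrix_one_equiv]

theorem qg_ext_det (J : Finset κ) (C : Matrix {i // i ∉ J} {i // i ∉ J} F) :
    (qg_ext J C).det = C.det := by
  unfold qg_ext
  rw [Matrix.det_submatrix_equiv_self, Matrix.det_fromBlocks_zero₂₁, Matrix.det_one, one_mul]

theorem qg_ext_apply_nn (J : Finset κ) (C : Matrix {i // i ∉ J} {i // i ∉ J} F) (i j : κ)
    (hi : i ∉ J) (hj : j ∉ J) : qg_ext J C i j = C ⟨i, hi⟩ ⟨j, hj⟩ := by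
  unfold qg_ext
  rw [Matrix.submatrix_apply, Equiv.sumCompl_symm_apply_of_neg hi,
    Equiv.sumCompl_symm_apply_of_neg hj, Matrix.fromBlocks_apply₂₂]

theorem qg_ext_apply_nm (J : Finset κ) (C : Matrix {i // i ∉ J} {i // i ∉ J} F) (i j : κ)
    (hi : i ∉ J) (hj : j ∈ J) : qg_ext J C i j = 0 := by
  unfold qg_ext
  rw [Matrix.submatrix_apply, Equiv.sumCompl_symm_apply_of_neg hi,
    Equiv.sumCompl_symm_apply_of_pos hj, Matrix.fromBlocks_apply₂₁, Matrix.zero_apply]

theorem qg_ext_apply_mn (J : Finset κ) (C : Matrix {i // i ∉ J} {i // i ∉ J} F) (i j : κ)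
    (hi : i ∈ J) (hj : j ∉ J) : qg_ext J C i j = 0 := by
  unfold qg_ext
  rw [Matrix.submatrix_apply, Equiv.sumCompl_symm_apply_of_pos hi,
    Equiv.sumCompl_symm_apply_of_neg hj, Matrix.fromBlocks_apply₁₂, Matrix.zero_apply]

theorem qg_ext_apply_mm (J : Finset κ) (C : Matrix {i // i ∉ J} {i // i ∉ J} F) (i j : κ)
    (hi : i ∈ J) (hj : j ∈ J) (hij : i ≠ j) : qg_ext J C i j = 0 := by
  unfold qg_ext
  rw [Matrix.submatrix_apply, Equiv.sumCompl_symm_apply_of_pos hi,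
    Equiv.sumCompl_symm_apply_of_pos hj, Matrix.fromBlocks_apply₁₁]
  exact Matrix.one_apply_ne (fun h => hij (congrArg Subtype.val h))

/-- the invertible matrix `[[1,0],[0,C]]` -/
def qg_gl (J : Finset κ) (C : GL {i // i ∉ J} F) : GL κ F :=
  ⟨qg_ext J (C : Matrix {i // i ∉ J} {i // i ∉ J} F),
    qg_ext J ((C⁻¹ : GL {i // i ∉ J} F) : Matrix {i // i ∉ J} {i // i ∉ J} F),
    by rw [← qg_ext_mul, ← Units.val_mul, mul_inv_cancel, Units.val_one, qg_ext_one],
    by rw [← qg_ext_mul, ← Units.val_mul, inv_mul_cancel, Units.val_one, qg_ext_one]⟩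

theorem qg_gl_val (J : Finset κ) (C : GL {i // i ∉ J} F) :
    (qg_gl J C : Matrix κ κ F) = qg_ext J (C : Matrix {i // i ∉ J} {i // i ∉ J} F) := rfl

theorem qg_ext_stabJ (J : Finset κ) (C : Matrix {i // i ∉ J} {i // i ∉ J} F) :
    StabJ J (qg_ext J C) := fun i j hi hj => qg_ext_apply_nm J C i j hi hj

theorem qg_ext_blk (J : Finset κ) (C : Matrix {i // i ∉ J} {i // i ∉ J} F) :
    blk J (qg_ext J C) = C := by
  ext a b
  show qg_ext J C a.1 b.1 = C a b
  rw [qg_ext_apply_nn J C a.1 b.1 a.2 b.2]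

theorem qg_ext_isMono (J : Finset κ) (C : Matrix {i // i ∉ J} {i // i ∉ J} F) (hC : IsMono C) :
    IsMono (qg_ext J C) := by
  intro j
  by_cases hj : j ∈ J
  · refine ⟨j, fun i' h => ?_⟩
    by_contra hne
    by_cases hi : i' ∈ J
    · exact h (qg_ext_apply_mm J C i' j hi hj hne)
    · exact h (qg_ext_apply_nm J C i' j hi hj)
  · obtain ⟨i0, hi0⟩ := hC ⟨j, hj⟩
    refine ⟨i0.1, fun i' h => ?_⟩
    by_cases hi : i' ∈ J
    · exact absurd (qg_ext_apply_mn J C i' j hi hj) h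
    · rw [qg_ext_apply_nn J C i' j hi hj] at h
      exact congrArg Subtype.val (hi0 ⟨i', hi⟩ h)

theorem qg_diag_stabJ (J : Finset κ) (d : κ → F) : StabJ J (Matrix.diagonal d) := by
  intro i j hi hj
  apply Matrix.diagonal_apply_ne
  rintro rfl
  exact hi hj

theorem qg_diag_blk (J : Finset κ) (d : κ → F) (hd : ∀ i, i ∉ J → d i = 1) :
    blk J (Matrix.diagonal d) = 1 := by
  ext a b
  show Matrix.diagonal d a.1 b.1 = (1 : Matrix {i // i ∉ J} {i // i ∉ J} F) a b
  by_cases hab : a = b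
  · rw [hab, Matrix.diagonal_apply_eq, Matrix.one_apply_eq, hd b.1 b.2]
  · rw [Matrix.diagonal_apply_ne _ (fun h => hab (Subtype.ext h)), Matrix.one_apply_ne hab]

/-- QG -/
theorem qg {X : Subgroup (GL κ F)} (hX : MonIn X) (hG : GProp F) : QGP X := by
  classical
  intro J hJ h3 x hx hxS hxnm
  obtain ⟨j0, hj0⟩ := hJ
  -- the subgroup of the blocks
  let Y : Subgroup (GL {i // i ∉ J} F) :=
    { carrier := {C | ∃ y ∈ X, StabJ J (y : Matrix κ κ F) ∧
        blk J (y : Matrix κ κ F) = (C : Matrix {i // i ∉ J} {i // i ∉ J} F)}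
      mul_mem' := by
        rintro C C' ⟨y, hy, hyS, hyC⟩ ⟨y', hy', hyS', hyC'⟩
        refine ⟨y * y', X.mul_mem hy hy', ?_, ?_⟩
        · rw [Units.val_mul]
          exact hyS.mul hyS'
        · rw [Units.val_mul, blk_mul hyS, hyC, hyC', Units.val_mul]
      one_mem' := ⟨1, X.one_mem, by rw [Units.val_one]; exact stabJ_one J, by
        rw [Units.val_one, blk_one, Units.val_one]⟩
      inv_mem' := by
        rintro C ⟨y, hy, hyS, hyC⟩
        refine ⟨y⁻¹, X.inv_mem hy, stabJ_inv y hyS, ?_⟩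
        have h1 : (C : Matrix {i // i ∉ J} {i // i ∉ J} F) *
            blk J ((y⁻¹ : GL κ F) : Matrix κ κ F) = 1 := by
          rw [← hyC, ← blk_mul hyS, ← Units.val_mul, mul_inv_cancel, Units.val_one, blk_one]
        exact (Units.inv_eq_of_mul_eq_one_right h1).symm }
  have hYmem : ∀ C : GL {i // i ∉ J} F, C ∈ Y ↔ ∃ y ∈ X, StabJ J (y : Matrix κ κ F) ∧
      blk J (y : Matrix κ κ F) = (C : Matrix {i // i ∉ J} {i // i ∉ J} F) := fun C => Iff.rfl
  -- `Y` contains the monomial matrices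
  have hGM : GMonIn Y := by
    intro C hC
    rw [hYmem]
    -- the correction of the determinant
    have hdet : IsUnit (qg_gl J C : Matrix κ κ F).det :=
      (Matrix.isUnit_iff_isUnit_det _).1 (qg_gl J C).isUnit
    obtain ⟨δ, hδ⟩ := hdet
    obtain ⟨d, hd⟩ : ∃ d : κ → Fˣ, d = fun i => if i = j0 then δ⁻¹ else 1 := ⟨_, rfl⟩
    have hdJ : ∀ i, i ∉ J → ((d i : Fˣ) : F) = 1 := by
      intro i hi
      have hne : i ≠ j0 := fun h => hi (h ▸ hj0)
      rw [hd]
      simp [hne]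
    have hprod : ∏ i, ((d i : Fˣ) : F) = ((δ⁻¹ : Fˣ) : F) := by
      rw [Finset.prod_eq_single j0]
      · rw [hd]
        simp
      · intro i _ hne
        rw [hd]
        simp [hne]
      · intro h
        exact absurd (Finset.mem_univ j0) h
    refine ⟨qg_gl J C * diagU d, ?_, ?_, ?_⟩
    · apply hX
      · rw [Units.val_mul, Matrix.det_mul, det_diagU, hprod, ← hδ, ← Units.val_mul,
          mul_inv_cancel, Units.val_one]
      · rw [Units.val_mul]
        exact (qg_ext_isMono J _ hC).mul (isMono_diagU d)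
    · rw [Units.val_mul]
      exact (qg_ext_stabJ J _).mul (qg_diag_stabJ J _)
    · rw [Units.val_mul, qg_gl_val, blk_mul (qg_ext_stabJ J _), qg_ext_blk, diagU_val,
        qg_diag_blk J _ hdJ, Matrix.mul_one]
  -- a non-monomial element of `Y`
  obtain ⟨C0, hC0⟩ : ∃ C0 : GL {i // i ∉ J} F,
      (C0 : Matrix {i // i ∉ J} {i // i ∉ J} F) = blk J (x : Matrix κ κ F) :=
    ⟨⟨blk J (x : Matrix κ κ F), blk J ((x⁻¹ : GL κ F) : Matrix κ κ F),
      by rw [← blk_mul hxS, ← Units.val_mul, mul_inv_cancel, Units.val_one, blk_one],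
      by rw [← blk_mul (stabJ_inv x hxS), ← Units.val_mul, inv_mul_cancel, Units.val_one,
        blk_one]⟩, rfl⟩
  have hC0Y : C0 ∈ Y := (hYmem C0).2 ⟨x, hx, hxS, hC0.symm⟩
  have hC0nm : ¬ IsMono (C0 : Matrix {i // i ∉ J} {i // i ∉ J} F) := by
    rw [hC0]
    exact hxnm
  obtain ⟨k, l, a, g, hkl, ha, hgY, hg⟩ := hG {i // i ∉ J} Y h3 hGM ⟨C0, hC0Y, hC0nm⟩
  obtain ⟨z, hz, hzS, hzC⟩ := (hYmem g).1 hgY
  exact ⟨z, hz, hzS, k, l, a, hkl, ha, by rw [hzC, hg]⟩

end

end Cfsg.Agent.Lib.Helper65.Mono
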