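import Cfsg.Agent.Lib.Helper10.LC0

set_option autoImplicit false

namespace Cfsg.Agent.Lib.Helper16.LCB12

open Matrix Cfsg.Agent.Lib.Helper10.LC

/-- Piece B12 of S0406: an odd vector of `M` whose pattern lies in the code has signed coordinate
sum `4` modulo `8`. -/
theorem odd_sum {M : AddSubgroup (Fin 24 → ℤ)} (hM : Good M) (ε : Fin 24 → ℤ)
    (hε : ∀ i, ε i = 1 ∨ ε i = -1)
    (h4 : ∀ z : Fin 24 → ℤ, (∑ i, z i) % 2 = 0 → (fun i => 4 * z i) ∈ M)
    (hw : ∀ c ∈ code M, 4 ∣ hammingNorm c)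
    (y : Fin 24 → ℤ) (hy : y ∈ M) (hodd : ∀ i, y i % 2 = 1)
    (hpat : (fun i => if (ε i * y i) % 4 = 3 then (1 : ZMod 2) else 0) ∈ code M) :
    (∑ i, ε i * y i) % 8 = 4 := by
  classical
  have hy'odd : ∀ i, (ε i * y i) % 2 = 1 := by
    intro i
    have h1 := hodd i
    rcases hε i with h | h <;> rw [h] <;> omega
  have hdiv : ∀ i, ∃ zi : ℤ,
      ε i * y i - (if (ε i * y i) % 4 = 3 then (-1 : ℤ) else 1) = 4 * zi := by
    intro i
    have h1 := hy'odd i
    split_ifs with h
    · exact ⟨(ε i * y i + 1) / 4, by omega⟩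
    · exact ⟨(ε i * y i - 1) / 4, by omega⟩
  choose z hz using hdiv
  obtain ⟨k, hk⟩ := hw _ hpat
  have hcard : hammingNorm (fun i => if (ε i * y i) % 4 = 3 then (1 : ZMod 2) else 0)
      = (Finset.univ.filter (fun i : Fin 24 => (ε i * y i) % 4 = 3)).card := by
    unfold hammingNorm
    congr 1
    ext i
    simp
  rw [hcard] at hk
  have hc2 := Finset.card_filter_add_card_filter_not
    (s := (Finset.univ : Finset (Fin 24))) (fun i => (ε i * y i) % 4 = 3)
  rw [Finset.card_univ, Fintype.card_fin] at hc2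
  have hsum_s : ∑ i : Fin 24, (if (ε i * y i) % 4 = 3 then (-1 : ℤ) else 1)
      = 24 - 2 * ((Finset.univ.filter (fun i : Fin 24 => (ε i * y i) % 4 = 3)).card : ℤ) := by
    rw [Finset.sum_ite, Finset.sum_const, Finset.sum_const]
    simp only [nsmul_eq_mul, mul_neg, mul_one]
    have hc3 : ((Finset.univ.filter (fun i : Fin 24 => ¬ (ε i * y i) % 4 = 3)).card : ℤ)
        = 24 - ((Finset.univ.filter (fun i : Fin 24 => (ε i * y i) % 4 = 3)).card : ℤ) := by
      omega
    rw [hc3]
    ring
  have hsum : ∑ i, ε i * y i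
      = ∑ i : Fin 24, (if (ε i * y i) % 4 = 3 then (-1 : ℤ) else 1) + 4 * ∑ i, z i := by
    rw [Finset.mul_sum, ← Finset.sum_add_distrib]
    apply Finset.sum_congr rfl
    intro i _
    have h1 := hz i
    linarith
  by_contra hne
  have hzeven : (∑ i, z i) % 2 = 0 := by
    rw [hsum, hsum_s] at hne
    omega
  -- the sum of ε i * z i is even too
  have hsum2 : ∑ i, ε i * z i = ∑ i, z i + 2 * ∑ i, (if ε i = 1 then (0 : ℤ) else -z i) := by
    rw [Finset.mul_sum, ← Finset.sum_add_distrib]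
    apply Finset.sum_congr rfl
    intro i _
    rcases hε i with h | h
    · rw [h]; simp
    · rw [h]
      have : ¬ ((-1 : ℤ) = 1) := by norm_num
      rw [if_neg this]
      ring
  have hzz : (∑ i, ε i * z i) % 2 = 0 := by
    rw [hsum2]
    omega
  have hmem : (fun i => 4 * (ε i * z i)) ∈ M := h4 (fun i => ε i * z i) hzz
  have hwm : y - (fun i => 4 * (ε i * z i)) ∈ M := M.sub_mem hy hmem
  have hval : ∀ i, (y - (fun i => 4 * (ε i * z i))) i = 1 ∨ (y - (fun i => 4 * (ε i * z i))) i = -1 := by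
    intro i
    have h1 := hz i
    simp only [Pi.sub_apply]
    rcases hε i with h | h
    · rw [h] at h1 ⊢
      split_ifs at h1 with h2
      · right; linarith
      · left; linarith
    · rw [h] at h1 ⊢
      split_ifs at h1 with h2
      · left; linarith
      · right; linarith
  have hne0 : y - (fun i => 4 * (ε i * z i)) ≠ 0 := by
    intro h0
    have h1 := hval 0
    rw [h0] at h1
    simp at h1
  have h32 := hM.norm32 _ hwm hne0
  have hsq : ∑ i, (y - (fun i => 4 * (ε i * z i))) i ^ 2 = 24 := by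
    have h1 : ∀ i ∈ (Finset.univ : Finset (Fin 24)),
        (y - (fun i => 4 * (ε i * z i))) i ^ 2 = 1 := by
      intro i _
      rcases hval i with h | h <;> rw [h] <;> norm_num
    rw [Finset.sum_congr rfl h1]
    simp
  rw [hsq] at h32
  norm_num at h32

end Cfsg.Agent.Lib.Helper16.LCB12
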