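import Mathlib
import Cfsg.Prelude.Def_GeometricClasses
import Cfsg.Prelude.Def_LieClassical
import Cfsg.Agent.Lib.Helper71.Asch5
import Cfsg.Agent.Lib.Helper82.ASB8UNITS
import Cfsg.Agent.Lib.Helper44.BADDefs

/-! Project BAD (helper44; sub-project of helper49's SUG = S5663): piece SWNORM (helper16). -/

set_option autoImplicit false

namespace Cfsg.Agent.Lib.Helper44.BAD

open Matrix Cfsg.Geo Cfsg.Agent.Lib.Helper71.Asch
open scoped Kronecker

variable {n : ℕ} {F : Type*} [Field F] [Fintype F] {q : ℕ}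

/-- SWNORM: the swap normalises `E`. -/
theorem SWNORM (e : Fin n ≃ Fin 3 × Fin 3) (P : GL (Fin n) F) (E : Subgroup (GL (Fin n) F))
    (hE : EIs e P E) (s : GL (Fin n) F)
    (hsw : ∀ a b : Matrix (Fin 3) (Fin 3) F, s.1 * tmat e P a b = tmat e P b a * s.1) :
    s ∈ Subgroup.normalizer (E : Set (GL (Fin n) F)) := by
  rw [Subgroup.mem_normalizer_iff]
  have hinv1 : (s⁻¹ : GL (Fin n) F).1 * s.1 = 1 := by
    rw [← Units.val_mul, inv_mul_cancel, Units.val_one]
  have hinv2 : s.1 * (s⁻¹ : GL (Fin n) F).1 = 1 := by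
    rw [← Units.val_mul, mul_inv_cancel, Units.val_one]
  intro h
  constructor
  · intro hh
    obtain ⟨a, ha, b, hb, hab⟩ := (hE h).mp hh
    apply (hE _).mpr
    refine ⟨b, hb, a, ha, ?_⟩
    rw [Units.val_mul, Units.val_mul, hab, hsw, mul_assoc, hinv2, mul_one]
  · intro hh
    obtain ⟨a, ha, b, hb, hab⟩ := (hE _).mp hh
    apply (hE h).mpr
    refine ⟨b, hb, a, ha, ?_⟩
    rw [Units.val_mul, Units.val_mul] at hab
    have h1 : s.1 * h.1 = tmat e P a b * s.1 := by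
      calc s.1 * h.1 = s.1 * h.1 * ((s⁻¹ : GL (Fin n) F).1 * s.1) := by rw [hinv1, mul_one]
        _ = (s.1 * h.1 * (s⁻¹ : GL (Fin n) F).1) * s.1 := by rw [← mul_assoc]
        _ = tmat e P a b * s.1 := by rw [hab]
    rw [← hsw b a] at h1
    calc h.1 = ((s⁻¹ : GL (Fin n) F).1 * s.1) * h.1 := by rw [hinv1, one_mul]
      _ = (s⁻¹ : GL (Fin n) F).1 * (s.1 * h.1) := by rw [mul_assoc]
      _ = (s⁻¹ : GL (Fin n) F).1 * (s.1 * tmat e P b a) := by rw [h1]
      _ = tmat e P b a := by rw [← mul_assoc, hinv1, one_mul]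

end Cfsg.Agent.Lib.Helper44.BAD
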