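import Mathlib

/-!
# S4503, piece NCL (helper16 for helper22): a central element of prime order `p` whose normal
closure is the whole group generates a group of order `p`.
-/

set_option autoImplicit false

namespace Cfsg.Agent.Lib.Helper16.BFT

universe u

variable {G : Type u} [Group G] [Fintype G]

/-- PIECE NCL -/
theorem card_of_central (p : ℕ) [Fact p.Prime] (z : G) (hz : orderOf z = p)
    (hncl : Subgroup.normalClosure ({z} : Set G) = ⊤) (hc : z ∈ Subgroup.center G) :
    Nat.card G = p := by
  have hn : (Subgroup.zpowers z).Normal := by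
    constructor
    intro n hn g
    obtain ⟨k, rfl⟩ := Subgroup.mem_zpowers_iff.1 hn
    have hzk : z ^ k ∈ Subgroup.center G := Subgroup.zpow_mem _ hc k
    rw [Subgroup.mem_center_iff] at hzk
    rw [hzk g, mul_inv_cancel_right]
    exact hn
  have h1 : Subgroup.normalClosure ({z} : Set G) ≤ Subgroup.zpowers z :=
    Subgroup.normalClosure_le_normal (by
      intro x hx
      rw [Set.mem_singleton_iff] at hx
      rw [hx]
      exact Subgroup.mem_zpowers z)
  rw [hncl] at h1
  have h2 : Subgroup.zpowers z = ⊤ := top_le_iff.1 h1
  rw [← hz, ← Nat.card_zpowers, h2, Subgroup.card_top]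

end Cfsg.Agent.Lib.Helper16.BFT
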