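import Mathlib
import Cfsg.Agent.Lib.Helper5.BQ0
import Cfsg.Agent.Lib.Helper82.CharCore
import Cfsg.Agent.Lib.Helper83.IrrBasic

/-!
# S0996 piece BQ-P3 (helper16, for helper5): `sumD_deg`.
-/

set_option autoImplicit false

namespace Cfsg.Agent.Lib.Helper5.BQ

open Cfsg
open Cfsg.Agent.Lib.Helper83 (trivIrr)
open Cfsg.Agent.Lib.Helper10.BR (psum DOut)
open scoped ComplexConjugate

namespace BQP3

variable {G : Type*} [Group G] [Fintype G]

theorem psum_triv (H : Subgroup G) :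
    psum H (trivIrr G : G → ℂ) 1 = (Nat.card H : ℂ) := by
  classical
  rw [Cfsg.Agent.Lib.Helper10.BR.psum_eq_sum]
  simp [Cfsg.Agent.Lib.Helper83.trivIrr_apply, Nat.card_eq_fintype_card]

theorem psum_conj (H : Subgroup G) (ψ : IrrCharacter G) :
    conj (psum H (ψ : G → ℂ) 1) = psum H (ψ : G → ℂ) 1 := by
  classical
  rw [Cfsg.Agent.Lib.Helper10.BR.psum_eq_sum, map_sum]
  have h1 : ∀ u : H, conj ((ψ : G → ℂ) (1 * (u : G))) =
      (ψ : G → ℂ) (1 * ((u⁻¹ : H) : G)) := by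
    intro u
    rw [one_mul, one_mul, Subgroup.coe_inv, Cfsg.Agent.Lib.Helper83.irr_inv ψ.2]
  rw [Finset.sum_congr rfl (fun u _ => h1 u)]
  exact Equiv.sum_comp (Equiv.inv H) (fun u => (ψ : G → ℂ) (1 * (u : G)))

end BQP3

section T

variable {G : Type*} [Group G] [Fintype G] {p e t n : ℕ} {P : Subgroup G} {ε : ℤ} {x₀ : ℕ}
  {A B Y D : Finset (IrrCharacter G)}

/-- BQ-P3 -/
theorem sumD_deg (h : GTab G p e t n P ε x₀ A B Y D)
    (hpf : ∀ g : G, ∑ᶠ ψ : IrrCharacter G,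
        conj (psum (Subgroup.normalizer (P : Set G)) (ψ : G → ℂ) 1) * (ψ : G → ℂ) g =
      (Nat.card {c : G // c⁻¹ * g * c ∈ Subgroup.normalizer (P : Set G)} : ℂ))
    (hA : ∀ χ ∈ A, psum (Subgroup.normalizer (P : Set G)) (χ : G → ℂ) 1 = 0)
    (hB : ∀ χ ∈ B, psum (Subgroup.normalizer (P : Set G)) (χ : G → ℂ) 1 = 0)
    (hY : ∀ θ ∈ Y, psum (Subgroup.normalizer (P : Set G)) (θ : G → ℂ) 1 = 0) :
    ∑ ψ ∈ D, psum (Subgroup.normalizer (P : Set G)) (ψ : G → ℂ) 1 * (ψ : G → ℂ) 1 =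
      (((e * p) * (n * p) : ℕ) : ℂ) := by
  classical
  have : Finite (IrrCharacter G) := Cfsg.Agent.Lib.Helper82.finite_irrCharacter G
  have h1 := hpf 1
  have h2 := h.finsum_split (fun ψ : IrrCharacter G =>
    conj (psum (Subgroup.normalizer (P : Set G)) (ψ : G → ℂ) 1) * (ψ : G → ℂ) 1)
  rw [h2] at h1
  have hcard : Nat.card {c : G // c⁻¹ * 1 * c ∈ Subgroup.normalizer (P : Set G)} =
      Nat.card G := by
    apply Nat.card_congr
    exact Equiv.subtypeUnivEquiv (fun c => by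
      rw [mul_one, inv_mul_cancel]; exact Subgroup.one_mem _)
  have hAs : ∑ ψ ∈ A, conj (psum (Subgroup.normalizer (P : Set G)) (ψ : G → ℂ) 1) *
      (ψ : G → ℂ) 1 = 0 :=
    Finset.sum_eq_zero (fun χ hχ => by rw [hA χ hχ, map_zero, zero_mul])
  have hBs : ∑ ψ ∈ B, conj (psum (Subgroup.normalizer (P : Set G)) (ψ : G → ℂ) 1) *
      (ψ : G → ℂ) 1 = 0 :=
    Finset.sum_eq_zero (fun χ hχ => by rw [hB χ hχ, map_zero, zero_mul])
  have hYs : ∑ ψ ∈ Y, conj (psum (Subgroup.normalizer (P : Set G)) (ψ : G → ℂ) 1) *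
      (ψ : G → ℂ) 1 = 0 :=
    Finset.sum_eq_zero (fun χ hχ => by rw [hY χ hχ, map_zero, zero_mul])
  have hDs : ∑ ψ ∈ D, conj (psum (Subgroup.normalizer (P : Set G)) (ψ : G → ℂ) 1) *
      (ψ : G → ℂ) 1 =
      ∑ ψ ∈ D, psum (Subgroup.normalizer (P : Set G)) (ψ : G → ℂ) 1 * (ψ : G → ℂ) 1 :=
    Finset.sum_congr rfl (fun ψ _ => by rw [BQP3.psum_conj])
  rw [hAs, hBs, hYs, hDs, BQP3.psum_triv, h.cardN, Cfsg.Agent.Lib.Helper83.trivIrr_apply,
    hcard, h.cardG] at h1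
  have h3 : ∑ ψ ∈ D, psum (Subgroup.normalizer (P : Set G)) (ψ : G → ℂ) 1 * (ψ : G → ℂ) 1 =
      (((1 + n * p) * (e * p) : ℕ) : ℂ) - ((e * p : ℕ) : ℂ) := by
    rw [← h1, Complex.conj_natCast]
    ring
  rw [h3]
  push_cast
  ring

end T

end Cfsg.Agent.Lib.Helper5.BQ
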