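import Mathlib
import Cfsg.Agent.Lib.Helper5.BQ0
import Cfsg.Agent.Lib.Helper82.CharCore
import Cfsg.Agent.Lib.Helper83.IrrBasic

/-!
# S0996 piece BQ-P9 (helper16, for helper5): `fix_count`.
-/

set_option autoImplicit false

namespace Cfsg.Agent.Lib.Helper5.BQ

open Cfsg
open Cfsg.Agent.Lib.Helper83 (trivIrr)
open Cfsg.Agent.Lib.Helper10.BR (psum DOut)
open scoped ComplexConjugate

namespace BQP9

variable {G : Type*} [Group G] [Fintype G]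

theorem psum_triv (H : Subgroup G) :
    psum H (trivIrr G : G → ℂ) 1 = (Nat.card H : ℂ) := by
  classical
  rw [Cfsg.Agent.Lib.Helper10.BR.psum_eq_sum]
  simp [Cfsg.Agent.Lib.Helper83.trivIrr_apply, Nat.card_eq_fintype_card]

theorem psum_conj (H : Subgroup G) (ψ : IrrCharacter G) :
    conj (psum H (ψ : G → ℂ) 1) = psum H (ψ : G → ℂ) 1 := by
  classical
  rw [Cfsg.Agent.Lib.Helper10.BR.psum_eq_sum, map_sum]
  have h1 : ∀ u : H, conj ((ψ : G → ℂ) (1 * (u : G))) =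
      (ψ : G → ℂ) (1 * ((u⁻¹ : H) : G)) := by
    intro u
    rw [one_mul, one_mul, Subgroup.coe_inv, Cfsg.Agent.Lib.Helper83.irr_inv ψ.2]
  rw [Finset.sum_congr rfl (fun u _ => h1 u)]
  exact Equiv.sum_comp (Equiv.inv H) (fun u => (ψ : G → ℂ) (1 * (u : G)))

end BQP9

section T

variable {G : Type*} [Group G] [Fintype G] {p e t n : ℕ} {P : Subgroup G} {ε : ℤ} {x₀ : ℕ}
  {A B Y D : Finset (IrrCharacter G)}

/-- BQ-P9 -/
theorem fix_count (h : GTab G p e t n P ε x₀ A B Y D)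
    (hpf : ∀ g : G, ∑ᶠ ψ : IrrCharacter G,
        conj (psum (Subgroup.normalizer (P : Set G)) (ψ : G → ℂ) 1) * (ψ : G → ℂ) g =
      (Nat.card {c : G // c⁻¹ * g * c ∈ Subgroup.normalizer (P : Set G)} : ℂ))
    (hA : ∀ χ ∈ A, psum (Subgroup.normalizer (P : Set G)) (χ : G → ℂ) 1 = 0)
    (hB : ∀ χ ∈ B, psum (Subgroup.normalizer (P : Set G)) (χ : G → ℂ) 1 = 0)
    (hY : ∀ θ ∈ Y, psum (Subgroup.normalizer (P : Set G)) (θ : G → ℂ) 1 = 0)
    (hD : ∀ ψ ∈ D, (p : ℂ) * psum (Subgroup.normalizer (P : Set G)) (ψ : G → ℂ) 1 =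
      ((e * p : ℕ) : ℂ) * (ψ : G → ℂ) 1)
    (hsq : ∑ ψ ∈ D, ((ψ : G → ℂ) 1) ^ 2 = ((n * p ^ 2 : ℕ) : ℂ))
    (hDv : ∀ ψ ∈ D, ∀ y ∈ Subgroup.normalizer (P : Set G), y ∉ P →
      (p : ℂ) * (ψ : G → ℂ) y = (ψ : G → ℂ) 1) :
    ∀ y ∈ Subgroup.normalizer (P : Set G), y ∉ P →
      Nat.card {c : G // c⁻¹ * y * c ∈ Subgroup.normalizer (P : Set G)} =
        (n + 1) * (e * p) := by
  classical
  intro y hy hyP
  have : Finite (IrrCharacter G) := Cfsg.Agent.Lib.Helper82.finite_irrCharacter G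
  have hp0 : (p : ℂ) ≠ 0 := by exact_mod_cast h.hp.ne_zero
  have h1 := hpf y
  have h2 := h.finsum_split (fun ψ : IrrCharacter G =>
    conj (psum (Subgroup.normalizer (P : Set G)) (ψ : G → ℂ) 1) * (ψ : G → ℂ) y)
  rw [h2] at h1
  have hAs : ∑ ψ ∈ A, conj (psum (Subgroup.normalizer (P : Set G)) (ψ : G → ℂ) 1) *
      (ψ : G → ℂ) y = 0 :=
    Finset.sum_eq_zero (fun χ hχ => by rw [hA χ hχ, map_zero, zero_mul])
  have hBs : ∑ ψ ∈ B, conj (psum (Subgroup.normalizer (P : Set G)) (ψ : G → ℂ) 1) *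
      (ψ : G → ℂ) y = 0 :=
    Finset.sum_eq_zero (fun χ hχ => by rw [hB χ hχ, map_zero, zero_mul])
  have hYs : ∑ ψ ∈ Y, conj (psum (Subgroup.normalizer (P : Set G)) (ψ : G → ℂ) 1) *
      (ψ : G → ℂ) y = 0 :=
    Finset.sum_eq_zero (fun χ hχ => by rw [hY χ hχ, map_zero, zero_mul])
  have hterm : ∀ ψ ∈ D, conj (psum (Subgroup.normalizer (P : Set G)) (ψ : G → ℂ) 1) *
      (ψ : G → ℂ) y = (e : ℂ) / (p : ℂ) * ((ψ : G → ℂ) 1) ^ 2 := by
    intro ψ hψ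
    have hK : psum (Subgroup.normalizer (P : Set G)) (ψ : G → ℂ) 1 =
        (e : ℂ) * (ψ : G → ℂ) 1 := by
      apply mul_left_cancel₀ hp0
      rw [hD ψ hψ]
      push_cast
      ring
    have hy' : (ψ : G → ℂ) y = (ψ : G → ℂ) 1 / (p : ℂ) := by
      rw [eq_div_iff hp0, mul_comm]
      exact hDv ψ hψ y hy hyP
    rw [BQP9.psum_conj, hK, hy']
    field_simp
  have hDs : ∑ ψ ∈ D, conj (psum (Subgroup.normalizer (P : Set G)) (ψ : G → ℂ) 1) *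
      (ψ : G → ℂ) y = (e : ℂ) * (n : ℂ) * (p : ℂ) := by
    rw [Finset.sum_congr rfl hterm, ← Finset.mul_sum, hsq]
    push_cast
    field_simp
  rw [hAs, hBs, hYs, hDs, BQP9.psum_triv, h.cardN, Cfsg.Agent.Lib.Helper83.trivIrr_apply,
    Complex.conj_natCast] at h1
  have h3 : ((Nat.card {c : G // c⁻¹ * y * c ∈ Subgroup.normalizer (P : Set G)} : ℕ) : ℂ) =
      (((n + 1) * (e * p) : ℕ) : ℂ) := by
    rw [← h1]
    push_cast
    ring
  exact_mod_cast h3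

end T

end Cfsg.Agent.Lib.Helper5.BQ
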