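import Mathlib
import Cfsg.Agent.Lib.Helper4.CharSimple
import Cfsg.Agent.Lib.Helper83.Codeg

/-!
# S0997 (Brauer–Tuan, cases B1/B2; architect helper5): piece BW-C3 (proved by helper16)

Burnside vanishing for a simple noncyclic group: a nontrivial irreducible character vanishes at
a nonidentity element whose class size is coprime to the degree.
-/

set_option autoImplicit false

namespace Cfsg.Agent.Lib.Helper5.BW

open Cfsg
open Cfsg.Agent.Lib.Helper83 (trivIrr)
open scoped ComplexConjugate

/-- BW-C3 -/
theorem burnside_zero {G : Type*} [Group G] [Fintype G] [IsSimpleGroup G] (hG : ¬ IsCyclic G)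
    (χ : IrrCharacter G) (hχ : χ ≠ trivIrr G) (w : G) (hw : w ≠ 1)
    (hcop : Nat.Coprime (charDegree (χ : G → ℂ)) (Nat.card {y : G // IsConj w y})) :
    (χ : G → ℂ) w = 0 := by
  classical
  obtain ⟨n, ρ, hρ, hχρ⟩ := χ.2
  have hd : Module.finrank ℂ (Fin n → ℂ) = n := by simp
  have hχ1 : (χ : G → ℂ) 1 = (n : ℂ) := by rw [← hχρ, Representation.char_one, hd]
  have hdeg : charDegree (χ : G → ℂ) = n := by
    unfold charDegree
    rw [hχ1]
    simp
  have hcard : Nat.card {y : G // IsConj w y} =
      (Finset.univ.filter (fun x : G => IsConj x w)).card := by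
    rw [Nat.card_eq_fintype_card, Fintype.card_subtype]
    congr 1
    ext x
    simp only [Finset.mem_filter, Finset.mem_univ, true_and]
    exact ⟨fun h => h.symm, fun h => h.symm⟩
  have hcop' : Nat.Coprime (Module.finrank ℂ (Fin n → ℂ))
      (Finset.univ.filter (fun x : G => IsConj x w)).card := by
    rw [hd, ← hcard, ← hdeg]
    exact hcop
  rcases Cfsg.Agent.Lib.Helper4.char_eq_zero_or_norm_eq ρ w hcop' with h0 | hnorm
  · rw [← hχρ]
    exact h0
  · exfalso
    obtain ⟨ω, hω⟩ := (Cfsg.Agent.Lib.Helper4.norm_char_eq_iff ρ w).mp hnorm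
    let Z : Subgroup G :=
      (Subgroup.center (Module.End ℂ (Fin n → ℂ))ˣ).comap ρ.asGroupHom
    have hZn : Z.Normal := inferInstance
    have hgZ : w ∈ Z := by
      rw [Subgroup.mem_comap, Subgroup.mem_center_iff]
      intro u
      apply Units.ext
      simp only [Units.val_mul, Representation.asGroupHom_apply]
      rw [hω]
      ext v
      simp
    have hZtop : Z = ⊤ := (hZn.eq_bot_or_eq_top).resolve_left
      (fun h => hw (by rw [h] at hgZ; exact Subgroup.mem_bot.mp hgZ))
    rcases (MonoidHom.normal_ker ρ.asGroupHom).eq_bot_or_eq_top with hker | hker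
    · apply hG
      have hc : ∀ a b : G, a * b = b * a := by
        intro a b
        have hinj := (MonoidHom.ker_eq_bot_iff _).mp hker
        apply hinj
        rw [map_mul, map_mul]
        have ha : a ∈ Z := hZtop ▸ Subgroup.mem_top a
        exact ((Subgroup.mem_center_iff.mp (Subgroup.mem_comap.mp ha)) (ρ.asGroupHom b)).symm
      let _ : CommGroup G := { ‹Group G› with mul_comm := hc }
      exact IsSimpleGroup.isCyclic
    · apply hχ
      have htriv : ∀ x, ρ x = 1 := fun x => by
        have hx : x ∈ ρ.asGroupHom.ker := hker ▸ Subgroup.mem_top x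
        have := MonoidHom.mem_ker.mp hx
        rw [← Representation.asGroupHom_apply, this]
        rfl
      apply Cfsg.Agent.Lib.Helper83.eq_trivIrr_of_const
      intro x
      rw [← hχρ]
      show LinearMap.trace ℂ (Fin n → ℂ) (ρ x) = LinearMap.trace ℂ (Fin n → ℂ) (ρ 1)
      rw [htriv x, htriv 1]

end Cfsg.Agent.Lib.Helper5.BW
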