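import Mathlib
import Cfsg.Agent.Lib.Helper25.StDefs

/-!
# Steinberg project, piece P6 "BigCell" (helper16 for helper25)

The `b`-fixed points of `G ⧸ B` in the cell of `n₀` correspond to the `b`-fixed points of
`B ⧸ (B ⊓ n₀ B n₀⁻¹)`.
-/

set_option autoImplicit false

namespace Cfsg.Agent.Lib.Helper25

open Cfsg Cfsg.Agent.Lib.Helper8

/-- the map `y T ↦ y n₀ B` -/
def bigcell_f {G : Type*} [Group G] (P : BNPair G) (T : Subgroup G) (n₀ : P.N)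
    (hT : ∀ g : G, g ∈ T ↔ g ∈ P.B ∧ (n₀ : G)⁻¹ * g * (n₀ : G) ∈ P.B) :
    P.B ⧸ T.subgroupOf P.B → G ⧸ P.B :=
  fun q => Quotient.liftOn' q
    (fun y : P.B => (QuotientGroup.mk ((y : G) * (n₀ : G)) : G ⧸ P.B)) (by
      intro y y' h
      rw [QuotientGroup.leftRel_apply, Subgroup.mem_subgroupOf] at h
      have h1 := ((hT _).1 h).2
      apply QuotientGroup.eq.2
      have e : ((y : G) * (n₀ : G))⁻¹ * ((y' : G) * (n₀ : G)) =
          (n₀ : G)⁻¹ * ((y⁻¹ * y' : P.B) : G) * (n₀ : G) := by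
        rw [Subgroup.coe_mul, Subgroup.coe_inv]
        group
      rw [e]
      exact h1)

theorem bigcell_f_mk {G : Type*} [Group G] (P : BNPair G) (T : Subgroup G) (n₀ : P.N)
    (hT : ∀ g : G, g ∈ T ↔ g ∈ P.B ∧ (n₀ : G)⁻¹ * g * (n₀ : G) ∈ P.B) (y : P.B) :
    bigcell_f P T n₀ hT (QuotientGroup.mk y) = QuotientGroup.mk ((y : G) * (n₀ : G)) := rfl

theorem bigcell_f_injective {G : Type*} [Group G] (P : BNPair G) (T : Subgroup G) (n₀ : P.N)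
    (hT : ∀ g : G, g ∈ T ↔ g ∈ P.B ∧ (n₀ : G)⁻¹ * g * (n₀ : G) ∈ P.B) :
    Function.Injective (bigcell_f P T n₀ hT) := by
  intro q q'
  refine Quotient.inductionOn₂' q q' ?_
  intro y y' h
  have h' : bigcell_f P T n₀ hT (QuotientGroup.mk y) = bigcell_f P T n₀ hT (QuotientGroup.mk y') := h
  rw [bigcell_f_mk, bigcell_f_mk] at h'
  have h1 := QuotientGroup.eq.1 h'
  have e : ((y : G) * (n₀ : G))⁻¹ * ((y' : G) * (n₀ : G)) =
      (n₀ : G)⁻¹ * ((y⁻¹ * y' : P.B) : G) * (n₀ : G) := by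
    rw [Subgroup.coe_mul, Subgroup.coe_inv]
    group
  rw [e] at h1
  apply QuotientGroup.eq.2
  rw [Subgroup.mem_subgroupOf]
  exact (hT _).2 ⟨(y⁻¹ * y').2, h1⟩

theorem bigcell_f_smul {G : Type*} [Group G] (P : BNPair G) (T : Subgroup G) (n₀ : P.N)
    (hT : ∀ g : G, g ∈ T ↔ g ∈ P.B ∧ (n₀ : G)⁻¹ * g * (n₀ : G) ∈ P.B) (b : P.B)
    (q : P.B ⧸ T.subgroupOf P.B) :
    bigcell_f P T n₀ hT (b • q) = (b : G) • bigcell_f P T n₀ hT q := by
  refine Quotient.inductionOn' q ?_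
  intro y
  have h1 : (b • (QuotientGroup.mk y : P.B ⧸ T.subgroupOf P.B)) = QuotientGroup.mk (b * y) := rfl
  have h2 : bigcell_f P T n₀ hT (b • (QuotientGroup.mk y : P.B ⧸ T.subgroupOf P.B)) =
      (b : G) • bigcell_f P T n₀ hT (QuotientGroup.mk y) := by
    rw [h1, bigcell_f_mk, bigcell_f_mk, Subgroup.coe_mul, mul_assoc]
    rfl
  exact h2

theorem bigcell_f_cell {G : Type*} [Group G] (P : BNPair G) (T : Subgroup G) (n₀ : P.N)
    (hT : ∀ g : G, g ∈ T ↔ g ∈ P.B ∧ (n₀ : G)⁻¹ * g * (n₀ : G) ∈ P.B)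
    (q : P.B ⧸ T.subgroupOf P.B) : InCell P (bigcell_f P T n₀ hT q) (cl P n₀) := by
  refine Quotient.inductionOn' q ?_
  intro y
  exact ⟨n₀, rfl, (y : G), y.2, rfl⟩

theorem bigcell_f_surj {G : Type*} [Group G] (P : BNPair G) (T : Subgroup G) (n₀ : P.N)
    (hT : ∀ g : G, g ∈ T ↔ g ∈ P.B ∧ (n₀ : G)⁻¹ * g * (n₀ : G) ∈ P.B)
    (x : G ⧸ P.B) (hx : InCell P x (cl P n₀)) : ∃ q, bigcell_f P T n₀ hT q = x := by
  obtain ⟨n, hn, c, hc, rfl⟩ := hx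
  refine ⟨QuotientGroup.mk (⟨c, hc⟩ : P.B), ?_⟩
  rw [bigcell_f_mk]
  apply QuotientGroup.eq.2
  have h1 : (n₀ : G)⁻¹ * (n : G) ∈ P.B := cl_eq_iff.1 hn.symm
  have e : (((⟨c, hc⟩ : P.B) : G) * (n₀ : G))⁻¹ * (c * (n : G)) = (n₀ : G)⁻¹ * (n : G) := by
    show (c * (n₀ : G))⁻¹ * (c * (n : G)) = (n₀ : G)⁻¹ * (n : G)
    group
  rw [e]
  exact h1

/-- P6 BigCell -/
theorem card_fixed_cell {G : Type*} [Group G] [Finite G] (P : BNPair G) (T : Subgroup G) (n₀ : P.N)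
    (hT : ∀ g : G, g ∈ T ↔ g ∈ P.B ∧ (n₀ : G)⁻¹ * g * (n₀ : G) ∈ P.B) (b : P.B) :
    Nat.card {x : G ⧸ P.B // (b : G) • x = x ∧ InCell P x (cl P n₀)} =
      Nat.card (MulAction.fixedBy (P.B ⧸ T.subgroupOf P.B) b) := by
  classical
  have hfix : ∀ q : MulAction.fixedBy (P.B ⧸ T.subgroupOf P.B) b,
      (b : G) • bigcell_f P T n₀ hT q.1 = bigcell_f P T n₀ hT q.1 := by
    intro q
    rw [← bigcell_f_smul, MulAction.mem_fixedBy.1 q.2]
  let F : MulAction.fixedBy (P.B ⧸ T.subgroupOf P.B) b →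
      {x : G ⧸ P.B // (b : G) • x = x ∧ InCell P x (cl P n₀)} :=
    fun q => ⟨bigcell_f P T n₀ hT q.1, hfix q, bigcell_f_cell P T n₀ hT q.1⟩
  have hF : Function.Bijective F := by
    constructor
    · intro q q' h
      have h1 : bigcell_f P T n₀ hT q.1 = bigcell_f P T n₀ hT q'.1 := congrArg Subtype.val h
      exact Subtype.ext (bigcell_f_injective P T n₀ hT h1)
    · rintro ⟨x, hx1, hx2⟩
      obtain ⟨q, hq⟩ := bigcell_f_surj P T n₀ hT x hx2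
      have hqf : b • q = q := by
        apply bigcell_f_injective P T n₀ hT
        rw [bigcell_f_smul, hq]
        exact hx1
      exact ⟨⟨q, MulAction.mem_fixedBy.2 hqf⟩, Subtype.ext hq⟩
  exact (Nat.card_congr (Equiv.ofBijective F hF)).symm

end Cfsg.Agent.Lib.Helper25
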