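import Mathlib
import Cfsg.Agent.Lib.Helper18.CTDefs

/-!
# Project CT (S4699, architect helper18): piece TAU5 (proof by helper16)

`tau` is nilpotent.
-/

set_option autoImplicit false

namespace Cfsg.Agent.Lib.Helper18.CT

variable {G : Type*} [Group G] {F : Type*} [Field F] {V : Type*} [AddCommGroup V] [Module F V]

theorem tau5_list {R : Type*} [Ring R] (L : List R) (hcomm : ∀ a ∈ L, ∀ b ∈ L, Commute a b)
    (a : R) (ha : a ∈ L) (hnil : IsNilpotent a) : IsNilpotent L.prod := by
  induction L with
  | nil => simp at ha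
  | cons b L' ih =>
    rw [List.prod_cons]
    have hb : Commute b L'.prod :=
      Commute.list_prod_right L' b
        (fun c hc => hcomm b List.mem_cons_self c (List.mem_cons_of_mem _ hc))
    rcases List.mem_cons.mp ha with rfl | ha'
    · exact Commute.isNilpotent_mul_right hb hnil
    · have h1 := ih (fun c hc d hd =>
        hcomm c (List.mem_cons_of_mem _ hc) d (List.mem_cons_of_mem _ hd)) ha'
      exact Commute.isNilpotent_mul_left hb h1

-- piece TAU5
theorem tau_nilp [Finite G] (p : ℕ) [Fact p.Prime] [CharP F p] (ρ : Representation F G V)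
    (P : Subgroup G) (x : G) (hx : Subgroup.zpowers x = P) (n : ℕ) (hxn : x ^ (p ^ n) = 1) :
    IsNilpotent (tau ρ P x) := by
  unfold tau
  have hxmem : x ∈ orbN P x := by
    unfold orbN
    rw [Set.Finite.mem_toFinset]
    exact ⟨1, one_mem _, by simp⟩
  have hsub : ∀ u ∈ orbN P x, u ∈ Subgroup.zpowers x := by
    intro u hu
    unfold orbN at hu
    rw [Set.Finite.mem_toFinset] at hu
    obtain ⟨g, hg, rfl⟩ := hu
    rw [hx]
    have hxP : x ∈ P := by rw [← hx]; exact Subgroup.mem_zpowers x
    exact (Subgroup.mem_normalizer_iff.mp hg x).mp hxP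
  have hnil : IsNilpotent (ρ x - 1) := by
    refine ⟨p ^ n, ?_⟩
    have hpoly : ((Polynomial.X : Polynomial F) - 1) ^ (p ^ n) = Polynomial.X ^ (p ^ n) - 1 := by
      rw [sub_pow_char_pow, one_pow]
    have h := congrArg (Polynomial.aeval (ρ x)) hpoly
    simp only [map_pow, map_sub, Polynomial.aeval_X, map_one] at h
    rw [h, ← map_pow, hxn, map_one, sub_self]
  apply tau5_list _ _ (ρ x - 1) _ hnil
  · intro a ha b hb
    rw [List.mem_map] at ha hb
    obtain ⟨u, hu, rfl⟩ := ha
    obtain ⟨w, hw, rfl⟩ := hb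
    rw [Finset.mem_toList] at hu hw
    have huw : u * w = w * u := by
      obtain ⟨i, rfl⟩ := Subgroup.mem_zpowers_iff.mp (hsub u hu)
      obtain ⟨j, rfl⟩ := Subgroup.mem_zpowers_iff.mp (hsub w hw)
      rw [← zpow_add, ← zpow_add, add_comm]
    have h1 : Commute (ρ u) (ρ w) := by
      show ρ u * ρ w = ρ w * ρ u
      rw [← map_mul, ← map_mul, huw]
    exact (h1.sub_left (Commute.one_left (ρ w))).sub_right (Commute.one_right (ρ u - 1))
  · rw [List.mem_map]
    exact ⟨x, Finset.mem_toList.mpr hxmem, rfl⟩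

end Cfsg.Agent.Lib.Helper18.CT
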