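import Mathlib
import Cfsg.Agent.Lib.Helper70.D11Defs

set_option autoImplicit false

/-!
# S0679, piece SIGN (helper16 for helper70): an even involution of `Fin 11` moves 0, 4 or 8 points;
the signs of the three standard permutations.
-/

namespace Cfsg.Agent.Lib.Helper16.D11

open Equiv Cfsg.Agent.Lib.Helper70.D11

/-- the number of moved points read off the code -/
theorem cnt_eq_card (hgt : ∀ (g : P11) (i : Fin 11), gt (code g) (i : ℕ) = ((g i : Fin 11) : ℕ))
    (t : P11) : cnt (code t) = t.support.card := by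
  have h1 : cnt (code t) =
      ∑ j ∈ Finset.range 11, cond (Nat.beq (gt (code t) j) j) 0 1 := by
    simp only [Finset.sum_range_succ, Finset.sum_range_zero, cnt, Nat.add_eq]
    omega
  have h2 : t.support = Finset.univ.filter (fun x => t x ≠ x) := by
    ext x
    simp
  rw [h1, ← Fin.sum_univ_eq_sum_range (fun j => cond (Nat.beq (gt (code t) j) j) 0 1) 11, h2,
    Finset.card_filter]
  apply Finset.sum_congr rfl
  intro i _
  show cond (Nat.beq (gt (code t) (i : ℕ)) (i : ℕ)) 0 1 = _
  rw [hgt t i]
  by_cases h : t i = i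
  · simp [h]
  · have h3 : ((t i : Fin 11) : ℕ) ≠ (i : ℕ) := fun e => h (Fin.ext e)
    have h4 : Nat.beq ((t i : Fin 11) : ℕ) (i : ℕ) = false := by
      cases hb : Nat.beq ((t i : Fin 11) : ℕ) (i : ℕ) with
      | false => rfl
      | true => exact absurd (Nat.eq_of_beq_eq_true hb) h3
    rw [h4]
    simp [h]

/-- an even involution moves a multiple of four points -/
theorem four_dvd_support_card (t : P11) (ht : t * t = 1) (hs : Perm.sign t = 1) :
    4 ∣ t.support.card := by
  have h2 : t ^ 2 = 1 := by rw [pow_two]; exact ht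
  have hord : orderOf t ∣ 2 := orderOf_dvd_of_pow_eq_one h2
  have hall : ∀ n ∈ t.cycleType, n = 2 := by
    intro n hn
    have h3 : n ∣ 2 := (Equiv.Perm.dvd_of_mem_cycleType hn).trans hord
    have h4 : 2 ≤ n := Equiv.Perm.two_le_of_mem_cycleType hn
    have h5 : n ≤ 2 := Nat.le_of_dvd (by norm_num) h3
    omega
  have hrep : t.cycleType = Multiset.replicate (Multiset.card t.cycleType) 2 :=
    Multiset.eq_replicate_card.2 hall
  have hsum : t.cycleType.sum = 2 * Multiset.card t.cycleType := by
    conv_lhs => rw [hrep]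
    rw [Multiset.sum_replicate, smul_eq_mul, mul_comm]
  have hsign := Equiv.Perm.sign_of_cycleType t
  rw [hs, hsum] at hsign
  have heven : Even (Multiset.card t.cycleType) := by
    have h6 : (-1 : ℤˣ) ^ (2 * Multiset.card t.cycleType + Multiset.card t.cycleType) =
        (-1 : ℤˣ) ^ Multiset.card t.cycleType := by
      rw [pow_add, pow_mul]
      simp
    rw [h6] at hsign
    by_contra hodd
    rw [Nat.not_even_iff_odd] at hodd
    rw [hodd.neg_one_pow] at hsign
    exact absurd hsign (by decide)
  obtain ⟨m, hm⟩ := heven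
  rw [← Equiv.Perm.sum_cycleType, hsum, hm]
  exact ⟨m, by ring⟩

theorem evenB_of_sign (hgt : ∀ (g : P11) (i : Fin 11), gt (code g) (i : ℕ) = ((g i : Fin 11) : ℕ))
    (t : P11) (ht : t * t = 1) (hs : Perm.sign t = 1) : evenB (code t) = true := by
  have h1 := four_dvd_support_card t ht hs
  rw [← cnt_eq_card hgt t] at h1
  show Nat.beq (cnt (code t) % 4) 0 = true
  rw [Nat.mod_eq_zero_of_dvd h1]
  rfl

theorem sign_c0 : Perm.sign c0 = 1 := by
  have h : c0 = finRotate 11 := by
    apply Equiv.ext
    intro x
    rw [finRotate_apply]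
    rfl
  rw [h, sign_finRotate]
  norm_num

theorem sign_m3 : Perm.sign m3 = 1 := by
  have h5 : m3 ^ 5 = 1 := by
    apply Equiv.ext
    decide
  have h6 : (Perm.sign m3) ^ 5 = 1 := by
    rw [← map_pow, h5, map_one]
  rcases Int.units_eq_one_or (Perm.sign m3) with h | h
  · exact h
  · rw [h] at h6
    exact absurd h6 (by decide)

theorem sign_u : Perm.sign u = -1 := by
  have h : u = swap (1 : Fin 11) 10 * swap (2 : Fin 11) 9 * swap (3 : Fin 11) 8 *
      swap (4 : Fin 11) 7 * swap (5 : Fin 11) 6 := by
    apply Equiv.ext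
    decide
  rw [h]
  simp only [map_mul]
  rw [Perm.sign_swap (by decide), Perm.sign_swap (by decide), Perm.sign_swap (by decide),
    Perm.sign_swap (by decide), Perm.sign_swap (by decide)]
  decide

end Cfsg.Agent.Lib.Helper16.D11
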