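import Mathlib
import Cfsg.Agent.Lib.Helper92.FT12Defs

/-!
# B&G Theorem 12.12 (S1421, project of helper92), piece LIN3 (helper16)

`A` elementary abelian of order `p²`: an element of `N(A)` normalizing three distinct subgroups
of order `p` of `A` acts on `A` as a power map, hence normalizes every subgroup of `A`.
-/

set_option autoImplicit false

namespace Cfsg.Agent.Lib.Helper16.FT12

universe u

open Cfsg Cfsg.Agent.Lib.Helper92.FT

/-- two distinct subgroups of prime order meet trivially -/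
private theorem lin3_inf {G : Type u} [Group G] [Finite G] (p : ℕ) [Fact p.Prime]
    (X Y : Subgroup G) (hX : Nat.card X = p) (hY : Nat.card Y = p) (hne : X ≠ Y) :
    X ⊓ Y = ⊥ := by
  have hp : p.Prime := Fact.out
  have hd : Nat.card (X ⊓ Y : Subgroup G) ∣ p := hX ▸ Subgroup.card_dvd_of_le inf_le_left
  rcases (Nat.dvd_prime hp).mp hd with h1 | h1
  · exact Subgroup.eq_bot_of_card_eq _ h1
  · exfalso
    have e1 : X ⊓ Y = X := Subgroup.eq_of_le_of_card_ge inf_le_left (by rw [h1, hX])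
    have e2 : X ⊓ Y = Y := Subgroup.eq_of_le_of_card_ge inf_le_right (by rw [h1, hY])
    exact hne (e1.symm.trans e2)

/-- a nonidentity element of a subgroup of prime order generates it -/
private theorem lin3_gen {G : Type u} [Group G] [Finite G] (p : ℕ) [Fact p.Prime]
    (X : Subgroup G) (hX : Nat.card X = p) (x : G) (hx : x ∈ X) (hx1 : x ≠ 1) :
    Subgroup.zpowers x = X := by
  have hp : p.Prime := Fact.out
  have hle : Subgroup.zpowers x ≤ X := (Subgroup.zpowers_le).mpr hx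
  apply Subgroup.eq_of_le_of_card_ge hle
  have hxp : x ^ p = 1 := by
    have h : (⟨x, hx⟩ : X) ^ Nat.card X = 1 := pow_card_eq_one'
    rw [hX] at h
    simpa using congrArg Subtype.val h
  rw [Nat.card_zpowers, orderOf_eq_prime hxp hx1, hX]

/-- `A = X₁ X₂` for two distinct subgroups of order `p` of a group of order `p²` -/
private theorem lin3_decomp {G : Type u} [Group G] [Finite G] (p : ℕ) [Fact p.Prime]
    (A X₁ X₂ : Subgroup G) (hA2 : Nat.card A = p ^ 2) (h₁ : X₁ ≤ A) (h₂ : X₂ ≤ A)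
    (c₁ : Nat.card X₁ = p) (c₂ : Nat.card X₂ = p) (hne : X₁ ≠ X₂) (a : G) (ha : a ∈ A) :
    ∃ x ∈ X₁, ∃ y ∈ X₂, a = x * y := by
  have hinf := lin3_inf p X₁ X₂ c₁ c₂ hne
  let f : ↥X₁ × ↥X₂ → ↥A := fun q => ⟨q.1.1 * q.2.1, A.mul_mem (h₁ q.1.2) (h₂ q.2.2)⟩
  have hf : Function.Injective f := by
    rintro ⟨x, y⟩ ⟨x', y'⟩ h
    have h0 : x.1 * y.1 = x'.1 * y'.1 := congrArg Subtype.val h
    have h1 : x'.1⁻¹ * x.1 = y'.1 * y.1⁻¹ := by
      rw [eq_mul_inv_iff_mul_eq, mul_assoc, h0, inv_mul_cancel_left]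
    have h2 : x'.1⁻¹ * x.1 ∈ X₁ ⊓ X₂ := by
      refine ⟨X₁.mul_mem (X₁.inv_mem x'.2) x.2, ?_⟩
      rw [h1]
      exact X₂.mul_mem y'.2 (X₂.inv_mem y.2)
    rw [hinf, Subgroup.mem_bot] at h2
    have hx : x = x' := by
      apply Subtype.ext
      exact (inv_mul_eq_one.mp h2).symm
    have hy : y = y' := by
      apply Subtype.ext
      rw [h2] at h1
      exact (mul_inv_eq_one.mp h1.symm).symm
    rw [hx, hy]
  have hb : Function.Bijective f := by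
    apply hf.bijective_of_nat_card_le
    rw [Nat.card_prod, c₁, c₂, hA2, sq]
  obtain ⟨⟨x, y⟩, hxy⟩ := hb.2 ⟨a, ha⟩
  exact ⟨x.1, x.2, y.1, y.2, (congrArg Subtype.val hxy).symm⟩

/-- LIN3: an element normalizing three distinct lines of `A` normalizes every line. -/
theorem lin3 : Lin3Stmt.{u} := by
  intro G _ _ p _ A hA hA2 e heA X₁ X₂ X₃ h₁ h₂ h₃ c₁ c₂ c₃ n12 n13 n23 he₁ he₂ he₃ X hX cX
  have hp : p.Prime := Fact.out
  obtain ⟨hAc, hAp⟩ := hA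
  have hcomm : ∀ a ∈ A, ∀ b ∈ A, a * b = b * a := by
    intro a ha b hb
    have h := hAc.is_comm.comm (⟨a, ha⟩ : A) ⟨b, hb⟩
    exact congrArg Subtype.val h
  -- a nonidentity element `a₃` of `X₃`
  have hne3 : ∃ a₃ ∈ X₃, a₃ ≠ 1 := by
    by_contra hcon
    push Not at hcon
    have hbot : X₃ = ⊥ := (Subgroup.eq_bot_iff_forall X₃).mpr hcon
    rw [hbot, Subgroup.card_bot] at c₃
    exact hp.one_lt.ne c₃
  obtain ⟨a₃, ha₃, ha₃1⟩ := hne3
  obtain ⟨u, hu, v, hv, huv⟩ := lin3_decomp p A X₁ X₂ hA2 h₁ h₂ c₁ c₂ n12 a₃ (h₃ ha₃)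
  have i12 := lin3_inf p X₁ X₂ c₁ c₂ n12
  have i13 := lin3_inf p X₁ X₃ c₁ c₃ n13
  have i23 := lin3_inf p X₂ X₃ c₂ c₃ n23
  have hu1 : u ≠ 1 := by
    intro h
    rw [h, one_mul] at huv
    have hm : a₃ ∈ X₂ ⊓ X₃ := ⟨huv ▸ hv, ha₃⟩
    rw [i23, Subgroup.mem_bot] at hm
    exact ha₃1 hm
  have hv1 : v ≠ 1 := by
    intro h
    rw [h, mul_one] at huv
    have hm : a₃ ∈ X₁ ⊓ X₃ := ⟨huv ▸ hu, ha₃⟩
    rw [i13, Subgroup.mem_bot] at hm
    exact ha₃1 hm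
  have g1 := lin3_gen p X₁ c₁ u hu hu1
  have g2 := lin3_gen p X₂ c₂ v hv hv1
  have g3 := lin3_gen p X₃ c₃ a₃ ha₃ ha₃1
  -- the action of `e` on `u`, `v`, `a₃`
  have hcu : e * u * e⁻¹ ∈ Subgroup.zpowers u := by
    rw [g1]
    exact (Subgroup.mem_normalizer_iff.mp he₁ u).mp hu
  have hcv : e * v * e⁻¹ ∈ Subgroup.zpowers v := by
    rw [g2]
    exact (Subgroup.mem_normalizer_iff.mp he₂ v).mp hv
  have hca : e * a₃ * e⁻¹ ∈ Subgroup.zpowers a₃ := by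
    rw [g3]
    exact (Subgroup.mem_normalizer_iff.mp he₃ a₃).mp ha₃
  obtain ⟨k₁, hk₁⟩ := Subgroup.mem_zpowers_iff.mp hcu
  obtain ⟨k₂, hk₂⟩ := Subgroup.mem_zpowers_iff.mp hcv
  obtain ⟨j, hj⟩ := Subgroup.mem_zpowers_iff.mp hca
  have cuv : Commute u v := hcomm u (h₁ hu) v (h₂ hv)
  have key : u ^ k₁ * v ^ k₂ = u ^ j * v ^ j := by
    rw [hk₁, hk₂, ← cuv.mul_zpow, ← huv, hj, huv]
    group
  have hw : (u ^ j)⁻¹ * u ^ k₁ = v ^ j * (v ^ k₂)⁻¹ := by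
    rw [eq_mul_inv_iff_mul_eq, mul_assoc, key, inv_mul_cancel_left]
  have hw1 : (u ^ j)⁻¹ * u ^ k₁ = 1 := by
    have hm : (u ^ j)⁻¹ * u ^ k₁ ∈ X₁ ⊓ X₂ := by
      refine ⟨X₁.mul_mem (X₁.inv_mem (X₁.zpow_mem hu j)) (X₁.zpow_mem hu k₁), ?_⟩
      rw [hw]
      exact X₂.mul_mem (X₂.zpow_mem hv j) (X₂.inv_mem (X₂.zpow_mem hv k₂))
    rwa [i12, Subgroup.mem_bot] at hm
  have hu_j : e * u * e⁻¹ = u ^ j := by
    rw [← hk₁]
    exact (inv_mul_eq_one.mp hw1).symm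
  have hv_j : e * v * e⁻¹ = v ^ j := by
    rw [hw1] at hw
    rw [← hk₂]
    exact (mul_inv_eq_one.mp hw.symm).symm
  -- `e` acts as the `j`-th power on `A`
  have hall : ∀ a ∈ A, e * a * e⁻¹ = a ^ j := by
    intro a ha
    obtain ⟨x, hx, y, hy, hxy⟩ := lin3_decomp p A X₁ X₂ hA2 h₁ h₂ c₁ c₂ n12 a ha
    rw [← g1] at hx
    rw [← g2] at hy
    obtain ⟨s, rfl⟩ := Subgroup.mem_zpowers_iff.mp hx
    obtain ⟨t, rfl⟩ := Subgroup.mem_zpowers_iff.mp hy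
    have c2 : Commute (u ^ s) (v ^ t) := (cuv.zpow_left s).zpow_right t
    rw [hxy, c2.mul_zpow]
    have e1 : e * (u ^ s * v ^ t) * e⁻¹ = (e * u * e⁻¹) ^ s * (e * v * e⁻¹) ^ t := by
      rw [conj_zpow, conj_zpow]
      group
    rw [e1, hu_j, hv_j, ← zpow_mul, ← zpow_mul, ← zpow_mul, ← zpow_mul, mul_comm j s,
      mul_comm j t]
  -- conclusion
  have hfin : Finite ((X : Subgroup G) : Set G) := Set.toFinite _
  apply Subgroup.mem_normalizer_fintype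
  intro n hn
  rw [hall n (hX hn)]
  exact X.zpow_mem hn j

end Cfsg.Agent.Lib.Helper16.FT12
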