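import Cfsg.Agent.Lib.Helper98.H90Defs
import Cfsg.Agent.Lib.Helper47.H74K4b
import Cfsg.Agent.Lib.Helper77.H74HYPTYP
import Cfsg.Agent.Lib.Helper40.H74COMPL

/-!
# Project H74, batch 2 (S5990), piece K4G (`k4g`), by helper16

An involutory isometry of a nondegenerate quadratic space of dimension `2n + 2 ≥ 6` in
characteristic 2 (of either type) leaves a `+` type 4-subspace invariant.

The file also contains a full proof `k4g_subtyp_sup` of the statement of the sibling piece SUM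
(`subtyp_sup` of batch 1): the orthogonal sum of two typed subspaces is typed, with the product
type.  PEEL is `K4b_peel` of helper47, HYPTYP and COMPL are imported.
-/

set_option autoImplicit false

namespace Cfsg.Agent.Lib.Helper98.H74

open Cfsg.Agent.Lib.Helper47 Cfsg.Agent.Lib.Helper98.T73 Module Polynomial

universe u

variable {F : Type u} [Field F] [Fintype F] {V : Type u} [AddCommGroup V] [Module F V]
  [FiniteDimensional F V] {Q : V → F} {B : V → V → F}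

/-- SUM (the statement of `subtyp_sup`): the orthogonal sum of typed subspaces -/
theorem k4g_subtyp_sup (hf : QFacts F) (hQ : IsQuad Q B) (X Y : Submodule F V)
    (hXY : ∀ x ∈ X, ∀ y ∈ Y, B x y = 0) (k₁ k₂ : ℕ) (ε₁ ε₂ : ℤ)
    (hX : SubTyp Q B X k₁ ε₁) (hY : SubTyp Q B Y k₂ ε₂) :
    SubTyp Q B (X ⊔ Y) (k₁ + k₂ + 1) (ε₁ * ε₂) := by
  classical
  have hB := hQ.form
  obtain ⟨hXnd, hXdim, hXtyp⟩ := hX
  obtain ⟨hYnd, hYdim, hYtyp⟩ := hY
  have hYX : ∀ y ∈ Y, ∀ x ∈ X, B y x = 0 := fun y hy x hx => hB.refl (hXY x hx y hy)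
  have hdisj : X ⊓ Y = ⊥ := by
    rw [eq_bot_iff]
    rintro z ⟨hzX, hzY⟩
    have h1 : (⟨z, hzX⟩ : X) = 0 := hXnd ⟨z, hzX⟩ (fun y => hYX z hzY y y.2)
    have h2 : z = 0 := congrArg Subtype.val h1
    rw [h2]; exact Submodule.zero_mem _
  haveI : Finite V := Module.finite_of_finite F
  let f : X × Y → ↥(X ⊔ Y) := fun p =>
    ⟨(p.1 : V) + (p.2 : V), Submodule.add_mem_sup p.1.2 p.2.2⟩
  have hfinj : Function.Injective f := by
    rintro ⟨x, y⟩ ⟨x', y'⟩ h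
    have h1 : (x : V) + y = x' + y' := congrArg Subtype.val h
    have h2 : (x : V) - x' = y' - y := by
      rw [sub_eq_sub_iff_add_eq_add, h1]; abel
    have h3 : (x : V) - x' ∈ X ⊓ Y :=
      ⟨X.sub_mem x.2 x'.2, by rw [h2]; exact Y.sub_mem y'.2 y.2⟩
    rw [hdisj, Submodule.mem_bot] at h3
    have h4 : (y' : V) - y = 0 := by rw [← h2]; exact h3
    have h5 : x = x' := Subtype.ext (sub_eq_zero.mp h3)
    have h6 : y = y' := Subtype.ext (sub_eq_zero.mp h4).symm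
    rw [h5, h6]
  have hfsurj : Function.Surjective f := by
    rintro ⟨z, hz⟩
    obtain ⟨x, hx, y, hy, rfl⟩ := Submodule.mem_sup.mp hz
    exact ⟨(⟨x, hx⟩, ⟨y, hy⟩), rfl⟩
  have hfQ : ∀ p : X × Y, Q ((f p : ↥(X ⊔ Y)) : V) = Q (p.1 : V) + Q (p.2 : V) := by
    intro p
    show Q ((p.1 : V) + (p.2 : V)) = _
    rw [hQ.polar, hXY _ p.1.2 _ p.2.2, add_zero]
  have htp := hf.typ_prod (fun x : X => Q (x : V)) (fun y : Y => Q (y : V)) hXtyp hYtyp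
  refine ⟨?_, ?_, ?_⟩
  · intro z hz
    obtain ⟨x, hx, y, hy, hxy⟩ := Submodule.mem_sup.mp z.2
    have hx0 : (⟨x, hx⟩ : X) = 0 := by
      apply hXnd
      intro x'
      have h1 := hz ⟨(x' : V), Submodule.mem_sup_left x'.2⟩
      simp only [resForm_apply] at h1 ⊢
      rw [← hxy, hB.add_left, hYX y hy _ x'.2, add_zero] at h1
      exact h1
    have hy0 : (⟨y, hy⟩ : Y) = 0 := by
      apply hYnd
      intro y'
      have h1 := hz ⟨(y' : V), Submodule.mem_sup_right y'.2⟩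
      simp only [resForm_apply] at h1 ⊢
      rw [← hxy, hB.add_left, hXY x hx _ y'.2, zero_add] at h1
      exact h1
    have hx1 : x = 0 := congrArg Subtype.val hx0
    have hy1 : y = 0 := congrArg Subtype.val hy0
    apply Subtype.ext
    rw [← hxy, hx1, hy1, add_zero]; rfl
  · have h1 := Submodule.finrank_sup_add_finrank_inf_eq X Y
    rw [hdisj, finrank_bot, add_zero, hXdim, hYdim] at h1
    rw [h1]; ring
  · exact IsTyp.of_equiv (Equiv.ofBijective f ⟨hfinj, hfsurj⟩) (fun p => hfQ p) htp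

/-- K4G -/
theorem k4g (hf : QFacts F) [CharP F 2] (hQ : IsQuad Q B) (hnd : Nondeg B) (n : ℕ) (hn : 2 ≤ n)
    (hdim : finrank F V = 2 * n + 2) (g : Module.End F V) (hgQ : QI Q g)
    (hg : g * g = 1) : ∃ H : Submodule F V, H.map g ≤ H ∧ SubTyp Q B H 1 1 := by
  classical
  haveI : Fact (Nat.Prime 2) := ⟨Nat.prime_two⟩
  obtain ⟨ε, htyp⟩ : ∃ ε : ℤ, IsTyp Q n ε := by
    rcases hf.typ_exists n V Q B hQ hnd hdim with h | h
    · exact ⟨1, h⟩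
    · exact ⟨-1, h⟩
  have hhyp : ∀ W : Submodule F V, HypM Q (2 * 1 + 2) W → SubTyp Q B W 1 1 :=
    fun W hW => (hyp_iff hf hQ 2 W 1).mp hW
  have hsum : ∀ (X Y : Submodule F V), (∀ x ∈ X, ∀ y ∈ Y, B x y = 0) → ∀ (ε₁ ε₂ : ℤ),
      SubTyp Q B X 0 ε₁ → SubTyp Q B Y 0 ε₂ → SubTyp Q B (X ⊔ Y) (0 + 0 + 1) (ε₁ * ε₂) :=
    fun X Y h e1 e2 hX hY => k4g_subtyp_sup hf hQ X Y h 0 0 e1 e2 hX hY
  have hdim' : finrank F V = 2 * (n + 1) := by rw [hdim]; ring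
  have htyp' : IsTyp Q (n + 1 - 1) ε := by simpa using htyp
  have hcompl : ∀ (X : Submodule F V) (k : ℕ) (τ : ℤ), SubTyp Q B X k τ → k + 2 ≤ n + 1 →
      ∃ Y : Submodule F V, (∀ x ∈ X, ∀ y ∈ Y, B x y = 0) ∧ X ⊔ Y = ⊤ ∧ X ⊓ Y = ⊥ ∧
        SubTyp Q B Y (n + 1 - k - 2) (ε * τ) ∧
        ∀ g : Module.End F V, QI Q g → X.map g ≤ X → Y.map g ≤ Y :=
    fun X k τ hX hk => subtyp_compl hf hQ hnd (n + 1) hdim' ε htyp' X k τ hX hk
  have hndtop : Nondeg (resForm B (⊤ : Submodule F V)) := by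
    intro x hx
    have h3 := hnd x.1 (fun y => hx ⟨y, Submodule.mem_top⟩)
    exact Subtype.ext h3
  -- pairs of orthogonal invariant planes of the same type
  have pair : ∀ (X Y : Submodule F V), (∀ x ∈ X, ∀ y ∈ Y, B x y = 0) → X.map g ≤ X →
      Y.map g ≤ Y → ∀ ε : ℤ, (ε = 1 ∨ ε = -1) → SubTyp Q B X 0 ε → SubTyp Q B Y 0 ε →
      ∃ H : Submodule F V, H.map g ≤ H ∧ SubTyp Q B H 1 1 := by
    intro X Y hXY hXg hYg ε hε hX hY
    have h3 := hsum X Y hXY ε ε hX hY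
    have h4 : ε * ε = 1 := by rcases hε with rfl | rfl <;> norm_num
    rw [h4] at h3
    refine ⟨X ⊔ Y, ?_, h3⟩
    rw [Submodule.map_sup]
    exact sup_le_sup hXg hYg
  have hne : ∀ (Y : Submodule F V) (k : ℕ), finrank F Y = 2 * k + 2 → Y ≠ ⊥ := by
    intro Y k hk hbot
    rw [hbot, finrank_bot] at hk
    omega
  -- step 1
  obtain ⟨P1, -, hP1g, hP1⟩ := K4b_peel hf hQ g hgQ hg hhyp ⊤ le_top hndtop
    (hne ⊤ n (by rw [finrank_top, hdim]))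
  rcases hP1 with ⟨ε₁, hε₁, hP1t⟩ | hP1
  swap
  · exact ⟨P1, hP1g, hP1⟩
  -- step 2
  obtain ⟨Y1, horth1, -, -, hY1, hinv1⟩ := hcompl P1 0 ε₁ hP1t (by omega)
  have hY1g : Y1.map g ≤ Y1 := hinv1 g hgQ hP1g
  obtain ⟨P2, hP2Y, hP2g, hP2⟩ := K4b_peel hf hQ g hgQ hg hhyp Y1 hY1g hY1.1
    (hne Y1 _ hY1.2.1)
  rcases hP2 with ⟨ε₂, hε₂, hP2t⟩ | hP2
  swap
  · exact ⟨P2, hP2g, hP2⟩
  have horth12 : ∀ x ∈ P1, ∀ y ∈ P2, B x y = 0 := fun x hx y hy => horth1 x hx y (hP2Y hy)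
  -- step 3
  have hS := hsum P1 P2 horth12 ε₁ ε₂ hP1t hP2t
  have hSg : (P1 ⊔ P2).map g ≤ P1 ⊔ P2 := by
    rw [Submodule.map_sup]
    exact sup_le_sup hP1g hP2g
  obtain ⟨Y2, horth2, -, -, hY2, hinv2⟩ := hcompl (P1 ⊔ P2) (0 + 0 + 1) (ε₁ * ε₂) hS (by omega)
  have hY2g : Y2.map g ≤ Y2 := hinv2 g hgQ hSg
  obtain ⟨P3, hP3Y, hP3g, hP3⟩ := K4b_peel hf hQ g hgQ hg hhyp Y2 hY2g hY2.1
    (hne Y2 _ hY2.2.1)
  rcases hP3 with ⟨ε₃, hε₃, hP3t⟩ | hP3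
  swap
  · exact ⟨P3, hP3g, hP3⟩
  have horth13 : ∀ x ∈ P1, ∀ y ∈ P3, B x y = 0 := fun x hx y hy =>
    horth2 x (Submodule.mem_sup_left hx) y (hP3Y hy)
  have horth23 : ∀ x ∈ P2, ∀ y ∈ P3, B x y = 0 := fun x hx y hy =>
    horth2 x (Submodule.mem_sup_right hx) y (hP3Y hy)
  by_cases h12 : ε₁ = ε₂
  · subst h12
    exact pair P1 P2 horth12 hP1g hP2g ε₁ hε₁ hP1t hP2t
  · by_cases h13 : ε₁ = ε₃
    · subst h13
      exact pair P1 P3 horth13 hP1g hP3g ε₁ hε₁ hP1t hP3t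
    · have h23 : ε₂ = ε₃ := by omega
      subst h23
      exact pair P2 P3 horth23 hP2g hP3g ε₂ hε₂ hP2t hP3t

end Cfsg.Agent.Lib.Helper98.H74
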