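import Mathlib
import Cfsg.Agent.Lib.Helper22.HPDefs
import Cfsg.Agent.Lib.Helper22.HPDefs2
import Cfsg.Agent.Lib.Helper4.CharDual

/-!
# S4504 (helper22 project), piece DEC (helper16)

The decompositions of `Pi1 = χ χ̄` and `Pi2 = χ χ̄'` into irreducible characters with natural
multiplicities, the degree sums, and the norm inequality `(Pi2, Pi2) ≤ (Pi1, Pi1)`.
-/

set_option autoImplicit false
set_option linter.style.haveILetI false
set_option linter.unusedVariables false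
set_option linter.unusedSectionVars false

namespace Cfsg.Agent.Lib.Helper16.HPT

open Cfsg Cfsg.Agent.Lib.Helper22.BFD Cfsg.Agent.Lib.Helper22.HPD
open scoped ComplexConjugate

universe u

private theorem dec_isChar_mul {G : Type u} [Group G] (φ ψ : G → ℂ) (hφ : IsCharacter G φ)
    (hψ : IsCharacter G ψ) : IsCharacter G (φ * ψ) := by
  obtain ⟨n, ρ, rfl⟩ := hφ
  obtain ⟨m, σ, rfl⟩ := hψ
  rw [← Representation.char_tensor]
  exact Cfsg.Agent.Lib.Helper4.isCharacter_of_rep _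

private theorem dec_deg {G : Type u} [Group G] (χ : G → ℂ) (hχ : IsCharacter G χ) :
    χ 1 = (charDegree χ : ℂ) := by
  obtain ⟨n, ρ, rfl⟩ := hχ
  have hfin : Module.finrank ℂ (Fin n → ℂ) = n := by simp
  unfold charDegree
  rw [Representation.char_one, hfin]
  simp

private theorem dec_irr_char {G : Type u} [Group G] (φ : IrrCharacter G) : IsCharacter G φ.1 := by
  obtain ⟨n, ρ, -, h⟩ := φ.2
  exact ⟨n, ρ, h⟩

private theorem dec_sq_sum {G : Type u} [Group G] [Fintype (IrrCharacter G)]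
    (m : IrrCharacter G → ℕ) :
    ∑ φ : IrrCharacter G, (m φ : ℂ) * conj (m φ : ℂ) =
      (((∑ φ : IrrCharacter G, (m φ) ^ 2 : ℕ) : ℝ) : ℂ) := by
  push_cast
  refine Finset.sum_congr rfl fun φ _ => ?_
  rw [Complex.conj_natCast, sq]

/-- PIECE DEC: the decompositions of `Pi1 = χ χ̄` and `Pi2 = χ χ̄'` (general, no `HP`) -/
theorem hp_dec {G : Type u} [Group G] [Fintype G] [Fintype (IrrCharacter G)]
    (p : ℕ) [Fact p.Prime] (χ : IrrCharacter G) (e : ℕ) (he : charDegree χ.1 = e) (k : ℕ)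
    (hk : GalExp p G k) :
    ∃ m₁ m₂ : IrrCharacter G → ℕ,
      (∀ φ : IrrCharacter G, classInner (Pi1 χ.1) φ.1 = (m₁ φ : ℂ)) ∧
      (∀ φ : IrrCharacter G, classInner (Pi2 χ.1 k) φ.1 = (m₂ φ : ℂ)) ∧
      (∀ g : G, Pi1 χ.1 g = ∑ φ : IrrCharacter G, (m₁ φ : ℂ) * φ.1 g) ∧
      (∀ g : G, Pi2 χ.1 k g = ∑ φ : IrrCharacter G, (m₂ φ : ℂ) * φ.1 g) ∧
      (∀ φ : IrrCharacter G, φ.1 = (fun _ => 1) → m₁ φ = 1) ∧
      ∑ φ : IrrCharacter G, m₁ φ * charDegree φ.1 = e ^ 2 ∧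
      ∑ φ : IrrCharacter G, m₂ φ * charDegree φ.1 = e ^ 2 ∧
      ∑ φ : IrrCharacter G, (m₂ φ) ^ 2 ≤ ∑ φ : IrrCharacter G, (m₁ φ) ^ 2 := by
  classical
  have hχ : IsCharacter G χ.1 := dec_irr_char χ
  have hχ' : IsCharacter G (fun g => χ.1 (g ^ k)) := by
    obtain ⟨n, ρ, -, h⟩ := hk.irr χ
    exact ⟨n, ρ, h⟩
  have hP1 : IsCharacter G (Pi1 χ.1) :=
    dec_isChar_mul _ _ hχ (Cfsg.Agent.Lib.Helper4.isCharacter_conj _ hχ)
  have hP2 : IsCharacter G (Pi2 χ.1 k) :=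
    dec_isChar_mul _ _ hχ (Cfsg.Agent.Lib.Helper4.isCharacter_conj _ hχ')
  obtain ⟨m₁, hm₁⟩ := Cfsg.Agent.Lib.Helper4.exists_decomp_of_isCharacter _ hP1
  obtain ⟨m₂, hm₂⟩ := Cfsg.Agent.Lib.Helper4.exists_decomp_of_isCharacter _ hP2
  have hone : χ.1 1 = (e : ℂ) := by rw [dec_deg _ hχ, he]
  have hi1 : ∀ φ : IrrCharacter G, classInner (Pi1 χ.1) φ.1 = (m₁ φ : ℂ) := by
    intro φ
    rw [hm₁]
    exact Cfsg.Agent.Lib.Helper4.classInner_sum_irr _ φ
  have hi2 : ∀ φ : IrrCharacter G, classInner (Pi2 χ.1 k) φ.1 = (m₂ φ : ℂ) := by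
    intro φ
    rw [hm₂]
    exact Cfsg.Agent.Lib.Helper4.classInner_sum_irr _ φ
  have hv1 : ∀ g : G, Pi1 χ.1 g = ∑ φ : IrrCharacter G, (m₁ φ : ℂ) * φ.1 g := by
    intro g
    rw [hm₁]
    simp only [Finset.sum_apply, Pi.smul_apply, smul_eq_mul]
  have hv2 : ∀ g : G, Pi2 χ.1 k g = ∑ φ : IrrCharacter G, (m₂ φ : ℂ) * φ.1 g := by
    intro g
    rw [hm₂]
    simp only [Finset.sum_apply, Pi.smul_apply, smul_eq_mul]
  have hdsum : ∀ m : IrrCharacter G → ℕ,
      ∑ φ : IrrCharacter G, (m φ : ℂ) * φ.1 1 =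
        ((∑ φ : IrrCharacter G, m φ * charDegree φ.1 : ℕ) : ℂ) := by
    intro m
    push_cast
    refine Finset.sum_congr rfl fun φ _ => ?_
    rw [dec_deg φ.1 (dec_irr_char φ)]
  -- the norms
  let a : G → ℝ := fun g => Complex.normSq (χ.1 g)
  have hN1 : ((∑ φ : IrrCharacter G, (m₁ φ) ^ 2 : ℕ) : ℝ) =
      (Nat.card G : ℝ)⁻¹ * ∑ g : G, a g * a g := by
    have h1 : classInner (Pi1 χ.1) (Pi1 χ.1) =
        ∑ φ : IrrCharacter G, (m₁ φ : ℂ) * conj (m₁ φ : ℂ) := by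
      rw [hm₁]
      exact Cfsg.Agent.Lib.Helper4.classInner_sum_sum_irr _ _
    have h2 : classInner (Pi1 χ.1) (Pi1 χ.1) =
        (((Nat.card G : ℝ)⁻¹ * ∑ g : G, a g * a g : ℝ) : ℂ) := by
      unfold classInner Pi1
      push_cast
      congr 1
      refine Finset.sum_congr rfl fun g _ => ?_
      rw [Complex.mul_conj, map_mul, Complex.normSq_conj]
      push_cast
      rfl
    rw [h2, dec_sq_sum] at h1
    exact (Complex.ofReal_injective h1).symm
  have hN2 : ((∑ φ : IrrCharacter G, (m₂ φ) ^ 2 : ℕ) : ℝ) =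
      (Nat.card G : ℝ)⁻¹ * ∑ g : G, a g * a (g ^ k) := by
    have h1 : classInner (Pi2 χ.1 k) (Pi2 χ.1 k) =
        ∑ φ : IrrCharacter G, (m₂ φ : ℂ) * conj (m₂ φ : ℂ) := by
      rw [hm₂]
      exact Cfsg.Agent.Lib.Helper4.classInner_sum_sum_irr _ _
    have h2 : classInner (Pi2 χ.1 k) (Pi2 χ.1 k) =
        (((Nat.card G : ℝ)⁻¹ * ∑ g : G, a g * a (g ^ k) : ℝ) : ℂ) := by
      unfold classInner Pi2
      push_cast
      congr 1
      refine Finset.sum_congr rfl fun g _ => ?_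
      rw [Complex.mul_conj, map_mul, Complex.normSq_conj]
      push_cast
      rfl
    rw [h2, dec_sq_sum] at h1
    exact (Complex.ofReal_injective h1).symm
  have hperm : ∑ g : G, a (g ^ k) * a (g ^ k) = ∑ g : G, a g * a g :=
    Equiv.sum_comp (powCoprime hk.cop.symm) (fun g => a g * a g)
  have hineq : ∑ g : G, a g * a (g ^ k) ≤ ∑ g : G, a g * a g := by
    have h2 : ∑ g : G, 2 * (a g * a (g ^ k)) ≤
        ∑ g : G, (a g * a g + a (g ^ k) * a (g ^ k)) := by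
      refine Finset.sum_le_sum fun g _ => ?_
      nlinarith [sq_nonneg (a g - a (g ^ k))]
    rw [← Finset.mul_sum, Finset.sum_add_distrib, hperm] at h2
    linarith
  refine ⟨m₁, m₂, hi1, hi2, hv1, hv2, ?_, ?_, ?_, ?_⟩
  · intro φ hφ
    have h1 := hi1 φ
    have h2 : classInner (Pi1 χ.1) φ.1 = classInner χ.1 χ.1 := by
      unfold classInner Pi1
      rw [hφ]
      congr 1
      refine Finset.sum_congr rfl fun g _ => ?_
      simp
    rw [h2, Cfsg.Agent.Lib.Helper4.classInner_irr, if_pos rfl] at h1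
    exact_mod_cast h1.symm
  · have h := hv1 1
    rw [hdsum m₁] at h
    have hl : Pi1 χ.1 1 = ((e ^ 2 : ℕ) : ℂ) := by
      unfold Pi1
      rw [hone, Complex.conj_natCast]
      push_cast
      ring
    rw [hl] at h
    exact_mod_cast h.symm
  · have h := hv2 1
    rw [hdsum m₂] at h
    have hl : Pi2 χ.1 k 1 = ((e ^ 2 : ℕ) : ℂ) := by
      unfold Pi2
      rw [one_pow, hone, Complex.conj_natCast]
      push_cast
      ring
    rw [hl] at h
    exact_mod_cast h.symm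
  · have h : ((∑ φ : IrrCharacter G, (m₂ φ) ^ 2 : ℕ) : ℝ) ≤
        ((∑ φ : IrrCharacter G, (m₁ φ) ^ 2 : ℕ) : ℝ) := by
      rw [hN1, hN2]
      exact mul_le_mul_of_nonneg_left hineq (inv_nonneg.mpr (Nat.cast_nonneg _))
    exact_mod_cast h

end Cfsg.Agent.Lib.Helper16.HPT
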