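import Mathlib
import Cfsg.Agent.Lib.Helper22.HPDefs

/-!
# S4504 piece HP-LOCAL, sub-piece NCL (helper16 for helper4)

`H` = the normal closure of an element `z` of order `p`, where `p ∥ |G|` and `G` has no normal
subgroup of order `p`.  Then `H` is the normal closure in `H` of `z`, and `H` has no normal
subgroup of order `p`.
-/

set_option autoImplicit false
set_option linter.unusedVariables false
set_option linter.unusedSectionVars false

namespace Cfsg.Agent.Lib.Helper16.HPT

open Cfsg Cfsg.Agent.Lib.Helper22.BFD Cfsg.Agent.Lib.Helper22.HPD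
open scoped ComplexConjugate

universe u

private theorem ncl_sylow_eq {K : Type u} [Group K] [Finite K] (p : ℕ) [Fact p.Prime]
    (hsq : ¬ p ^ 2 ∣ Nat.card K) (x : K) (hx : orderOf x = p) :
    ∃ P : Sylow p K, (P : Subgroup K) = Subgroup.zpowers x := by
  have hp : p.Prime := Fact.out
  have hcz : Nat.card (Subgroup.zpowers x) = p := by rw [Nat.card_zpowers, hx]
  have hpg : IsPGroup p (Subgroup.zpowers x) :=
    IsPGroup.of_card (n := 1) (by rw [hcz, pow_one])
  obtain ⟨P, hP⟩ := hpg.exists_le_sylow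
  refine ⟨P, ?_⟩
  have hcard : Nat.card (P : Subgroup K) = p ^ (Nat.card K).factorization p :=
    Sylow.card_eq_multiplicity P
  have hdvd : p ^ (Nat.card K).factorization p ∣ Nat.card K := Nat.ordProj_dvd _ _
  have hn2 : (Nat.card K).factorization p < 2 := by
    by_contra hcon
    push Not at hcon
    exact hsq (dvd_trans (pow_dvd_pow p hcon) hdvd)
  have hle : Nat.card (P : Subgroup K) ≤ Nat.card (Subgroup.zpowers x) := by
    rw [hcard, hcz]
    calc p ^ (Nat.card K).factorization p ≤ p ^ 1 := Nat.pow_le_pow_right hp.pos (by omega)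
      _ = p := pow_one p
  exact (Subgroup.eq_of_le_of_card_ge hP hle).symm

private theorem ncl_conj {K : Type u} [Group K] [Finite K] (p : ℕ) [Fact p.Prime]
    (hsq : ¬ p ^ 2 ∣ Nat.card K) (x y : K) (hx : orderOf x = p) (hy : orderOf y = p) :
    ∃ h : K, ∃ j : ℤ, y = h * x ^ j * h⁻¹ := by
  obtain ⟨P, hP⟩ := ncl_sylow_eq p hsq x hx
  obtain ⟨Q, hQ⟩ := ncl_sylow_eq p hsq y hy
  obtain ⟨h, hh⟩ := MulAction.exists_smul_eq K P Q
  have hyQ : y ∈ (Q : Subgroup K) := by rw [hQ]; exact Subgroup.mem_zpowers y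
  rw [← hh, Sylow.coe_subgroup_smul, Subgroup.mem_pointwise_smul_iff_inv_smul_mem, hP] at hyQ
  obtain ⟨j, hj⟩ := Subgroup.mem_zpowers_iff.mp hyQ
  refine ⟨h, j, ?_⟩
  rw [hj]
  simp [MulAut.smul_def, mul_assoc]

/-- SUB-PIECE NCL (pure group theory: Sylow). -/
theorem local_ncl {G : Type u} [Group G] [Finite G] (p : ℕ) [Fact p.Prime]
    (hsq : ¬ p ^ 2 ∣ Nat.card G) (hnn : ∀ H : Subgroup G, H.Normal → Nat.card H ≠ p)
    (z : G) (hz : orderOf z = p) (H : Subgroup G)
    (hH : H = Subgroup.normalClosure ({z} : Set G)) (zH : ↥H) (hzH : (zH : G) = z) :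
    Subgroup.normalClosure ({zH} : Set ↥H) = ⊤ ∧
      (∀ L : Subgroup ↥H, L.Normal → Nat.card L ≠ p) := by
  have hp : p.Prime := Fact.out
  have hHn : H.Normal := by rw [hH]; exact Subgroup.normalClosure_normal
  have hsqH : ¬ p ^ 2 ∣ Nat.card H :=
    fun h => hsq (dvd_trans h (Subgroup.card_subgroup_dvd_card H))
  have hzHo : orderOf zH = p := by rw [← Subgroup.orderOf_coe, hzH, hz]
  have hzmem : z ∈ H := by rw [← hzH]; exact zH.2
  constructor
  · rw [eq_top_iff]
    intro y _
    have hle : Subgroup.normalClosure ({z} : Set G) ≤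
        (Subgroup.normalClosure ({zH} : Set ↥H)).map H.subtype := by
      refine (Subgroup.closure_le _).mpr ?_
      intro c hc
      obtain ⟨b, hb, hbc⟩ := Group.mem_conjugatesOfSet_iff.mp hc
      rw [Set.mem_singleton_iff] at hb
      rw [hb] at hbc
      obtain ⟨g, hg⟩ := isConj_iff.mp hbc
      have hcH : c ∈ H := by rw [← hg]; exact hHn.conj_mem z hzmem g
      have hco : orderOf (⟨c, hcH⟩ : ↥H) = p := by
        rw [← Subgroup.orderOf_coe]
        show orderOf c = p
        rw [← hg, ← MulAut.conj_apply, MulEquiv.orderOf_eq, hz]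
      obtain ⟨h, j, hj⟩ := ncl_conj p hsqH zH ⟨c, hcH⟩ hzHo hco
      rw [SetLike.mem_coe, Subgroup.mem_map]
      refine ⟨⟨c, hcH⟩, ?_, rfl⟩
      rw [hj]
      exact (Subgroup.normalClosure_normal).conj_mem _
        (zpow_mem (Subgroup.subset_normalClosure (Set.mem_singleton zH)) j) h
    have hyH : (y : G) ∈ Subgroup.normalClosure ({z} : Set G) := by
      rw [← hH]; exact y.2
    obtain ⟨y', hy', hyy⟩ := Subgroup.mem_map.mp (hle hyH)
    have hy'y : y' = y := Subtype.ext hyy
    rw [← hy'y]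
    exact hy'
  · intro L hL hcard
    have hLp : ∀ l ∈ L, l ^ p = 1 := by
      intro l hl
      have h1 : (⟨l, hl⟩ : L) ^ Nat.card L = 1 := pow_card_eq_one'
      rw [hcard] at h1
      have h2 := congrArg Subtype.val h1
      simpa using h2
    have hLne : ∃ l₀ ∈ L, l₀ ≠ 1 := by
      by_contra hcon
      push Not at hcon
      have hbot : L = ⊥ := (Subgroup.eq_bot_iff_forall L).mpr hcon
      rw [hbot, Subgroup.card_bot] at hcard
      exact hp.one_lt.ne hcard
    obtain ⟨l₀, hl₀, hl₀1⟩ := hLne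
    have hl₀o : orderOf l₀ = p := orderOf_eq_prime (hLp l₀ hl₀) hl₀1
    have hmemL : ∀ y : ↥H, y ^ p = 1 → y ∈ L := by
      intro y hy
      by_cases hy1 : y = 1
      · rw [hy1]; exact L.one_mem
      · have hyo : orderOf y = p := orderOf_eq_prime hy hy1
        obtain ⟨h, j, hj⟩ := ncl_conj p hsqH l₀ y hl₀o hyo
        rw [hj]
        exact hL.conj_mem _ (zpow_mem hl₀ j) h
    have hMn : (L.map H.subtype).Normal := by
      constructor
      intro m hm g
      obtain ⟨l, hl, rfl⟩ := Subgroup.mem_map.mp hm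
      have hc : g * (l : G) * g⁻¹ ∈ H := hHn.conj_mem _ l.2 g
      refine Subgroup.mem_map.mpr ⟨⟨g * (l : G) * g⁻¹, hc⟩, ?_, rfl⟩
      apply hmemL
      apply Subtype.ext
      show (g * (l : G) * g⁻¹) ^ p = 1
      rw [conj_pow]
      have h3 := congrArg Subtype.val (hLp l hl)
      have h2 : (l : G) ^ p = 1 := by simpa using h3
      rw [h2, mul_one, mul_inv_cancel]
    have hMc : Nat.card (L.map H.subtype) = p := by
      rw [Subgroup.card_map_of_injective H.subtype_injective, hcard]
    exact hnn _ hMn hMc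

end Cfsg.Agent.Lib.Helper16.HPT
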