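import Mathlib
import Cfsg.Agent.Lib.Helper78.HarDefs

/-!
# S1235 (project HAR), piece NRM (helper16 for helper78)

No section of exponent two of order 32 in a 2-group of order at most 64 containing an `E16Hyp`
configuration.  Also a general counting lemma for maps whose fibres are cosets.
-/

set_option autoImplicit false
set_option linter.unusedVariables false

namespace Cfsg.Agent.Lib.Helper16.Har

open Cfsg.Agent.Lib.Helper78.Har

/-- counting: a map `f` from `T` into `M` whose fibres lie in cosets of `K` -/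
theorem card_le_of_fibre {X : Type*} [Group X] [Finite X] (T M K : Subgroup X) (f : X → X)
    (hf : ∀ t ∈ T, f t ∈ M) (hK : ∀ t1 ∈ T, ∀ t2 ∈ T, f t1 = f t2 → t2⁻¹ * t1 ∈ K) :
    Nat.card T ≤ Nat.card M * Nat.card K := by
  classical
  let r : X → X := fun m => if hm : ∃ t ∈ T, f t = m then Classical.choose hm else 1
  have hr : ∀ t ∈ T, r (f t) ∈ T ∧ f (r (f t)) = f t := by
    intro t ht
    have hm : ∃ t' ∈ T, f t' = f t := ⟨t, ht, rfl⟩
    simp only [r, dif_pos hm]
    exact Classical.choose_spec hm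
  let g : T → M × K := fun t =>
    (⟨f t, hf t t.2⟩, ⟨(r (f t))⁻¹ * t, hK t t.2 (r (f t)) (hr t t.2).1 (hr t t.2).2.symm⟩)
  have hg : Function.Injective g := by
    intro t1 t2 h
    have h1 : f t1 = f t2 := congrArg (fun x : M × K => (x.1 : X)) h
    have h2 : (r (f t1))⁻¹ * t1 = (r (f t2))⁻¹ * t2 := congrArg (fun x : M × K => (x.2 : X)) h
    rw [h1] at h2
    exact Subtype.ext (mul_left_cancel h2)
  calc Nat.card T ≤ Nat.card (M × K) := Nat.card_le_card_of_injective g hg
    _ = Nat.card M * Nat.card K := Nat.card_prod _ _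

-- PIECE NRM
theorem no32_of_card_le {X : Type*} [Group X] [Finite X] (hX : IsPGroup 2 X) (T B : Subgroup X)
    (h : E16Hyp X T B) (hX64 : Nat.card X ≤ 64)
    (hfix : ∀ y : X, y ∉ T → Nat.card ↥(T ⊓ Subgroup.centralizer ({y} : Set X)) ≤ 4)
    (P M : Subgroup X) (hMP : M ≤ P) (hn : ∀ x ∈ P, ∀ m ∈ M, x * m * x⁻¹ ∈ M)
    (hsq : ∀ x ∈ P, x ^ 2 ∈ M) (hcard : Nat.card P = 32 * Nat.card M) : False := by
  classical
  obtain ⟨hT16, hT2, hBT, hB4, hcb⟩ := h
  have hPX : Nat.card P ∣ Nat.card X := Subgroup.card_subgroup_dvd_card P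
  have hM1 : 0 < Nat.card M := Nat.card_pos
  have hXpos : 0 < Nat.card X := Nat.card_pos
  rw [hcard] at hPX
  have h32 : 32 * Nat.card M ≤ Nat.card X := Nat.le_of_dvd hXpos hPX
  have hMcases : Nat.card M = 1 ∨ Nat.card M = 2 := by omega
  rcases hMcases with hM | hM
  · -- `M = ⊥`: `P` is elementary abelian of order 32
    rw [hM] at hcard hPX
    have hMbot : M = ⊥ := Subgroup.card_eq_one.1 hM
    have hP2 : ∀ x ∈ P, x ^ 2 = 1 := by
      intro x hx
      have h1 := hsq x hx
      rw [hMbot, Subgroup.mem_bot] at h1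
      exact h1
    obtain ⟨c, hc⟩ := hPX
    have hPi := Subgroup.card_mul_index P
    have hTi := Subgroup.card_mul_index T
    have hIi := Subgroup.card_mul_index (P ⊓ T)
    have hle : (P ⊓ T).index ≤ P.index * T.index := Subgroup.index_inf_le
    rw [hcard] at hPi
    rw [hT16] at hTi
    have h8 : 8 ≤ Nat.card ↥(P ⊓ T) := by
      have hcc : c = 1 ∨ c = 2 := by omega
      rcases hcc with hc1 | hc1
      · have e1 : P.index = 1 := by omega
        have e2 : T.index = 2 := by omega
        rw [e1, e2] at hle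
        by_contra hlt
        have h7 : Nat.card ↥(P ⊓ T) * (P ⊓ T).index ≤ 7 * (1 * 2) :=
          Nat.mul_le_mul (by omega) hle
        omega
      · have e1 : P.index = 2 := by omega
        have e2 : T.index = 4 := by omega
        rw [e1, e2] at hle
        by_contra hlt
        have h7 : Nat.card ↥(P ⊓ T) * (P ⊓ T).index ≤ 7 * (2 * 4) :=
          Nat.mul_le_mul (by omega) hle
        omega
    have hex : ∃ y ∈ P, y ∉ T := by
      by_contra hcon
      push Not at hcon
      have h1 : P ≤ T := fun y hy => hcon y hy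
      have h2 := Subgroup.card_le_of_le h1
      omega
    obtain ⟨y, hyP, hyT⟩ := hex
    have hsub : P ⊓ T ≤ T ⊓ Subgroup.centralizer ({y} : Set X) := by
      intro x hx
      obtain ⟨hxP, hxT⟩ := Subgroup.mem_inf.1 hx
      refine Subgroup.mem_inf.2 ⟨hxT, ?_⟩
      rw [Subgroup.mem_centralizer_iff]
      intro z hz
      rw [Set.mem_singleton_iff] at hz
      rw [hz]
      exact comm_of_sq P hP2 hyP hxP
    have h4 := Subgroup.card_le_of_le hsub
    have h5 := hfix y hyT
    omega
  · -- `card M = 2`: `P = ⊤`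
    rw [hM] at hcard hPX
    have hX64' : Nat.card X = 64 := by omega
    have hPtop : P = ⊤ := (Subgroup.card_eq_iff_eq_top P).1 (by rw [hcard, hX64'])
    have hex : ∃ y : X, y ∉ T := by
      by_contra hcon
      push Not at hcon
      have h1 : T = ⊤ := eq_top_iff.2 (fun y _ => hcon y)
      rw [h1, Subgroup.card_top] at hT16
      omega
    obtain ⟨y, hyT⟩ := hex
    have hall : ∀ x : X, x ∈ P := fun x => by rw [hPtop]; exact Subgroup.mem_top x
    have key := card_le_of_fibre T M (T ⊓ Subgroup.centralizer ({y} : Set X))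
      (fun t => t * y * t⁻¹ * y⁻¹)
      (fun t _ => comm_mem_of_sq P M hsq (hall t) (hall y))
      (by
        intro t1 ht1 t2 ht2 he
        refine Subgroup.mem_inf.2 ⟨T.mul_mem (T.inv_mem ht2) ht1, ?_⟩
        rw [Subgroup.mem_centralizer_iff]
        intro z hz
        rw [Set.mem_singleton_iff] at hz
        rw [hz]
        have he' : t1 * y * t1⁻¹ = t2 * y * t2⁻¹ := mul_right_cancel he
        calc y * (t2⁻¹ * t1) = t2⁻¹ * (t2 * y * t2⁻¹) * t1 := by group
          _ = t2⁻¹ * (t1 * y * t1⁻¹) * t1 := by rw [he']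
          _ = t2⁻¹ * t1 * y := by group)
    have h5 := hfix y hyT
    rw [hT16, hM] at key
    omega

end Cfsg.Agent.Lib.Helper16.Har
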