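import Mathlib
import Cfsg.Agent.Lib.Helper78.HarDefs
import Cfsg.Agent.Lib.Helper16.HarNRM

/-!
# S1235 (project HAR), piece B5II (helper16 for helper78)

In the configuration `Conf` inside a group of order 128 there is no section `P/M` of exponent two
with `|P| = 64`, `|M| = 2`.  Also two general counting lemmas.
-/

set_option autoImplicit false
set_option linter.unusedVariables false

namespace Cfsg.Agent.Lib.Helper16.Har

open Cfsg.Agent.Lib.Helper78.Har

/-- `|H| |K| ≤ |H ⊓ K| |X|` -/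
theorem card_mul_card_le {X : Type*} [Group X] [Finite X] (H K : Subgroup X) :
    Nat.card H * Nat.card K ≤ Nat.card ↥(H ⊓ K) * Nat.card X := by
  have h1 := Subgroup.card_mul_index H
  have h2 := Subgroup.card_mul_index K
  have h3 := Subgroup.card_mul_index (H ⊓ K)
  have hle : (H ⊓ K).index ≤ H.index * K.index := Subgroup.index_inf_le
  have hpos : 0 < (H ⊓ K).index := Nat.pos_of_ne_zero Subgroup.index_ne_zero_of_finite
  apply Nat.le_of_mul_le_mul_right _ hpos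
  calc Nat.card H * Nat.card K * (H ⊓ K).index
      ≤ Nat.card H * Nat.card K * (H.index * K.index) := Nat.mul_le_mul_left _ hle
    _ = (Nat.card H * H.index) * (Nat.card K * K.index) := by ring
    _ = Nat.card X * (Nat.card ↥(H ⊓ K) * (H ⊓ K).index) := by rw [h1, h2, h3]
    _ = Nat.card ↥(H ⊓ K) * Nat.card X * (H ⊓ K).index := by ring

/-- a subgroup of larger order is not contained in one of smaller order -/
theorem exists_not_mem_of_card_lt {X : Type*} [Group X] [Finite X] {H K : Subgroup X}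
    (h : Nat.card K < Nat.card H) : ∃ x ∈ H, x ∉ K := by
  by_contra hcon
  push Not at hcon
  have h1 : H ≤ K := fun x hx => hcon x hx
  have h2 := Subgroup.card_le_of_le h1
  omega

/-- conjugates agree iff the quotient commutes -/
theorem comm_of_conj_eq {X : Type*} [Group X] {t1 t2 y : X}
    (he : t1 * y * t1⁻¹ * y⁻¹ = t2 * y * t2⁻¹ * y⁻¹) : y * (t2⁻¹ * t1) = t2⁻¹ * t1 * y := by
  have he' : t1 * y * t1⁻¹ = t2 * y * t2⁻¹ := mul_right_cancel he
  calc y * (t2⁻¹ * t1) = t2⁻¹ * (t2 * y * t2⁻¹) * t1 := by group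
    _ = t2⁻¹ * (t1 * y * t1⁻¹) * t1 := by rw [he']
    _ = t2⁻¹ * t1 * y := by group

/-- the same in the other variable -/
theorem comm_of_conj_eq' {X : Type*} [Group X] {a h1 h2 : X}
    (he : a * h1 * a⁻¹ * h1⁻¹ = a * h2 * a⁻¹ * h2⁻¹) : (h2⁻¹ * h1) * a = a * (h2⁻¹ * h1) := by
  have e1 : a * (h1 * (a⁻¹ * h1⁻¹)) = a * (h2 * (a⁻¹ * h2⁻¹)) := by
    simp only [mul_assoc] at he
    exact he
  have e' : h1 * (a⁻¹ * h1⁻¹) = h2 * (a⁻¹ * h2⁻¹) := mul_left_cancel e1
  have e'' : h1 * a * h1⁻¹ = h2 * a * h2⁻¹ := by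
    calc h1 * a * h1⁻¹ = (h1 * (a⁻¹ * h1⁻¹))⁻¹ := by group
      _ = (h2 * (a⁻¹ * h2⁻¹))⁻¹ := by rw [e']
      _ = h2 * a * h2⁻¹ := by group
  calc (h2⁻¹ * h1) * a = h2⁻¹ * (h1 * a * h1⁻¹) * h1 := by group
    _ = h2⁻¹ * (h2 * a * h2⁻¹) * h1 := by rw [e'']
    _ = a * (h2⁻¹ * h1) := by group

-- PIECE B5II
theorem no_sec64 {X : Type*} [Group X] [Finite X] (T T' N : Subgroup X) (g : X)
    (hc : Conf X T T' N g) (h128 : Nat.card X = 128)
    (P M : Subgroup X) (hMP : M ≤ P) (hn : ∀ x ∈ P, ∀ m ∈ M, x * m * x⁻¹ ∈ M)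
    (hsq : ∀ x ∈ P, x ^ 2 ∈ M) (hP : Nat.card P = 64) (hM : Nat.card M = 2) : False := by
  classical
  obtain ⟨hN, hN', hgN, hT', hTN, hT'N, hN64, hT16, hT'16, hT2, hT'2, hW4, hprod, hfixT, hfixT',
    hcT, hcT'⟩ := hc
  -- `Q = P ⊓ N` has at least 32 elements, `A = P ⊓ T` at least 8
  have hQ : 32 ≤ Nat.card ↥(P ⊓ N) := by
    have h1 := card_mul_card_le P N
    rw [hP, hN64, h128] at h1
    omega
  have hA : 8 ≤ Nat.card ↥(P ⊓ T) := by
    have h1 := card_mul_card_le P T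
    rw [hP, hT16, h128] at h1
    omega
  -- an element `h` of `Q` outside `T`
  obtain ⟨h, hhQ, hhT⟩ : ∃ h ∈ P ⊓ N, h ∉ T :=
    exists_not_mem_of_card_lt (by rw [hT16]; omega)
  obtain ⟨hhP, hhN⟩ := Subgroup.mem_inf.1 hhQ
  -- `card A ≤ 8`
  have hA8 : Nat.card ↥(P ⊓ T) ≤ 8 := by
    have key := card_le_of_fibre (P ⊓ T) M (T ⊓ Subgroup.centralizer ({h} : Set X))
      (fun t => t * h * t⁻¹ * h⁻¹)
      (fun t ht => comm_mem_of_sq P M hsq (Subgroup.mem_inf.1 ht).1 hhP)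
      (by
        intro t1 ht1 t2 ht2 he
        refine Subgroup.mem_inf.2
          ⟨T.mul_mem (T.inv_mem (Subgroup.mem_inf.1 ht2).2) (Subgroup.mem_inf.1 ht1).2, ?_⟩
        rw [Subgroup.mem_centralizer_iff]
        intro z hz
        rw [Set.mem_singleton_iff] at hz
        rw [hz]
        exact comm_of_conj_eq he)
    rw [hM, hfixT h hhN hhT, hW4] at key
    omega
  -- an element `a` of `A` outside `T ⊓ T'`
  obtain ⟨a, haA, haW⟩ : ∃ a ∈ P ⊓ T, a ∉ T ⊓ T' :=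
    exists_not_mem_of_card_lt (by rw [hW4]; omega)
  obtain ⟨haP, haT⟩ := Subgroup.mem_inf.1 haA
  -- `card Q ≤ 2 * card A`
  have key := card_le_of_fibre (P ⊓ N) M (P ⊓ T) (fun x => a * x * a⁻¹ * x⁻¹)
    (fun x hx => comm_mem_of_sq P M hsq haP (Subgroup.mem_inf.1 hx).1)
    (by
      intro h1 hh1 h2 hh2 he
      have hy : (h2⁻¹ * h1) * a = a * (h2⁻¹ * h1) := comm_of_conj_eq' he
      have hyP : h2⁻¹ * h1 ∈ P :=
        P.mul_mem (P.inv_mem (Subgroup.mem_inf.1 hh2).1) (Subgroup.mem_inf.1 hh1).1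
      have hyN : h2⁻¹ * h1 ∈ N :=
        N.mul_mem (N.inv_mem (Subgroup.mem_inf.1 hh2).2) (Subgroup.mem_inf.1 hh1).2
      refine Subgroup.mem_inf.2 ⟨hyP, ?_⟩
      by_contra hyT
      have h3 := hfixT _ hyN hyT
      have h4 : a ∈ T ⊓ Subgroup.centralizer ({h2⁻¹ * h1} : Set X) := by
        refine Subgroup.mem_inf.2 ⟨haT, ?_⟩
        rw [Subgroup.mem_centralizer_iff]
        intro z hz
        rw [Set.mem_singleton_iff] at hz
        rw [hz]
        exact hy
      rw [h3] at h4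
      exact haW h4)
  rw [hM] at key
  omega

end Cfsg.Agent.Lib.Helper16.Har
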