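import Mathlib
import Cfsg.Agent.Lib.Helper33.KleinPair
import Cfsg.Agent.Lib.Helper81.BrStab
import Cfsg.Agent.Lib.Helper84.ExtFMT

/-!
# Central subsections below a maximal Brauer pair (helper16, piece B of S4715 for helper4)

For a maximal `B`-pair `(D, β)` and the subgroups `Q ≤ D` centralized by `D`, the blocks `f Q` of
`C_G(Q)` with `(Q, f Q) ≤ (D, β)` induce `B`, have the defect of `B`, and their fusion is
controlled by the stabilizer of `(D, β)`.
-/

set_option autoImplicit false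
set_option linter.style.haveILetI false

namespace Cfsg.Agent.Lib.HtPairs

open Cfsg Cfsg.Agent.Lib.Helper4 Cfsg.Agent.Lib.Helper21 Cfsg.Agent.Lib.Helper22
open Cfsg.Agent.Lib.Helper81

section Fus

variable {G : Type*} [Group G] [Fintype G] {p : ℕ} {M : Ideal AlgInt}

/-- Version of helper33's `fusion_of_abelian` where commutativity of `P` is replaced by
`P ≤ C_G(Q)` and `P ≤ C_G(Q')`. -/
theorem fusion_of_centralized (hM : IsPModular p M) [Fact p.Prime]
    (B : Set (IrrCharacter G)) (P : Subgroup G)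
    (e : Set (IrrCharacter (Subgroup.centralizer (P : Set G))))
    (hmax : IsMaximalBrauerPair p M B P e)
    (Q : Subgroup G) (f : Set (IrrCharacter (Subgroup.centralizer (Q : Set G))))
    (hle : SubpairLE p M Q f P e) (hPCQ : P ≤ Subgroup.centralizer (Q : Set G))
    (Q' : Subgroup G) (f' : Set (IrrCharacter (Subgroup.centralizer (Q' : Set G))))
    (hf' : IsPBlock M f') (hle' : SubpairLE p M Q' f' P e)
    (hPC : P ≤ Subgroup.centralizer (Q' : Set G)) (x : G)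
    (hx : conjPair x (⟨Q, f⟩ : BrauerPairIdx G) = ⟨Q', f'⟩) :
    ∃ y : G, conjPair y (⟨P, e⟩ : BrauerPairIdx G) = ⟨P, e⟩ ∧
      ∃ c ∈ Subgroup.centralizer (Q' : Set G), x = c * y := by
  classical
  letI : Fintype (Subgroup.centralizer (Q' : Set G)) := Fintype.ofFinite _
  have hPe := hmax.1.1
  have hB := hmax.1.2.1
  have hQP : Q ≤ P := reflTransGen_le _ _ hle
  have hQ'P : Q' ≤ P := reflTransGen_le _ _ hle'
  have hQC : Q' ≤ Subgroup.centralizer (Q' : Set G) := hQ'P.trans hPC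
  have hHN : Subgroup.centralizer (Q' : Set G) ≤ Subgroup.normalizer (Q' : Set G) :=
    Subgroup.centralizer_le_normalizer _
  have hHstab : ∀ h ∈ Subgroup.centralizer (Q' : Set G),
      StabilizesBlock (Subgroup.centralizer (Q' : Set G)) f' h :=
    fun h hh => stabilizesBlock_of_mem _ f' hh
  have hβ : ∀ h : Subgroup.centralizer (Q' : Set G), blockCoeff f' h =
      subgroupBlockCoeff (Subgroup.centralizer (Q' : Set G)) f' (h : G) :=
    fun h => (subgroupBlockCoeff_mem _ f' h.2).symm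
  have h1 : NormalSubpairRel p M ⟨Q', f'⟩ ⟨P, e⟩ :=
    normalSubpairRel_of_reflTransGen hM ⟨Q', f'⟩ ⟨P, e⟩ hle' hPe (hPC.trans hHN)
  have h1Q : NormalSubpairRel p M ⟨Q, f⟩ ⟨P, e⟩ :=
    normalSubpairRel_of_reflTransGen hM ⟨Q, f⟩ ⟨P, e⟩ hle hPe
      (hPCQ.trans (Subgroup.centralizer_le_normalizer _))
  have hQf : IsBrauerPairOf p M B Q' f' :=
    (brauerPairOf_iff_of_normalSubpair hM Q' P f' e h1 B hB).mp hmax.1
  have h2 : NormalSubpairRel p M ⟨Q', f'⟩ (conjPair x ⟨P, e⟩) := by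
    have h := normalSubpairRel_conjPair x _ _ h1Q
    rwa [hx] at h
  have hmax2 := isMaximal_conjPair hM B ⟨P, e⟩ hmax x
  have hQ'eq : Q.map (MulAut.conj x).toMonoidHom = Q' := congrArg Sigma.fst hx
  have hbC : (conjPair x (⟨P, e⟩ : BrauerPairIdx G)).1 ≤ Subgroup.centralizer (Q' : Set G) := by
    rintro _ ⟨y, hy, rfl⟩
    rw [Subgroup.mem_centralizer_iff]
    intro q hq
    rw [← hQ'eq] at hq
    obtain ⟨q₀, hq₀, rfl⟩ := hq
    have h3 : q₀ * y = y * q₀ := Subgroup.mem_centralizer_iff.mp (hPCQ hy) q₀ hq₀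
    show (x * q₀ * x⁻¹) * (x * y * x⁻¹) = x * y * x⁻¹ * (x * q₀ * x⁻¹)
    calc (x * q₀ * x⁻¹) * (x * y * x⁻¹) = x * (q₀ * y) * x⁻¹ := by group
      _ = x * (y * q₀) * x⁻¹ := by rw [h3]
      _ = x * y * x⁻¹ * (x * q₀ * x⁻¹) := by group
  obtain ⟨b, hb⟩ : ∃ b : BrauerPairIdx G, b = conjPair x ⟨P, e⟩ := ⟨_, rfl⟩
  rw [← hb] at h2 hmax2 hbC
  have hQb : Q' ≤ b.1 := h2.2.2.1
  obtain ⟨α, hα, hQα, hαe⟩ := exists_eq_upPair Q' _ le_rfl hQC ⟨P, e⟩ hQ'P hPC
  obtain ⟨γ, hγ, hQγ, hγe⟩ := exists_eq_upPair Q' _ le_rfl hQC b hQb hbC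
  have hα_pair : IsBrauerPairOf p M f' α.1 α.2 :=
    brauerPairOf_of_normalSubpairRel_upPair Q' f' _ le_rfl f' hf' hβ α hα
      (by rw [← hαe]; exact h1)
  have hγ_pair : IsBrauerPairOf p M f' γ.1 γ.2 :=
    brauerPairOf_of_normalSubpairRel_upPair Q' f' _ le_rfl f' hf' hβ γ hγ
      (by rw [← hγe]; exact h2)
  have hα_max : IsMaximalBrauerPair p M f' α.1 α.2 :=
    isMaximal_down hM Q' f' _ le_rfl hQC hHN hHstab f' hβ B hQf α hα hQα hα_pair
      (by rw [← hαe]; exact hmax)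
  have hγ_max : IsMaximalBrauerPair p M f' γ.1 γ.2 :=
    isMaximal_down hM Q' f' _ le_rfl hQC hHN hHstab f' hβ B hQf γ hγ hQγ hγ_pair
      (by rw [← hγe]; exact hmax2)
  obtain ⟨h, hh⟩ := exists_conjPair_eq_of_maximal hM f' α γ hα_max hγ_max
  have h5 : conjPair (h : G) b = ⟨P, e⟩ := by
    rw [hγe, conjPair_upPair Q' _ le_rfl hHN γ hγ h (hCent_conj hHN hγ h), hαe]
    exact upPair_congr Q' _ le_rfl hh _ _
  rw [hb, conjPair_mul] at h5
  refine ⟨(h : G) * x, h5, (h : G)⁻¹, inv_mem h.2, by group⟩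

end Fus

/-- **Central subsections below a maximal Brauer pair.** -/
theorem central_subsections {G : Type*} [Group G] [Fintype G] (p : ℕ) [Fact p.Prime]
    (M : Ideal Cfsg.AlgInt) (hM : Cfsg.IsPModular p M) (B : Set (Cfsg.IrrCharacter G))
    (D : Subgroup G) (β : Set (IrrCharacter (Subgroup.centralizer (D : Set G))))
    (hmax : IsMaximalBrauerPair p M B D β) :
    ∃ f : ∀ Q : Subgroup G, Set (IrrCharacter (Subgroup.centralizer (Q : Set G))),
      (∀ Q : Subgroup G, Q ≤ D → D ≤ Subgroup.centralizer (Q : Set G) →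
        IsInducedBlock M (Subgroup.centralizer (Q : Set G)) (f Q) B ∧
          blockDefect p (f Q) = blockDefect p B) ∧
      (∀ Q Q' : Subgroup G, Q ≤ D → D ≤ Subgroup.centralizer (Q : Set G) → Q' ≤ D →
        D ≤ Subgroup.centralizer (Q' : Set G) → ∀ g : G,
        Q.map (MulAut.conj g).toMonoidHom = Q' →
        (∃ ξ ∈ f Q, ∃ ξ' ∈ f Q', ∀ (c : Subgroup.centralizer (Q : Set G))
          (c' : Subgroup.centralizer (Q' : Set G)), (c' : G) = g * (c : G) * g⁻¹ →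
            (ξ' : Subgroup.centralizer (Q' : Set G) → ℂ) c' =
              (ξ : Subgroup.centralizer (Q : Set G) → ℂ) c) →
        ∃ t : G, conjPair t (⟨D, β⟩ : BrauerPairIdx G) = ⟨D, β⟩ ∧
          ∀ q ∈ Q, t * q * t⁻¹ = g * q * g⁻¹) := by
  classical
  have hex : ∀ Q : Subgroup G, Q ≤ D →
      ∃ f : Set (IrrCharacter (Subgroup.centralizer (Q : Set G))),
        IsPBlock M f ∧ SubpairLE p M Q f D β :=
    fun Q hQ => exists_subpairLE hM D Q β hmax.1.1 hQ
  obtain ⟨f, hf⟩ : ∃ f : ∀ Q : Subgroup G, Set (IrrCharacter (Subgroup.centralizer (Q : Set G))),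
      ∀ Q : Subgroup G, Q ≤ D → IsPBlock M (f Q) ∧ SubpairLE p M Q (f Q) D β := by
    refine ⟨fun Q => if h : Q ≤ D then Classical.choose (hex Q h) else ∅, fun Q h => ?_⟩
    show IsPBlock M (if h : Q ≤ D then Classical.choose (hex Q h) else ∅) ∧
      SubpairLE p M Q (if h : Q ≤ D then Classical.choose (hex Q h) else ∅) D β
    rw [dif_pos h]
    exact Classical.choose_spec (hex Q h)
  have hB : IsPBlock M B := hmax.1.2.1
  refine ⟨f, ?_, ?_⟩
  · intro Q hQD hDC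
    letI : Fintype (Subgroup.centralizer (Q : Set G)) := Fintype.ofFinite _
    obtain ⟨hfQ, hle⟩ := hf Q hQD
    have hPD : IsDefectGroup p M B D := isDefectGroup_of_maximal hM B D β hmax
    have hQ : IsPGroup p Q := hmax.1.1.1.to_le hQD
    have hpair : IsBrauerPairOf p M B Q (f Q) :=
      (brauerPairOf_iff_of_subpairLE hM _ D (f Q) β hle B hB).mp hmax.1
    have hind := (isBrauerPairOf_iff_isInducedBlock hM _ hQ (f Q) B).mp hpair
    refine ⟨hind, le_antisymm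
      (Cfsg.Agent.Lib.Helper82.blockDefect_le_of_induced hM _ (f Q) B hind) ?_⟩
    obtain ⟨D₁, hD₁, hDle⟩ := exists_defectGroup_ge_cent hM D _ β (f Q) hmax.1.1 hfQ hle
    have h1 := Cfsg.Agent.Lib.Helper82.card_defectGroup hM (f Q) hfQ D₁ hD₁
    have h1B := Cfsg.Agent.Lib.Helper82.card_defectGroup hM B hB D hPD
    have h2 : Nat.card ((D ⊓ Subgroup.centralizer (Q : Set G)).subgroupOf
        (Subgroup.centralizer (Q : Set G))) = Nat.card D := by
      rw [card_subgroupOf_of_le inf_le_right, inf_eq_left.mpr hDC]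
    have h3 := Subgroup.card_le_of_le hDle
    rw [h2, h1, h1B] at h3
    exact (Nat.pow_le_pow_iff_right (Fact.out : p.Prime).one_lt).mp h3
  · rintro Q Q' hQD hDC hQ'D hDC' g hg ⟨ξ, hξ, ξ', hξ', hc⟩
    subst hg
    letI : Fintype (Subgroup.centralizer
        ((Q.map (MulAut.conj g).toMonoidHom : Subgroup G) : Set G)) := Fintype.ofFinite _
    obtain ⟨hfQ, hle⟩ := hf Q hQD
    obtain ⟨hfQ', hle'⟩ := hf _ hQ'D
    have hb1 : IsPBlock M (conjBlock Q g (f Q)) := by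
      rw [conjBlock_eq_image]
      exact isPBlock_image_irrMap _ hfQ
    have hblk : conjBlock Q g (f Q) = f (Q.map (MulAut.conj g).toMonoidHom) :=
      Cfsg.Agent.Lib.Helper82.block_eq_of_mem hM hb1 hfQ' ξ' ⟨ξ, hξ, hc⟩ hξ'
    have hconj : conjPair g (⟨Q, f Q⟩ : BrauerPairIdx G) =
        ⟨Q.map (MulAut.conj g).toMonoidHom, f (Q.map (MulAut.conj g).toMonoidHom)⟩ := by
      show (⟨Q.map (MulAut.conj g).toMonoidHom, conjBlock Q g (f Q)⟩ : BrauerPairIdx G) = _
      rw [hblk]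
    obtain ⟨y, hy, c₀, hc₀, hx⟩ :=
      fusion_of_centralized hM B D β hmax Q (f Q) hle hDC _ (f _) hfQ' hle' hDC' g hconj
    refine ⟨y, hy, fun q hq => ?_⟩
    have hq' : g * q * g⁻¹ ∈ Q.map (MulAut.conj g).toMonoidHom := ⟨q, hq, rfl⟩
    have h2 : g * q * g⁻¹ * c₀ = c₀ * (g * q * g⁻¹) :=
      Subgroup.mem_centralizer_iff.mp hc₀ _ hq'
    have hy' : y = c₀⁻¹ * g := by rw [hx]; group
    rw [hy']
    calc c₀⁻¹ * g * q * (c₀⁻¹ * g)⁻¹ = c₀⁻¹ * (g * q * g⁻¹ * c₀) := by group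
      _ = g * q * g⁻¹ := by rw [h2]; group

end Cfsg.Agent.Lib.HtPairs
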