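import Cfsg.Agent.Lib.Helper96.HyDefs
import Cfsg.Agent.Lib.Helper98.O72Defs

/-!
Project HY (S5992, architect helper96): piece NDSUB (proved by helper16).
A nondegenerate subspace `K` of a symmetric form in characteristic not two contains nondegenerate
subspaces of every dimension `t ≤ dim K`: split off an anisotropic vector, one at a time.
-/

set_option autoImplicit false
set_option linter.unusedSectionVars false
set_option linter.unusedVariables false

namespace Cfsg.Agent.Lib.Helper16.Hy

open Module Polynomial Cfsg.Agent.Lib.Helper96.Sp Cfsg.Agent.Lib.Helper96.Hy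
  Cfsg.Agent.Lib.Helper47

universe u

section Abstract

variable {F : Type u} [Field F] [Fintype F] {V : Type u} [AddCommGroup V] [Module F V]
  [FiniteDimensional F V] {B : LinearMap.BilinForm F V}

theorem ndsub_step (hS : B.IsSymm) (h2 : (2 : F) ≠ 0) (K : Submodule F V) (hK : ND B K)
    (hpos : 0 < finrank F K) :
    ∃ K' : Submodule F V, K' ≤ K ∧ ND B K' ∧ finrank F K' + 1 = finrank F K := by
  have hne : K ≠ ⊥ := by
    rintro rfl
    rw [finrank_bot] at hpos
    exact lt_irrefl 0 hpos
  obtain ⟨u, huK, hu0⟩ := (Submodule.ne_bot_iff K).mp hne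
  have hex : ∃ v ∈ K, B u v ≠ 0 := by
    by_contra hcon
    push Not at hcon
    exact hu0 (hK u huK hcon)
  obtain ⟨v, hvK, huv⟩ := hex
  have hw : ∃ w ∈ K, B w w ≠ 0 := by
    by_cases h1 : B u u = 0
    · by_cases h3 : B v v = 0
      · refine ⟨u + v, K.add_mem huK hvK, ?_⟩
        have e : B (u + v) (u + v) = 2 * B u v := by
          simp only [map_add, LinearMap.add_apply]
          rw [h1, h3, Cfsg.Agent.Lib.Helper98.O72.sym_swap hS h2 v u]
          ring
        rw [e]
        exact mul_ne_zero h2 huv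
      · exact ⟨v, hvK, h3⟩
    · exact ⟨u, huK, h1⟩
  obtain ⟨w, hwK, hww⟩ := hw
  have hw0 : w ≠ 0 := by
    rintro rfl
    apply hww
    simp
  have hWK : Submodule.span F {w} ≤ K := by
    rw [Submodule.span_le, Set.singleton_subset_iff]
    exact hwK
  have hW : ND B (Submodule.span F {w}) := by
    intro x hx h
    obtain ⟨c, rfl⟩ := Submodule.mem_span_singleton.mp hx
    have h' := h w (Submodule.mem_span_singleton_self w)
    rw [map_smul, LinearMap.smul_apply, smul_eq_mul] at h'
    rcases mul_eq_zero.mp h' with hc | hc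
    · rw [hc, zero_smul]
    · exact absurd hc hww
  obtain ⟨h1, -, h3⟩ := Cfsg.Agent.Lib.Helper98.O72.nd_rel hS h2 hW hK hWK
  refine ⟨K ⊓ B.orthogonal (Submodule.span F {w}), inf_le_left, h1, ?_⟩
  rw [finrank_span_singleton hw0] at h3
  omega

theorem ndsub_aux (hS : B.IsSymm) (h2 : (2 : F) ≠ 0) (t : ℕ) :
    ∀ (n : ℕ) (K : Submodule F V), ND B K → finrank F K = t + n →
      ∃ W : Submodule F V, W ≤ K ∧ ND B W ∧ finrank F W = t := by
  intro n
  induction n with
  | zero =>
    intro K hK h
    exact ⟨K, le_rfl, hK, by rw [h, add_zero]⟩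
  | succ n ih =>
    intro K hK h
    obtain ⟨K', hK'K, hK', hfin⟩ := ndsub_step hS h2 K hK (by omega)
    obtain ⟨W, hW, hWnd, hWf⟩ := ih K' hK' (by omega)
    exact ⟨W, hW.trans hK'K, hWnd, hWf⟩

-- PIECE NDSUB
theorem nd_sub (hS : B.IsSymm) (h2 : (2 : F) ≠ 0) (K : Submodule F V) (hK : ND B K) (t : ℕ)
    (ht : t ≤ finrank F K) : ∃ W : Submodule F V, W ≤ K ∧ ND B W ∧ finrank F W = t := by
  obtain ⟨n, hn⟩ := Nat.exists_eq_add_of_le ht
  exact ndsub_aux hS h2 t n K hK hn

end Abstract

end Cfsg.Agent.Lib.Helper16.Hy
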