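import Mathlib
import Cfsg.Agent.Lib.Helper58.JEDefs
import Cfsg.Agent.Lib.Helper72.JMDefs
import Cfsg.Agent.Lib.Helper94.JcTH

/-!
# Project JE (S2948, architect helper58): piece JE-DATAL (proved by helper16)

From the data of JE-DATAX (a subgroup `M` of order 3 of the image of the conjugation action on
`V = VT T`, inverted by `ρ b`, normalized by the elementary abelian subgroups of largest order)
build `Data T ⊤ Q C V D A b` with `Q = O₂(X)`, `C = ker ρ`, `D = ρ⁻¹(M)`.
-/

set_option autoImplicit false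

namespace Cfsg.Agent.Lib.Helper16.JE

open Cfsg.Agent.Lib.Helper58.JE Cfsg.Agent.Lib.Helper72.JL Cfsg.Agent.Lib.Helper72.SC
  Cfsg.Agent.Lib.Helper78.Jc Cfsg.Agent.Lib.Helper72.JM

open scoped commutatorElement

universe u

theorem datal_norm_top {X : Type*} [Group X] (N : Subgroup X) (hN : N.Normal) :
    (⊤ : Subgroup X) ≤ Subgroup.normalizer (N : Set X) := by
  intro x _
  rw [Subgroup.mem_normalizer_iff]
  intro n
  constructor
  · intro hn
    exact hN.conj_mem n hn x
  · intro hn
    have h1 := hN.conj_mem _ hn x⁻¹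
    have e : x⁻¹ * (x * n * x⁻¹) * x⁻¹⁻¹ = n := by group
    rw [e] at h1
    exact h1

theorem datal_rho_val {X : Type*} [Group X] (T : Subgroup X) (x : X) (v : ↥(VT T)) :
    ((rhoT T x v : ↥(VT T)) : X) = x * (v : X) * x⁻¹ := rfl

theorem datal_mem_ker {X : Type*} [Group X] (T : Subgroup X) (x : X) :
    x ∈ (rhoT T).ker ↔ ∀ v ∈ VT T, x * v = v * x := by
  rw [MonoidHom.mem_ker]
  constructor
  · intro hx v hv
    have h1 : rhoT T x ⟨v, hv⟩ = ⟨v, hv⟩ := by rw [hx]; rfl
    have h2 := congrArg Subtype.val h1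
    rw [datal_rho_val] at h2
    have h3 : x * v * x⁻¹ = v := h2
    calc x * v = x * v * x⁻¹ * x := by group
      _ = v * x := by rw [h3]
  · intro hx
    apply MulEquiv.ext
    intro v
    apply Subtype.ext
    rw [datal_rho_val, hx (v : X) v.2]
    show (v : X) * x * x⁻¹ = (v : X)
    group

/-- JE-DATAL -/
theorem datal (hVab : VabStmt.{u}) (hCt : CtStmt.{u}) (hC2 : C2Stmt.{u}) (h : DataXStmt.{u}) :
    DataLStmt.{u} := by
  intro X _ _ T hS hex
  obtain ⟨A, b, M, hA, hbA, hMr, hM3, hMn, hMb, v₀, hv₀⟩ := h X T hS hex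
  obtain ⟨hVQ, hVc, hV2, hQT, hQV⟩ := hVab X T hS
  obtain ⟨hQker, hct⟩ := hCt X T hS
  have hC2' := hC2 X T hS
  have hQn : (Cfsg.pCore 2 X).Normal := Subgroup.sSup_normal _ (fun _ hK => hK.1)
  have hQ2 : IsPGroup 2 ↥(Cfsg.pCore 2 X) :=
    Sylow.sSup_of_normal _ (fun _ hK => hK.2) (fun _ hK => hK.1)
  refine ⟨Cfsg.pCore 2 X, (rhoT T).ker, VT T, M.comap (rhoT T), A, b, ?_⟩
  refine
    { hT2 := hS.hT2
      hTL := le_top
      hQ2 := hQ2
      hQT := hQT
      hQn := datal_norm_top _ hQn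
      hCL := le_top
      hCn := datal_norm_top _ (MonoidHom.normal_ker _)
      hQC := hQker
      hCT := ?_
      hc1 := ?_
      hc2 := ?_
      hVQ := hVQ
      hVn := datal_norm_top _ (VT_normal T)
      hVc := hVc
      hV2 := hV2
      hCV := ?_
      hCD := ?_
      hDL := le_top
      hDC := ?_
      hDJ := ?_
      hA := hA
      hbA := hbA
      hbD := ?_
      hbV := ?_ }
  · -- hCT
    intro c hc
    apply hS.hZN
    intro z hz
    have hzV : z ∈ VT T := Subgroup.subset_normalClosure hz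
    exact (datal_mem_ker T c).mp hc z hzV
  · -- hc1
    intro c hc t ht
    have h1 := hct c hc t ht
    rw [commutatorElement_def] at h1
    exact h1
  · -- hc2
    intro c hc hn
    apply hC2' ⊥ IsPGroup.of_bot c _ hn
    rw [MonoidHom.mem_ker.mp hc]
    exact Subgroup.one_mem _
  · -- hCV
    intro x _
    exact datal_mem_ker T x
  · -- hCD
    intro c hc
    rw [Subgroup.mem_comap, MonoidHom.mem_ker.mp hc]
    exact M.one_mem
  · -- hDC
    have h1 := Subgroup.relIndex_comap (H := (⊥ : Subgroup (MulAut ↥(VT T)))) (rhoT T)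
      (M.comap (rhoT T))
    rw [MonoidHom.comap_bot, Subgroup.map_comap_eq, inf_eq_right.mpr hMr,
      Subgroup.relIndex_bot_left, hM3] at h1
    exact h1
  · -- hDJ
    apply Cfsg.Agent.Lib.Helper94.Jc.th_le_of_forall
    intro A' hA' a ha
    rw [Subgroup.mem_normalizer_iff]
    intro n
    rw [Subgroup.mem_comap, Subgroup.mem_comap, map_mul, map_mul, map_inv]
    constructor
    · intro hn
      exact hMn A' hA' a ha _ hn
    · intro hn
      have ha' : a⁻¹ ∈ A' := A'.inv_mem ha
      have h1 := hMn A' hA' a⁻¹ ha' _ hn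
      rw [map_inv] at h1
      have e : (rhoT T a)⁻¹ * (rhoT T a * rhoT T n * (rhoT T a)⁻¹) * (rhoT T a)⁻¹⁻¹ =
          rhoT T n := by group
      rw [e] at h1
      exact h1
  · -- hbD
    intro d hd
    rw [MonoidHom.mem_ker, map_mul, map_mul, map_mul, map_inv,
      hMb _ (Subgroup.mem_comap.mp hd), inv_mul_cancel]
  · -- hbV
    refine ⟨(v₀ : X), v₀.2, ?_⟩
    intro v hv
    rcases hv₀ ⟨v, hv⟩ with h1 | h1
    · left
      exact congrArg Subtype.val h1
    · right
      exact congrArg Subtype.val h1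

end Cfsg.Agent.Lib.Helper16.JE
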