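import Mathlib

set_option autoImplicit false

namespace Cfsg.Agent.Lib.Helper16

/-- code of a 2×2 matrix with natural number entries -/
abbrev M4 := ℕ × ℕ × ℕ × ℕ

def one4 : M4 := (1, 0, 0, 1)

def mul4 (p : ℕ) (x y : M4) : M4 :=
  ((x.1 * y.1 + x.2.1 * y.2.2.1) % p, (x.1 * y.2.1 + x.2.1 * y.2.2.2) % p,
   (x.2.2.1 * y.1 + x.2.2.2 * y.2.2.1) % p, (x.2.2.1 * y.2.1 + x.2.2.2 * y.2.2.2) % p)

def toMat (p : ℕ) (x : M4) : Matrix (Fin 2) (Fin 2) (ZMod p) :=
  !![(x.1 : ZMod p), (x.2.1 : ZMod p); (x.2.2.1 : ZMod p), (x.2.2.2 : ZMod p)]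

theorem toMat_one4 (p : ℕ) : toMat p one4 = 1 := by
  ext i j; fin_cases i <;> fin_cases j <;> simp [toMat, one4]

theorem toMat_mul4 (p : ℕ) (x y : M4) : toMat p (mul4 p x y) = toMat p x * toMat p y := by
  ext i j; fin_cases i <;> fin_cases j <;>
    simp [toMat, mul4, Matrix.mul_apply, Fin.sum_univ_two, ZMod.natCast_mod]

def red4 (p : ℕ) (x : M4) : Prop := x.1 < p ∧ x.2.1 < p ∧ x.2.2.1 < p ∧ x.2.2.2 < p

theorem natCast_inj_of_lt (p : ℕ) {a b : ℕ} (ha : a < p) (hb : b < p)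
    (h : (a : ZMod p) = (b : ZMod p)) : a = b := by
  have := (ZMod.natCast_eq_natCast_iff' a b p).mp h
  rwa [Nat.mod_eq_of_lt ha, Nat.mod_eq_of_lt hb] at this

theorem toMat_inj (p : ℕ) {x y : M4} (hx : red4 p x) (hy : red4 p y)
    (h : toMat p x = toMat p y) : x = y := by
  obtain ⟨a, b, c, d⟩ := x
  obtain ⟨a', b', c', d'⟩ := y
  obtain ⟨h1, h2, h3, h4⟩ := hx
  obtain ⟨h1', h2', h3', h4'⟩ := hy
  have e00 := congrFun (congrFun h 0) 0
  have e01 := congrFun (congrFun h 0) 1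
  have e10 := congrFun (congrFun h 1) 0
  have e11 := congrFun (congrFun h 1) 1
  simp only [toMat, Matrix.of_apply, Matrix.cons_val_zero, Matrix.cons_val_one,
    Matrix.cons_val', Matrix.cons_val_fin_one] at e00 e01 e10 e11
  have ha : a = a' := natCast_inj_of_lt p h1 h1' e00
  have hb : b = b' := natCast_inj_of_lt p h2 h2' e01
  have hc : c = c' := natCast_inj_of_lt p h3 h3' e10
  have hd : d = d' := natCast_inj_of_lt p h4 h4' e11
  rw [ha, hb, hc, hd]

theorem toMat_det (p : ℕ) [Fact p.Prime] (x : M4)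
    (h : (x.1 * x.2.2.2 + (p - 1) * (x.2.1 * x.2.2.1)) % p = 1) : (toMat p x).det = 1 := by
  rw [Matrix.det_fin_two]
  have hp : 1 ≤ p := (Fact.out : p.Prime).one_lt.le
  have h2 : ((((x.1 * x.2.2.2 + (p - 1) * (x.2.1 * x.2.2.1)) % p : ℕ)) : ZMod p)
      = ((1 : ℕ) : ZMod p) := by
    rw [h]
  rw [ZMod.natCast_mod] at h2
  push_cast [Nat.cast_sub hp] at h2
  simp only [toMat, Matrix.of_apply, Matrix.cons_val_zero, Matrix.cons_val_one,
    Matrix.cons_val', Matrix.cons_val_fin_one]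
  simp only [ZMod.natCast_self, zero_sub] at h2
  rw [← h2]; ring

/-! ### Boolean certificates -/

def closedOK (p : ℕ) (S gens : List M4) : Bool :=
  S.all fun x => gens.all fun c => S.contains (mul4 p x c)

def bfsOK (p : ℕ) (gens : List M4) : List M4 → List M4 → Bool
  | _, [] => true
  | seen, x :: rest =>
    (seen.any fun s => gens.any fun c => mul4 p s c == x) && bfsOK p gens (x :: seen) rest

def redOK (p : ℕ) (S : List M4) : Bool :=
  S.all fun x => decide (x.1 < p) && decide (x.2.1 < p) && decide (x.2.2.1 < p)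
    && decide (x.2.2.2 < p)

def detOK (p : ℕ) (S : List M4) : Bool :=
  S.all fun x => (x.1 * x.2.2.2 + (p - 1) * (x.2.1 * x.2.2.1)) % p == 1

def zclosedOK (p : ℕ) (Z zgens : List ℕ) : Bool :=
  Z.all fun z => zgens.all fun u => Z.contains ((z * u) % p)

def zbfsOK (p : ℕ) (zgens : List ℕ) : List ℕ → List ℕ → Bool
  | _, [] => true
  | seen, x :: rest =>
    (seen.any fun s => zgens.any fun c => (s * c) % p == x) && zbfsOK p zgens (x :: seen) rest

def zredOK (p : ℕ) (Z : List ℕ) : Bool := Z.all fun z => decide (0 < z) && decide (z < p)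

def zsqOK (p : ℕ) (Z : List ℕ) : Bool :=
  Z.all fun z => Z.all fun z' => ((z * z) % p != (z' * z') % p) || z == z'

def fpfOK (p : ℕ) (S : List M4) (Z : List ℕ) : Bool :=
  S.all fun x => Z.all fun z => (x == one4 && z == 1) ||
    ((z * x.1 + (p - 1)) * (z * x.2.2.2 + (p - 1)) + (p - 1) * ((z * x.2.1) * (z * x.2.2.1))) % p
      != 0

section Main

variable (p : ℕ) [Fact p.Prime] (T : Set (Matrix.GeneralLinearGroup (Fin 2) (ZMod p)))
  (gens : List M4) (zgens : List ℕ)

theorem bfs_sound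
    (hgens : ∀ c ∈ gens, ∃ t ∈ T, (t : Matrix (Fin 2) (Fin 2) (ZMod p)) = toMat p c)
    (rest : List M4) : ∀ (seen : List M4), bfsOK p gens seen rest = true →
    (∀ s ∈ seen, ∃ g ∈ Subgroup.closure T, (g : Matrix (Fin 2) (Fin 2) (ZMod p)) = toMat p s) →
    ∀ x ∈ rest, ∃ g ∈ Subgroup.closure T, (g : Matrix (Fin 2) (Fin 2) (ZMod p)) = toMat p x := by
  induction rest with
  | nil => intro seen _ _ x hx; simp at hx
  | cons y rest ih =>
    intro seen hb hseen x hx
    simp only [bfsOK, Bool.and_eq_true, List.any_eq_true, beq_iff_eq] at hb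
    obtain ⟨⟨s, hs, c, hc, hsc⟩, hb2⟩ := hb
    have hy : ∃ g ∈ Subgroup.closure T, (g : Matrix (Fin 2) (Fin 2) (ZMod p)) = toMat p y := by
      obtain ⟨g, hg, hgs⟩ := hseen s hs
      obtain ⟨t, ht, htc⟩ := hgens c hc
      refine ⟨g * t, Subgroup.mul_mem _ hg (Subgroup.subset_closure ht), ?_⟩
      rw [Units.val_mul, hgs, htc, ← toMat_mul4, hsc]
    rcases List.mem_cons.mp hx with rfl | hx'
    · exact hy
    · refine ih (y :: seen) hb2 ?_ x hx'
      intro s' hs'
      rcases List.mem_cons.mp hs' with rfl | hs''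
      · exact hy
      · exact hseen s' hs''

theorem zbfs_sound
    (hzgens : ∀ u ∈ zgens, ∃ t ∈ T,
      (t : Matrix (Fin 2) (Fin 2) (ZMod p)) = (u : ZMod p) • (1 : Matrix (Fin 2) (Fin 2) (ZMod p)))
    (rest : List ℕ) : ∀ (seen : List ℕ), zbfsOK p zgens seen rest = true →
    (∀ s ∈ seen, ∃ g ∈ Subgroup.closure T,
      (g : Matrix (Fin 2) (Fin 2) (ZMod p)) = (s : ZMod p) • (1 : Matrix (Fin 2) (Fin 2) (ZMod p))) →
    ∀ x ∈ rest, ∃ g ∈ Subgroup.closure T,
      (g : Matrix (Fin 2) (Fin 2) (ZMod p)) = (x : ZMod p) • (1 : Matrix (Fin 2) (Fin 2) (ZMod p)) := by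
  induction rest with
  | nil => intro seen _ _ x hx; simp at hx
  | cons y rest ih =>
    intro seen hb hseen x hx
    simp only [zbfsOK, Bool.and_eq_true, List.any_eq_true, beq_iff_eq] at hb
    obtain ⟨⟨s, hs, c, hc, hsc⟩, hb2⟩ := hb
    have hy : ∃ g ∈ Subgroup.closure T,
        (g : Matrix (Fin 2) (Fin 2) (ZMod p)) = (y : ZMod p) • (1 : Matrix (Fin 2) (Fin 2) (ZMod p)) := by
      obtain ⟨g, hg, hgs⟩ := hseen s hs
      obtain ⟨t, ht, htc⟩ := hzgens c hc
      refine ⟨g * t, Subgroup.mul_mem _ hg (Subgroup.subset_closure ht), ?_⟩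
      rw [Units.val_mul, hgs, htc, ← hsc, ZMod.natCast_mod, Nat.cast_mul, smul_mul_smul_comm,
        mul_one]
    rcases List.mem_cons.mp hx with rfl | hx'
    · exact hy
    · refine ih (y :: seen) hb2 ?_ x hx'
      intro s' hs'
      rcases List.mem_cons.mp hs' with rfl | hs''
      · exact hy
      · exact hseen s' hs''

theorem regular_main (S' : List M4) (Z' : List ℕ)
    (hT : ∀ t ∈ T, (∃ c ∈ gens, (t : Matrix (Fin 2) (Fin 2) (ZMod p)) = toMat p c) ∨
      (∃ u ∈ zgens, (t : Matrix (Fin 2) (Fin 2) (ZMod p))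
        = (u : ZMod p) • (1 : Matrix (Fin 2) (Fin 2) (ZMod p))))
    (hgens : ∀ c ∈ gens, ∃ t ∈ T, (t : Matrix (Fin 2) (Fin 2) (ZMod p)) = toMat p c)
    (hzgens : ∀ u ∈ zgens, ∃ t ∈ T,
      (t : Matrix (Fin 2) (Fin 2) (ZMod p)) = (u : ZMod p) • (1 : Matrix (Fin 2) (Fin 2) (ZMod p)))
    (h1 : closedOK p (one4 :: S') gens = true) (h2 : bfsOK p gens [one4] S' = true)
    (h3 : redOK p (one4 :: S') = true) (h4 : detOK p (one4 :: S') = true)
    (h5 : (one4 :: S').Nodup)
    (h6 : zclosedOK p (1 :: Z') zgens = true) (h7 : zbfsOK p zgens [1] Z' = true)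
    (h8 : zredOK p (1 :: Z') = true) (h9 : zsqOK p (1 :: Z') = true) (h9' : (1 :: Z').Nodup)
    (h10 : fpfOK p (one4 :: S') (1 :: Z') = true)
    (h11 : (one4 :: S').length * (1 :: Z').length + 1 = p * p) :
    Nat.card (Subgroup.closure T) = (one4 :: S').length * (1 :: Z').length ∧
    ∀ v w : Fin 2 → ZMod p, v ≠ 0 → w ≠ 0 → ∃! h : Subgroup.closure T,
      Matrix.mulVec ((h : Matrix.GeneralLinearGroup (Fin 2) (ZMod p)) :
        Matrix (Fin 2) (Fin 2) (ZMod p)) v = w := by
  classical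
  set S : List M4 := one4 :: S' with hS
  set Z : List ℕ := 1 :: Z' with hZ
  have hp : (p : ℕ).Prime := Fact.out
  have hp1 : 1 ≤ p := hp.one_lt.le
  -- Step A
  have hA : ∀ g ∈ Subgroup.closure T, ∃ x ∈ S, ∃ z ∈ Z,
      (g : Matrix (Fin 2) (Fin 2) (ZMod p)) = (z : ZMod p) • toMat p x := by
    intro g hg
    have hg' : g ∈ Submonoid.closure T := by
      rw [← Subgroup.closure_toSubmonoid_of_finite]; exact hg
    induction hg' using Submonoid.closure_induction_right with
    | one =>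
      refine ⟨one4, List.mem_cons_self, 1, List.mem_cons_self, ?_⟩
      rw [toMat_one4, Nat.cast_one, one_smul, Units.val_one]
    | mul_right x hx y hy ih =>
      obtain ⟨x0, hx0, z, hz, hxz⟩ := ih (by
        rw [← Subgroup.mem_toSubmonoid, Subgroup.closure_toSubmonoid_of_finite]; exact hx)
      rcases hT y hy with ⟨c, hc, hyc⟩ | ⟨u, hu, hyu⟩
      · refine ⟨mul4 p x0 c, ?_, z, hz, ?_⟩
        · simp only [closedOK, List.all_eq_true, List.contains_iff_mem] at h1
          exact h1 x0 hx0 c hc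
        · rw [Units.val_mul, hxz, hyc, toMat_mul4, smul_mul_assoc]
      · refine ⟨x0, hx0, (z * u) % p, ?_, ?_⟩
        · simp only [zclosedOK, List.all_eq_true, List.contains_iff_mem] at h6
          exact h6 z hz u hu
        · rw [Units.val_mul, hxz, hyu, ZMod.natCast_mod, Nat.cast_mul, smul_mul_smul_comm,
            mul_one]
  -- Step B
  have hB : ∀ x ∈ S, ∃ g ∈ Subgroup.closure T,
      (g : Matrix (Fin 2) (Fin 2) (ZMod p)) = toMat p x := by
    have h1' : ∃ g ∈ Subgroup.closure T,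
        (g : Matrix (Fin 2) (Fin 2) (ZMod p)) = toMat p one4 :=
      ⟨1, Subgroup.one_mem _, by rw [toMat_one4, Units.val_one]⟩
    intro x hx
    rcases List.mem_cons.mp hx with rfl | hx'
    · exact h1'
    · refine bfs_sound p T gens hgens S' [one4] h2 ?_ x hx'
      intro s hs
      rw [List.mem_singleton] at hs
      rw [hs]; exact h1'
  have hB' : ∀ z ∈ Z, ∃ g ∈ Subgroup.closure T,
      (g : Matrix (Fin 2) (Fin 2) (ZMod p)) = (z : ZMod p) • (1 : Matrix (Fin 2) (Fin 2) (ZMod p)) := by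
    have h1' : ∃ g ∈ Subgroup.closure T,
        (g : Matrix (Fin 2) (Fin 2) (ZMod p)) = ((1 : ℕ) : ZMod p) • (1 : Matrix (Fin 2) (Fin 2) (ZMod p)) :=
      ⟨1, Subgroup.one_mem _, by rw [Nat.cast_one, one_smul, Units.val_one]⟩
    intro z hz
    rcases List.mem_cons.mp hz with rfl | hz'
    · exact h1'
    · refine zbfs_sound p T zgens hzgens Z' [1] h7 ?_ z hz'
      intro s hs
      rw [List.mem_singleton] at hs
      rw [hs]; exact h1'
  -- facts on S and Z
  have hred : ∀ x ∈ S, red4 p x := by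
    intro x hx
    simp only [redOK, List.all_eq_true, Bool.and_eq_true, decide_eq_true_eq] at h3
    obtain ⟨⟨⟨a, b⟩, c⟩, d⟩ := h3 x hx
    exact ⟨a, b, c, d⟩
  have hdet : ∀ x ∈ S, (toMat p x).det = 1 := by
    intro x hx
    simp only [detOK, List.all_eq_true, beq_iff_eq] at h4
    exact toMat_det p x (h4 x hx)
  have hzred : ∀ z ∈ Z, 0 < z ∧ z < p := by
    intro z hz
    simp only [zredOK, List.all_eq_true, Bool.and_eq_true, decide_eq_true_eq] at h8
    exact h8 z hz
  have hzne : ∀ z ∈ Z, (z : ZMod p) ≠ 0 := by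
    intro z hz h
    rw [ZMod.natCast_eq_zero_iff] at h
    have := hzred z hz
    exact absurd (Nat.le_of_dvd this.1 h) (not_le.mpr this.2)
  have hzsq : ∀ z ∈ Z, ∀ z' ∈ Z, (z * z) % p = (z' * z') % p → z = z' := by
    intro z hz z' hz' h
    simp only [zsqOK, List.all_eq_true, Bool.or_eq_true, bne_iff_ne, ne_eq, beq_iff_eq] at h9
    rcases h9 z hz z' hz' with h' | h'
    · exact absurd h h'
    · exact h'
  -- injectivity of the parametrisation
  let φ : M4 × ℕ → Matrix (Fin 2) (Fin 2) (ZMod p) := fun a => (a.2 : ZMod p) • toMat p a.1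
  have hφinj : ∀ x ∈ S, ∀ z ∈ Z, ∀ x' ∈ S, ∀ z' ∈ Z,
      (z : ZMod p) • toMat p x = (z' : ZMod p) • toMat p x' → x = x' ∧ z = z' := by
    intro x hx z hz x' hx' z' hz' h
    have hd := congrArg Matrix.det h
    rw [Matrix.det_smul, Matrix.det_smul, hdet x hx, hdet x' hx', mul_one, mul_one,
      Fintype.card_fin] at hd
    have hzz : z = z' := by
      apply hzsq z hz z' hz'
      have : ((z * z : ℕ) : ZMod p) = ((z' * z' : ℕ) : ZMod p) := by
        push_cast; rw [← pow_two, ← pow_two]; exact hd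
      exact (ZMod.natCast_eq_natCast_iff' _ _ p).mp this
    subst hzz
    have hne := hzne z hz
    have h' : toMat p x = toMat p x' := by
      have := congrArg (fun M => (z : ZMod p)⁻¹ • M) h
      simpa [smul_smul, inv_mul_cancel₀ hne] using this
    exact ⟨toMat_inj p (hred x hx) (hred x' hx') h', rfl⟩
  let F : Finset (Matrix (Fin 2) (Fin 2) (ZMod p)) := (S.toFinset ×ˢ Z.toFinset).image φ
  have hFcard : F.card = S.length * Z.length := by
    rw [Finset.card_image_of_injOn, Finset.card_product, List.toFinset_card_of_nodup h5,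
      List.toFinset_card_of_nodup h9']
    intro a ha b hb hab
    rw [Finset.mem_coe, Finset.mem_product, List.mem_toFinset, List.mem_toFinset] at ha hb
    obtain ⟨e1, e2⟩ := hφinj a.1 ha.1 a.2 ha.2 b.1 hb.1 b.2 hb.2 hab
    exact Prod.ext e1 e2
  have hmemF : ∀ g : Subgroup.closure T,
      ((g : Matrix.GeneralLinearGroup (Fin 2) (ZMod p)) : Matrix (Fin 2) (Fin 2) (ZMod p)) ∈ F := by
    intro g
    obtain ⟨x, hx, z, hz, hxz⟩ := hA g g.2
    rw [Finset.mem_image]
    refine ⟨(x, z), ?_, hxz.symm⟩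
    rw [Finset.mem_product, List.mem_toFinset, List.mem_toFinset]
    exact ⟨hx, hz⟩
  have hbij : Function.Bijective (fun g : Subgroup.closure T => (⟨_, hmemF g⟩ : F)) := by
    refine ⟨?_, ?_⟩
    · intro g g' h
      have h' : ((g : Matrix.GeneralLinearGroup (Fin 2) (ZMod p)) : Matrix (Fin 2) (Fin 2) (ZMod p))
          = ((g' : Matrix.GeneralLinearGroup (Fin 2) (ZMod p)) : Matrix (Fin 2) (Fin 2) (ZMod p)) :=
        congrArg Subtype.val h
      exact Subtype.ext (Units.ext h')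
    · rintro ⟨M, hM⟩
      rw [Finset.mem_image] at hM
      obtain ⟨⟨x, z⟩, hxz, rfl⟩ := hM
      rw [Finset.mem_product, List.mem_toFinset, List.mem_toFinset] at hxz
      obtain ⟨gx, hgx, hgx'⟩ := hB x hxz.1
      obtain ⟨gz, hgz, hgz'⟩ := hB' z hxz.2
      refine ⟨⟨gz * gx, Subgroup.mul_mem _ hgz hgx⟩, ?_⟩
      apply Subtype.ext
      change ((gz * gx : Matrix.GeneralLinearGroup (Fin 2) (ZMod p)) : Matrix (Fin 2) (Fin 2) (ZMod p))
        = (z : ZMod p) • toMat p x
      rw [Units.val_mul, hgz', hgx', smul_mul_assoc, one_mul]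
  have hcard : Nat.card (Subgroup.closure T) = S.length * Z.length := by
    rw [Nat.card_congr (Equiv.ofBijective _ hbij), Nat.card_eq_fintype_card, Fintype.card_coe,
      hFcard]
  refine ⟨hcard, ?_⟩
  -- Step D : fixed-point-freeness
  have hD : ∀ g ∈ Subgroup.closure T, ∀ v : Fin 2 → ZMod p, v ≠ 0 →
      Matrix.mulVec (g : Matrix (Fin 2) (Fin 2) (ZMod p)) v = v → g = 1 := by
    intro g hg v hv hgv
    obtain ⟨x, hx, z, hz, hxz⟩ := hA g hg
    simp only [fpfOK, List.all_eq_true, Bool.or_eq_true, Bool.and_eq_true, beq_iff_eq,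
      bne_iff_ne, ne_eq] at h10
    rcases h10 x hx z hz with ⟨rfl, rfl⟩ | hne
    · apply Units.ext
      rw [hxz, toMat_one4, Nat.cast_one, one_smul, Units.val_one]
    · exfalso
      have hM : ((g : Matrix (Fin 2) (Fin 2) (ZMod p)) - 1).det = 0 := by
        rw [← Matrix.exists_mulVec_eq_zero_iff]
        exact ⟨v, hv, by rw [Matrix.sub_mulVec, hgv, Matrix.one_mulVec, sub_self]⟩
      apply hne
      have hcast : (((z * x.1 + (p - 1)) * (z * x.2.2.2 + (p - 1)) +
          (p - 1) * ((z * x.2.1) * (z * x.2.2.1)) : ℕ) : ZMod p) = 0 := by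
        rw [← hM, hxz, Matrix.det_fin_two]
        push_cast [Nat.cast_sub hp1]
        simp only [toMat, Matrix.sub_apply, Matrix.smul_apply, Matrix.of_apply,
          Matrix.cons_val_zero, Matrix.cons_val_one, Matrix.cons_val', Matrix.cons_val_fin_one,
          Matrix.one_apply_eq, Matrix.one_apply_ne, ne_eq, one_ne_zero, zero_ne_one,
          not_false_eq_true, ZMod.natCast_self, smul_eq_mul]
        ring
      exact Nat.mod_eq_zero_of_dvd ((ZMod.natCast_eq_zero_iff _ p).mp hcast)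
  -- Step E
  have huniq : ∀ (v : Fin 2 → ZMod p), v ≠ 0 → ∀ h1 h2 : Subgroup.closure T,
      Matrix.mulVec ((h1 : Matrix.GeneralLinearGroup (Fin 2) (ZMod p)) :
        Matrix (Fin 2) (Fin 2) (ZMod p)) v =
      Matrix.mulVec ((h2 : Matrix.GeneralLinearGroup (Fin 2) (ZMod p)) :
        Matrix (Fin 2) (Fin 2) (ZMod p)) v → h1 = h2 := by
    intro v hv h1 h2 h
    have key : (h1 : Matrix.GeneralLinearGroup (Fin 2) (ZMod p))⁻¹ * h2 = 1 := by
      apply hD _ (Subgroup.mul_mem _ (Subgroup.inv_mem _ h1.2) h2.2) v hv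
      rw [Units.val_mul, ← Matrix.mulVec_mulVec, ← h, Matrix.mulVec_mulVec, ← Units.val_mul,
        inv_mul_cancel, Units.val_one, Matrix.one_mulVec]
    exact Subtype.ext (inv_mul_eq_one.mp key)
  intro v w hv hw
  have hnz : ∀ g : Subgroup.closure T,
      Matrix.mulVec ((g : Matrix.GeneralLinearGroup (Fin 2) (ZMod p)) :
        Matrix (Fin 2) (Fin 2) (ZMod p)) v ≠ 0 := by
    intro g h0
    apply hv
    have := congrArg (Matrix.mulVec (((g : Matrix.GeneralLinearGroup (Fin 2) (ZMod p))⁻¹ :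
      Matrix.GeneralLinearGroup (Fin 2) (ZMod p)) : Matrix (Fin 2) (Fin 2) (ZMod p))) h0
    rwa [Matrix.mulVec_mulVec, ← Units.val_mul, inv_mul_cancel, Units.val_one, Matrix.one_mulVec,
      Matrix.mulVec_zero] at this
  let ψ : Subgroup.closure T → {w : Fin 2 → ZMod p // w ≠ 0} := fun g => ⟨_, hnz g⟩
  have hψinj : Function.Injective ψ := by
    intro g g' h
    exact huniq v hv g g' (congrArg Subtype.val h)
  have hcardV : Nat.card {w : Fin 2 → ZMod p // w ≠ 0} ≤ Nat.card (Subgroup.closure T) := by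
    rw [hcard, Nat.card_eq_fintype_card]
    have h1 : Fintype.card {w : Fin 2 → ZMod p // w ≠ 0}
        = Fintype.card (Fin 2 → ZMod p) - Fintype.card {w : Fin 2 → ZMod p // w = 0} :=
      Fintype.card_subtype_compl (fun w : Fin 2 → ZMod p => w = 0)
    rw [h1, Fintype.card_subtype_eq, Fintype.card_fun, ZMod.card, Fintype.card_fin]
    have : p ^ 2 = p * p := pow_two p
    omega
  have hψbij : Function.Bijective ψ := hψinj.bijective_of_nat_card_le hcardV
  obtain ⟨g, hg⟩ := hψbij.2 ⟨w, hw⟩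
  refine ⟨g, congrArg Subtype.val hg, ?_⟩
  intro g' hg'
  apply huniq v hv
  rw [hg']
  exact (congrArg Subtype.val hg).symm

end Main

end Cfsg.Agent.Lib.Helper16
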