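import Mathlib

/-!
# S1384 (project NF of helper41), piece NF-DEC (helper16)

The `q`-part and the `q'`-part of an element of a finite group, as powers of the element.
-/

set_option autoImplicit false

namespace Cfsg.Agent.Lib.Helper16.NF

universe u

variable {G : Type u} [Group G] [Finite G]

/-- NF-DEC: `q`-part and `q'`-part of an element, as powers. -/
theorem qdecomp (q : ℕ) [Fact q.Prime] (x : G) :
    ∃ u v : ℕ, x ^ u * x ^ v = x ∧ (∃ k : ℕ, (x ^ u) ^ (q ^ k) = 1) ∧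
      (orderOf (x ^ v)).Coprime q := by
  have hq : q.Prime := Fact.out
  have ho : orderOf x ≠ 0 := (orderOf_pos x).ne'
  obtain ⟨k, hk⟩ : ∃ k, k = (orderOf x).factorization q := ⟨_, rfl⟩
  obtain ⟨m, hm⟩ : ∃ m, m = orderOf x / q ^ k := ⟨_, rfl⟩
  have hmul : q ^ k * m = orderOf x := by
    rw [hm, hk]
    exact Nat.ordProj_mul_ordCompl_eq_self (orderOf x) q
  have hqm : Nat.Coprime q m := by
    rw [hm, hk]
    exact Nat.coprime_ordCompl hq ho
  have hco : Nat.Coprime (q ^ k) m := hqm.pow_left k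
  obtain ⟨u, hu1, hu2⟩ := Nat.chineseRemainder hco 1 0
  obtain ⟨v, hv1, hv2⟩ := Nat.chineseRemainder hco 0 1
  refine ⟨u, v, ?_, ⟨k, ?_⟩, ?_⟩
  · have h1 : u + v ≡ 1 [MOD q ^ k] := by simpa using hu1.add hv1
    have h2 : u + v ≡ 1 [MOD m] := by simpa using hu2.add hv2
    have h3 : u + v ≡ 1 [MOD orderOf x] := by
      rw [← hmul]
      exact (Nat.modEq_and_modEq_iff_modEq_mul hco).mp ⟨h1, h2⟩
    rw [← pow_add]
    have h4 := pow_eq_pow_iff_modEq.mpr h3
    rw [h4, pow_one]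
  · rw [← pow_mul]
    apply orderOf_dvd_iff_pow_eq_one.mp
    rw [← hmul]
    have hmu : m ∣ u := (Nat.modEq_zero_iff_dvd).mp hu2
    rw [mul_comm u]
    exact Nat.mul_dvd_mul_left _ hmu
  · have hx : (x ^ v) ^ m = 1 := by
      rw [← pow_mul]
      apply orderOf_dvd_iff_pow_eq_one.mp
      rw [← hmul]
      have hav : q ^ k ∣ v := (Nat.modEq_zero_iff_dvd).mp hv1
      exact Nat.mul_dvd_mul_right hav _
    have hd : orderOf (x ^ v) ∣ m := orderOf_dvd_of_pow_eq_one hx
    exact Nat.Coprime.coprime_dvd_left hd hqm.symm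

end Cfsg.Agent.Lib.Helper16.NF
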