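import Mathlib
import Cfsg.Prelude.Def_GeometricClasses
import Cfsg.Prelude.Def_LieClassical
import Cfsg.Agent.Lib.Helper71.Asch0
import Cfsg.Agent.Lib.Helper71.Asch8
import Cfsg.Agent.Lib.Helper29.SPPTens
import Cfsg.Agent.Lib.Helper98.TensO3
import Cfsg.Agent.Lib.Helper44.O9Defs

/-!
# Project O9 (S5835, architect helper44): piece ST9 (proved by helper16)

`q = 3`: an isometry of `Q` lying in the tensor wreath subgroup `tensorWreathSubgroup 3 2 e P`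
permutes the nine lines of `frame9`.  The two tensor factors of its standard form are similitudes
of `f₁`; over the field with three elements a similitude of a three-dimensional symmetric form
maps frame vectors to frame vectors up to sign (helper98's `IsFVOn` characterisation).
-/

set_option autoImplicit false
set_option linter.unusedSectionVars false
set_option linter.unusedVariables false

namespace Cfsg.Agent.Lib.Helper44.O9

open Matrix Cfsg.Geo Cfsg.Agent.Lib.Helper71.Asch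
open scoped Kronecker

variable {n : ℕ} {F : Type*} [Field F] [Fintype F]

theorem ST9_sum_fin2 (φ : (Fin 2 → Fin 3) → F) :
    ∑ a : Fin 2 → Fin 3, φ a = ∑ i : Fin 3, ∑ j : Fin 3, φ ![i, j] := by
  rw [← Fintype.sum_prod_type (f := fun p : Fin 3 × Fin 3 => φ ![p.1, p.2])]
  exact Fintype.sum_equiv (finTwoArrowEquiv (Fin 3)) _ _ (fun a => by
    congr 1
    funext k
    fin_cases k <;> rfl)

theorem ST9_form_tvec (f₁ : (Fin 3 → F) → (Fin 3 → F) → F) (hb : IsBilinearForm f₁)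
    (u v u' v' : Fin 3 → F) :
    ∑ a : Fin 2 → Fin 3, ∑ b : Fin 2 → Fin 3,
      tvec u v a * (∏ i, gramMatrix f₁ (a i) (b i)) * id (tvec u' v' b) =
      f₁ u u' * f₁ v v' := by
  rw [Cfsg.Agent.Lib.Helper29.SPPTens.tens_gram f₁ hb u u',
    Cfsg.Agent.Lib.Helper29.SPPTens.tens_gram f₁ hb v v']
  simp only [ST9_sum_fin2, Fin.prod_univ_two, tvec, id, Matrix.cons_val_zero, Matrix.cons_val_one]
  rw [Finset.sum_mul_sum]
  apply Finset.sum_congr rfl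
  intro i _
  apply Finset.sum_congr rfl
  intro j _
  rw [Finset.sum_mul_sum]
  apply Finset.sum_congr rfl
  intro k _
  apply Finset.sum_congr rfl
  intro l _
  ring

theorem ST9_mulVec_first (s : Matrix (Fin 2 → Fin 3) (Fin 2 → Fin 3) F)
    (a b : Matrix (Fin 3) (Fin 3) F)
    (h : ∀ x y : Fin 2 → Fin 3, s x y = a (x 0) (y 0) * b (x 1) (y 1)) (u v : Fin 3 → F) :
    s *ᵥ tvec u v = tvec (a *ᵥ u) (b *ᵥ v) := by
  funext x
  simp only [Matrix.mulVec, dotProduct, tvec]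
  rw [ST9_sum_fin2, Finset.sum_mul_sum]
  apply Finset.sum_congr rfl
  intro i _
  apply Finset.sum_congr rfl
  intro j _
  rw [h]
  simp only [Matrix.cons_val_zero, Matrix.cons_val_one]
  ring

theorem ST9_mulVec_second (s : Matrix (Fin 2 → Fin 3) (Fin 2 → Fin 3) F)
    (a b : Matrix (Fin 3) (Fin 3) F)
    (h : ∀ x y : Fin 2 → Fin 3, s x y = a (x 0) (y 1) * b (x 1) (y 0)) (u v : Fin 3 → F) :
    s *ᵥ tvec u v = tvec (a *ᵥ v) (b *ᵥ u) := by
  funext x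
  simp only [Matrix.mulVec, dotProduct, tvec]
  rw [ST9_sum_fin2, Finset.sum_mul_sum, Finset.sum_comm]
  apply Finset.sum_congr rfl
  intro j _
  apply Finset.sum_congr rfl
  intro i _
  rw [h]
  simp only [Matrix.cons_val_zero, Matrix.cons_val_one]
  ring

theorem ST9_tw_mulVec (e : Fin 9 ≃ (Fin 2 → Fin 3)) (P : GL (Fin 9) F)
    (s : Matrix (Fin 2 → Fin 3) (Fin 2 → Fin 3) F) (x : (Fin 2 → Fin 3) → F) :
    tw e P s *ᵥ (P.1 *ᵥ (x ∘ e)) = P.1 *ᵥ ((s *ᵥ x) ∘ e) := by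
  unfold tw
  rw [← Matrix.mulVec_mulVec, ← Matrix.mulVec_mulVec,
    Matrix.mulVec_mulVec _ (P⁻¹ : GL (Fin 9) F).1 P.1, ← Units.val_mul, inv_mul_cancel,
    Units.val_one, Matrix.one_mulVec]
  congr 1
  funext i
  simp only [Matrix.mulVec, dotProduct, Matrix.reindex_apply, Matrix.submatrix_apply,
    Function.comp, Equiv.symm_symm]
  exact Equiv.sum_comp e (fun y => s (e i) y * x y)

theorem ST9_polar (Q : (Fin 9 → F) → F) (g : Matrix (Fin 9) (Fin 9) F)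
    (hgQ : ∀ v, Q (g *ᵥ v) = Q v) (x y : Fin 9 → F) :
    QuadraticMap.polar Q (g *ᵥ x) (g *ᵥ y) = QuadraticMap.polar Q x y := by
  unfold QuadraticMap.polar
  rw [← Matrix.mulVec_add, hgQ, hgQ, hgQ]

theorem ST9_fv (f₁ : (Fin 3 → F) → (Fin 3 → F) → F) (hb : IsBilinearForm f₁)
    (A : GL (Fin 3) F) (k k' : F) (hk' : k' ≠ 0)
    (hiso : ∀ u₁ u₂, f₁ (A.1 *ᵥ u₁) (A.1 *ᵥ u₂) * k = f₁ u₁ u₂ * k') (u : Fin 3 → F)
    (hu : Cfsg.Agent.Lib.Helper98.IsFVOn (Cfsg.Agent.Lib.Helper98.bilOf f₁ hb) ⊤ u) :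
    Cfsg.Agent.Lib.Helper98.IsFVOn (Cfsg.Agent.Lib.Helper98.bilOf f₁ hb) ⊤ (A.1 *ᵥ u) := by
  refine ⟨Submodule.mem_top, ?_, ?_⟩
  · show f₁ (A.1 *ᵥ u) (A.1 *ᵥ u) ≠ 0
    intro h0
    have h4 := hiso u u
    rw [h0, zero_mul] at h4
    have h5 : f₁ u u ≠ 0 := hu.2.1
    exact mul_ne_zero h5 hk' h4.symm
  · intro w' _ hw' hw'0
    show f₁ w' w' ≠ 0
    have hw'0' : f₁ (A.1 *ᵥ u) w' = 0 := hw'0
    obtain ⟨u', hu'⟩ : ∃ u', A.1 *ᵥ u' = w' :=
      ⟨(A⁻¹).1 *ᵥ w', by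
        rw [Matrix.mulVec_mulVec, ← Units.val_mul, mul_inv_cancel, Units.val_one,
          Matrix.one_mulVec]⟩
    have hu'0 : u' ≠ 0 := by
      rintro rfl
      apply hw'
      rw [← hu', Matrix.mulVec_zero]
    rw [← hu'] at hw'0' ⊢
    have h4 := hiso u u'
    rw [hw'0', zero_mul] at h4
    have h5 : f₁ u u' = 0 := by
      rcases mul_eq_zero.mp h4.symm with h6 | h6
      · exact h6
      · exact absurd h6 hk'
    have h6 : f₁ u' u' ≠ 0 := hu.2.2 u' Submodule.mem_top hu'0 h5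
    intro h0
    have h7 := hiso u' u'
    rw [h0, zero_mul] at h7
    exact mul_ne_zero h6 hk' h7.symm

theorem ST9_frame (f₁ : (Fin 3 → F) → (Fin 3 → F) → F) (hf₁ : IsSymmetricForm f₁)
    (w : Fin 3 → Fin 3 → F) (ε : F) (hε : ε ≠ 0) (hnorm : ∀ j, f₁ (w j) (w j) = ε)
    (horth : ∀ j k, j ≠ k → f₁ (w j) (w k) = 0) :
    Cfsg.Agent.Lib.Helper98.IsFrameOn (Cfsg.Agent.Lib.Helper98.bilOf f₁ hf₁.bilinear) ⊤ ε w := by
  refine ⟨fun _ => Submodule.mem_top, hε, hnorm, horth, ?_⟩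
  intro x _ hx
  by_contra hx0
  obtain ⟨y, hy⟩ := (hf₁.nondegenerate x hx0).2
  apply hy
  have hli : LinearIndependent F w := by
    apply LinearMap.BilinForm.linearIndependent_of_iIsOrtho
      (B := Cfsg.Agent.Lib.Helper98.bilOf f₁ hf₁.bilinear)
    · intro j k hjk
      exact horth j k hjk
    · intro j h
      exact hε ((hnorm j).symm.trans h)
  have hspan : Submodule.span F (Set.range w) = ⊤ :=
    hli.span_eq_top_of_card_eq_finrank' (by simp)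
  have h0 : (Cfsg.Agent.Lib.Helper98.bilOf f₁ hf₁.bilinear) x = 0 := by
    apply LinearMap.ext_on hspan
    rintro _ ⟨j, rfl⟩
    exact hx j
  exact LinearMap.congr_fun h0 y

theorem ST9_span_pm (e : Fin 9 ≃ (Fin 2 → Fin 3)) (P : GL (Fin 9) F) (u v u' v' : Fin 3 → F)
    (hu : u = u' ∨ u = -u') (hv : v = v' ∨ v = -v') :
    Submodule.span F {P.1 *ᵥ (tvec u v ∘ e)} = Submodule.span F {P.1 *ᵥ (tvec u' v' ∘ e)} := by
  have hneg : ∀ x : Fin 9 → F, Submodule.span F {-x} = Submodule.span F {x} := by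
    intro x
    have h1 : -x = (-1 : F) • x := (neg_one_smul F x).symm
    rw [h1]
    exact Submodule.span_singleton_smul_eq (isUnit_one.neg) x
  have e1 : ∀ p q : Fin 3 → F, tvec (-p) q = -tvec p q := by
    intro p q
    funext a
    simp [tvec]
  have e2 : ∀ p q : Fin 3 → F, tvec p (-q) = -tvec p q := by
    intro p q
    funext a
    simp [tvec]
  have e3 : ∀ x : (Fin 2 → Fin 3) → F, P.1 *ᵥ ((-x) ∘ e) = -(P.1 *ᵥ (x ∘ e)) := by
    intro x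
    rw [← Matrix.mulVec_neg]
    rfl
  rcases hu with rfl | rfl <;> rcases hv with rfl | rfl
  · rfl
  · rw [e2, e3, hneg]
  · rw [e1, e3, hneg]
  · rw [e1, e2, neg_neg]

theorem ST9 (hq : Fintype.card F = 3) (h2 : (2 : F) ≠ 0) (Q : (Fin 9 → F) → F)
    (hQ : IsNondegenerateQuadraticForm Q)
    (e : Fin 9 ≃ (Fin 2 → Fin 3)) (P : GL (Fin 9) F)
    (f₁ : (Fin 3 → F) → (Fin 3 → F) → F) (hf₁ : IsSymmetricForm f₁)
    (ht : IsTensorPowerFormStructure id (QuadraticMap.polar Q) f₁ e P)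
    (w : Fin 3 → Fin 3 → F) (ε : F) (hε : ε ≠ 0) (hnorm : ∀ j, f₁ (w j) (w j) = ε)
    (horth : ∀ j k, j ≠ k → f₁ (w j) (w k) = 0)
    (hfr : ∀ x : Fin 3 → F, f₁ x x = ε → ∃ j, x = w j ∨ x = - w j)
    (htws : ∀ s : GL (Fin 2 → Fin 3) F, s ∈ tensorWreathStandard 3 2 F →
      ∃ a b : GL (Fin 3) F,
        (∀ x y : Fin 2 → Fin 3, s.1 x y = a.1 (x 0) (y 0) * b.1 (x 1) (y 1)) ∨
        (∀ x y : Fin 2 → Fin 3, s.1 x y = a.1 (x 0) (y 1) * b.1 (x 1) (y 0)))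
    (g : GL (Fin 9) F) (hg : g ∈ tensorWreathSubgroup 3 2 e P)
    (hgQ : ∀ v, Q (g.1 *ᵥ v) = Q v) :
    ∀ i, ∃ j, (frame9 e P w i).map (Matrix.toLin' g.1) = frame9 e P w j := by
  classical
  obtain ⟨c, hc0, hc⟩ := ht
  obtain ⟨s, hs, hgs⟩ := (mem_tensorWreathSubgroup_iff e P g).mp hg
  have hb := hf₁.bilinear
  have hpure : ∀ u v u' v' : Fin 3 → F,
      QuadraticMap.polar Q (P.1 *ᵥ (tvec u v ∘ e)) (P.1 *ᵥ (tvec u' v' ∘ e)) =
        c * (f₁ u u' * f₁ v v') := by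
    intro u v u' v'
    rw [hc, ST9_form_tvec f₁ hb]
  have hact : ∀ x : (Fin 2 → Fin 3) → F,
      g.1 *ᵥ (P.1 *ᵥ (x ∘ e)) = P.1 *ᵥ ((s.1 *ᵥ x) ∘ e) := by
    intro x
    rw [hgs, ST9_tw_mulVec]
  have hpol := ST9_polar Q g.1 hgQ
  have hF := ST9_frame f₁ hf₁ w ε hε hnorm horth
  have hB₁s : (Cfsg.Agent.Lib.Helper98.bilOf f₁ hb).IsSymm := ⟨fun x y => hf₁.symm x y⟩
  have hfv : ∀ j, Cfsg.Agent.Lib.Helper98.IsFVOn (Cfsg.Agent.Lib.Helper98.bilOf f₁ hb) ⊤ (w j) :=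
    fun j => hF.isFV hq hB₁s j
  have hkey : ∀ (A : GL (Fin 3) F) (k : F),
      (∀ u₁ u₂, f₁ (A.1 *ᵥ u₁) (A.1 *ᵥ u₂) * k = f₁ u₁ u₂ * ε) →
      ∀ j, ∃ j', A.1 *ᵥ w j = w j' ∨ A.1 *ᵥ w j = - w j' := by
    intro A k hiso j
    exact hF.eq_of_isFV hq (ST9_fv f₁ hb A k ε hε hiso (w j) (hfv j))
  obtain ⟨a, b, hab | hab⟩ := htws s hs
  · -- first form
    have hsim : ∀ u v u' v' : Fin 3 → F,
        f₁ (a.1 *ᵥ u) (a.1 *ᵥ u') * f₁ (b.1 *ᵥ v) (b.1 *ᵥ v') = f₁ u u' * f₁ v v' := by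
      intro u v u' v'
      have h1 := hpol (P.1 *ᵥ (tvec u v ∘ e)) (P.1 *ᵥ (tvec u' v' ∘ e))
      rw [hact, hact, ST9_mulVec_first s.1 a.1 b.1 hab, ST9_mulVec_first s.1 a.1 b.1 hab,
        hpure, hpure] at h1
      exact mul_left_cancel₀ hc0 h1
    have ha := hkey a (f₁ (b.1 *ᵥ w 0) (b.1 *ᵥ w 0)) (fun u₁ u₂ => by
      have h3 := hsim u₁ (w 0) u₂ (w 0)
      rw [hnorm] at h3
      exact h3)
    have hb' := hkey b (f₁ (a.1 *ᵥ w 0) (a.1 *ᵥ w 0)) (fun v₁ v₂ => by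
      have h3 := hsim (w 0) v₁ (w 0) v₂
      rw [hnorm] at h3
      rw [mul_comm, h3, mul_comm])
    intro i
    obtain ⟨j₁, h1⟩ := ha (idx9 i).1
    obtain ⟨j₂, h2⟩ := hb' (idx9 i).2
    refine ⟨idx9.symm (j₁, j₂), ?_⟩
    unfold frame9
    rw [Submodule.map_span, Set.image_singleton, Matrix.toLin'_apply, hact,
      ST9_mulVec_first s.1 a.1 b.1 hab, Equiv.apply_symm_apply]
    exact ST9_span_pm e P _ _ _ _ h1 h2
  · -- second form
    have hsim : ∀ u v u' v' : Fin 3 → F,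
        f₁ (a.1 *ᵥ v) (a.1 *ᵥ v') * f₁ (b.1 *ᵥ u) (b.1 *ᵥ u') = f₁ u u' * f₁ v v' := by
      intro u v u' v'
      have h1 := hpol (P.1 *ᵥ (tvec u v ∘ e)) (P.1 *ᵥ (tvec u' v' ∘ e))
      rw [hact, hact, ST9_mulVec_second s.1 a.1 b.1 hab, ST9_mulVec_second s.1 a.1 b.1 hab,
        hpure, hpure] at h1
      exact mul_left_cancel₀ hc0 h1
    have ha := hkey a (f₁ (b.1 *ᵥ w 0) (b.1 *ᵥ w 0)) (fun v₁ v₂ => by
      have h3 := hsim (w 0) v₁ (w 0) v₂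
      rw [hnorm] at h3
      rw [h3, mul_comm])
    have hb' := hkey b (f₁ (a.1 *ᵥ w 0) (a.1 *ᵥ w 0)) (fun u₁ u₂ => by
      have h3 := hsim u₁ (w 0) u₂ (w 0)
      rw [hnorm] at h3
      rw [mul_comm, h3])
    intro i
    obtain ⟨j₁, h1⟩ := ha (idx9 i).2
    obtain ⟨j₂, h2⟩ := hb' (idx9 i).1
    refine ⟨idx9.symm (j₁, j₂), ?_⟩
    unfold frame9
    rw [Submodule.map_span, Set.image_singleton, Matrix.toLin'_apply, hact,
      ST9_mulVec_second s.1 a.1 b.1 hab, Equiv.apply_symm_apply]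
    exact ST9_span_pm e P _ _ _ _ h1 h2

end Cfsg.Agent.Lib.Helper44.O9
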