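import Mathlib
import Cfsg.Agent.Lib.Helper52.OutDefs
import Cfsg.Agent.Lib.Helper52.OAMain
import Cfsg.Agent.Lib.Helper54.OrthDih
import Cfsg.Agent.Lib.Helper54.OrthMinus
import Cfsg.Agent.Lib.Helper58.OUU1
import Cfsg.Agent.Lib.Helper27.PslOutInst
import Cfsg.Prelude.Def_LieTypeDatum

/-!
# OU-M4 : commutators of induced automorphisms with `pgoAut` lie in `psoAut` (minus type)

If `β` is induced by a semisimilarity pair `(g, σ)` and `k` is induced by a similarity `h`, then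
`β k β⁻¹` is induced by the similarity `g σ(h) g⁻¹`, whose multiplier and determinant are the
`σ`-images of those of `h`. Hence `β k β⁻¹ k⁻¹` is induced by a similarity lying in the kernel of
the Klein-four-valued invariant, i.e. a scalar times a special isometry.
-/

set_option autoImplicit false

namespace Cfsg.Agent.Lib.Helper16.OUM4

open Module QuadraticMap
open Cfsg.Agent.Lib.Helper51 Cfsg.Agent.Lib.Helper52 Cfsg.Agent.Lib.Helper52.OA
open Cfsg.Agent.Lib.Helper52.OU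
open Cfsg.Agent.Lib.Helper54 Cfsg.Agent.Lib.Helper58.OUU1 Matrix

variable {ι : Type} [Fintype ι] [DecidableEq ι] {F : Type*} [Field F]

local notation "mt(" g ")" => ((g : Matrix.GeneralLinearGroup ι F) : Matrix ι ι F)

/-- Transport of `Ind` along equalities of the matrix and the field automorphism. -/
theorem ind_congr (Q : (ι → F) → F) {γ : MulAut (Cfsg.POmega F Q)} {G G' : GL ι F}
    {τ τ' : F ≃+* F} (h : Ind Q γ G τ) (hG : G = G') (hτ : τ = τ') : Ind Q γ G' τ' := by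
  subst hG
  subst hτ
  exact h

/-- An automorphism induced by a pair `(G, refl)` is `simAut` of the similarity `G`. -/
theorem sim_of_ind_refl (Q : (ι → F) → F) {γ : MulAut (Cfsg.POmega F Q)} {G : GL ι F}
    (h : Ind Q γ G (RingEquiv.refl F)) :
    ∃ hG : G ∈ Cfsg.Geo.quadSimilarityGroup (F := F) Q, γ = simAut Q ⟨G, hG⟩ := by
  obtain ⟨⟨c, hc⟩, hγ⟩ := h
  have hG : G ∈ Cfsg.Geo.quadSimilarityGroup (F := F) Q := ⟨c, fun v => hc v⟩
  exact ⟨hG, (induced_iff Q ⟨G, hG⟩ γ).mp hγ⟩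

/-- `simAut h` is induced by the pair `(h, refl)`. -/
theorem ind_of_sim (Q : (ι → F) → F) (h : ↥(Cfsg.Geo.quadSimilarityGroup (F := F) Q)) :
    Ind Q (simAut Q h) (h : GL ι F) (RingEquiv.refl F) := by
  refine ⟨?_, (induced_iff Q h _).mpr rfl⟩
  obtain ⟨c, hc⟩ := h.2
  exact ⟨c, fun x => hc x⟩

/-- The conjugate `g σ(h) g⁻¹` of a similarity with multiplier `c` is a similarity with
multiplier `σ c`. -/
theorem semi_conj_sim (Q : (ι → F) → F) (g : GL ι F) (σ : F ≃+* F)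
    (hg : Cfsg.IsSemisimilarityPair Q g σ) (h : GL ι F) (c : F)
    (hc : ∀ v, Q (mt(h) *ᵥ v) = c * Q v) (w : ι → F) :
    Q (mt(g * Matrix.GeneralLinearGroup.map (σ : F →+* F) h * g⁻¹) *ᵥ w) = σ c * Q w := by
  obtain ⟨d, hd⟩ := hg
  set v : ι → F := fun i => σ.symm ((mt(g⁻¹) *ᵥ w) i) with hv
  have hσv : (fun i => σ (v i)) = mt(g⁻¹) *ᵥ w := by
    funext i; simp [hv]
  have hw : mt(g) *ᵥ (fun i => σ (v i)) = w := by
    rw [hσv, Matrix.mulVec_mulVec, ← Units.val_mul, mul_inv_cancel, Units.val_one,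
      Matrix.one_mulVec]
  have e1 : mt(g * Matrix.GeneralLinearGroup.map (σ : F →+* F) h * g⁻¹) *ᵥ w
      = mt(g) *ᵥ (fun i => σ ((mt(h) *ᵥ v) i)) := by
    rw [Units.val_mul, Units.val_mul, ← Matrix.mulVec_mulVec, ← Matrix.mulVec_mulVec, ← hσv,
      coe_map_sigma, map_mulVec_sigma]
  have hQw : Q w = (d : F) * σ (Q v) := by
    have := hd v
    rwa [hw] at this
  rw [e1, hd, hc, map_mul, hQw]
  ring

theorem map_map_cancel (σ τ : F ≃+* F) (hστ : ∀ x, τ (σ x) = x) (g : GL ι F) :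
    Matrix.GeneralLinearGroup.map (τ : F →+* F) (Matrix.GeneralLinearGroup.map (σ : F →+* F) g)
      = g := by
  apply Units.ext
  rw [coe_map_sigma, coe_map_sigma, Matrix.map_map]
  ext i j
  simp [hστ]

section Generic

variable [Fintype F] (Q : QuadraticForm F (ι → F))

theorem comm_pso_generic (hF : ringChar F ≠ 2) (hQ : PolarSep Q) (hv : ∃ v, Q v ≠ 0) (n : ℕ)
    (hn : Fintype.card ι = 2 * n)
    (β : MulAut (Cfsg.POmega F ⇑Q)) (g : GL ι F) (σ : F ≃+* F) (hβ : Ind ⇑Q β g σ)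
    (k : MulAut (Cfsg.POmega F ⇑Q)) (hk : k ∈ Cfsg.pgoAut F ⇑Q) :
    β * k * β⁻¹ * k⁻¹ ∈ Cfsg.psoAut F ⇑Q := by
  rw [pgoAut_eq] at hk
  obtain ⟨h, rfl⟩ := hk
  have hsim : ∀ w : ι → F,
      Q (mt(g * Matrix.GeneralLinearGroup.map (σ : F →+* F) (h : GL ι F) * g⁻¹) *ᵥ w)
        = σ (simMul Q hv h : F) * Q w :=
    fun w => semi_conj_sim (⇑Q) g σ hβ.1 (h : GL ι F) (simMul Q hv h : F) (simMul_spec Q hv h) w
  have hh' : g * Matrix.GeneralLinearGroup.map (σ : F →+* F) (h : GL ι F) * g⁻¹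
      ∈ Cfsg.Geo.quadSimilarityGroup (F := F) ⇑Q :=
    ⟨Units.map (σ : F →* F) (simMul Q hv h), hsim⟩
  obtain ⟨h', hh'e⟩ : ∃ h' : ↥(Cfsg.Geo.quadSimilarityGroup (F := F) ⇑Q),
      (h' : GL ι F) = g * Matrix.GeneralLinearGroup.map (σ : F →+* F) (h : GL ι F) * g⁻¹ :=
    ⟨⟨_, hh'⟩, rfl⟩
  -- `β * simAut h * β⁻¹ = simAut h'`
  have e1 : β * simAut ⇑Q h * β⁻¹ = simAut ⇑Q h' := by
    have i1 := ind_mul ⇑Q (ind_mul ⇑Q hβ (ind_of_sim ⇑Q h)) (ind_inv ⇑Q hβ)
    have eσ : σ.symm.trans ((RingEquiv.refl F).trans σ) = RingEquiv.refl F := by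
      ext x; simp
    have i2 := ind_congr ⇑Q i1
      (congrArg (fun t => g * Matrix.GeneralLinearGroup.map (σ : F →+* F) (h : GL ι F) * t)
        (map_map_cancel σ.symm ((RingEquiv.refl F).trans σ) (by intro x; simp) g⁻¹)) eσ
    obtain ⟨hG, e⟩ := sim_of_ind_refl ⇑Q i2
    rw [e]
    congr 1
    exact Subtype.ext hh'e.symm
  have hmul : simMul Q hv h' = Units.map (σ : F →* F) (simMul Q hv h) := by
    apply Units.ext
    apply simMul_eq
    intro w
    rw [hh'e]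
    exact hsim w
  have hdet : Matrix.GeneralLinearGroup.det (h' : GL ι F)
      = Units.map (σ : F →* F) (Matrix.GeneralLinearGroup.det (h : GL ι F)) := by
    rw [hh'e, map_mul, map_mul, map_inv, mul_comm, ← mul_assoc, inv_mul_cancel, one_mul]
    apply Units.ext
    rw [Matrix.GeneralLinearGroup.val_det_apply, coe_map_sigma, Units.coe_map,
      Matrix.GeneralLinearGroup.val_det_apply]
    exact (RingHom.map_det (σ : F →+* F) _).symm
  have hchi : simMul Q hv h' ^ (Fintype.card F / 2) = simMul Q hv h ^ (Fintype.card F / 2) := by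
    rw [hmul, ← map_pow]
    rcases chi_cases hF (simMul Q hv h) with e | e
    · rw [e, map_one]
    · rw [e]; apply Units.ext; simp
  have hsgn : simSgn Q hv n h' = simSgn Q hv n h := by
    rw [simSgn_apply, simSgn_apply, hdet, hmul, ← map_pow, ← map_inv, ← map_mul, ← simSgn_apply]
    rcases simSgn_cases Q hQ hv n hn h with e | e
    · rw [e, map_one]
    · rw [e]; apply Units.ext; simp
  have hpsi : simPsi Q hF hQ hv n hn (h' * h⁻¹) = 1 := by
    rw [map_mul, map_inv, simPsi_apply, simPsi_apply, hchi, hsgn, mul_inv_cancel]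
  obtain ⟨z, s, ⟨cz, hz⟩, hs, hzs⟩ := simPsi_ker_decomp Q hF hQ hv n hn (h' * h⁻¹) hpsi
  have e2 : β * simAut ⇑Q h * β⁻¹ * (simAut ⇑Q h)⁻¹ = simAut ⇑Q s := by
    rw [e1, ← map_inv, ← map_mul, hzs, map_mul, simAut_of_scalar Q z cz hz, one_mul]
  rw [e2, psoAut_eq]
  exact Subgroup.mem_map_of_mem _ (Subgroup.mem_subgroupOf.mpr hs)

end Generic

theorem minus_comm_pso_aux [Fintype F] (hodd : Odd (Fintype.card F)) {m : ℕ} (a b : F)
    (hab : ∀ z₁ z₂ : F, z₁ ^ 2 + a * z₁ * z₂ + b * z₂ ^ 2 = 0 → z₁ = 0 ∧ z₂ = 0)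
    (Q' : ((Fin m ⊕ Fin m) ⊕ Fin 2 → F) → F) (hQ' : ⇑(QMinus m F a b) = Q')
    (β : MulAut (Cfsg.POmega F Q'))
    (g : GL ((Fin m ⊕ Fin m) ⊕ Fin 2) F) (σ : F ≃+* F)
    (hβ : Ind Q' β g σ)
    (k : MulAut (Cfsg.POmega F Q'))
    (hk : k ∈ Cfsg.pgoAut F Q') :
    β * k * β⁻¹ * k⁻¹ ∈ Cfsg.psoAut F Q' := by
  subst hQ'
  have hF := ringChar_ne_two_of_odd hodd
  have h2 : (2 : F) ≠ 0 := Ring.two_ne_zero hF
  exact comm_pso_generic (QMinus m F a b) hF (polarSep_minus (m := m) h2 a b hab)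
    (hv_minus (m := m) a b) (m + 1) card_minus β g σ hβ k hk

/-- **OU-M4**: for the minus-type form in odd characteristic, the commutator of an automorphism
induced by a semisimilarity pair with an element of `pgoAut` lies in `psoAut`. -/
theorem minus_comm_pso [Fintype F] (hodd : Odd (Fintype.card F)) {m : ℕ} (hm : 3 ≤ m) (a b : F)
    (hab : ∀ z₁ z₂ : F, z₁ ^ 2 + a * z₁ * z₂ + b * z₂ ^ 2 = 0 → z₁ = 0 ∧ z₂ = 0)
    (β : MulAut (Cfsg.POmega F (Cfsg.quadFormMinus m F a b)))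
    (g : GL ((Fin m ⊕ Fin m) ⊕ Fin 2) F) (σ : F ≃+* F)
    (hβ : Ind (Cfsg.quadFormMinus m F a b) β g σ)
    (k : MulAut (Cfsg.POmega F (Cfsg.quadFormMinus m F a b)))
    (hk : k ∈ Cfsg.pgoAut F (Cfsg.quadFormMinus m F a b)) :
    β * k * β⁻¹ * k⁻¹ ∈ Cfsg.psoAut F (Cfsg.quadFormMinus m F a b) :=
  minus_comm_pso_aux hodd a b hab _ (coe_QMinus m F a b) β g σ hβ k hk

end Cfsg.Agent.Lib.Helper16.OUM4
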