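import Mathlib
import Cfsg.Agent.Lib.Helper72.PQDefs
import Cfsg.Agent.Lib.Helper12.Ward2

/-!
# S4306 piece PQ-FM (helper16, for helper72): the Frobenius-module lemma `FMStmt`.
-/

set_option autoImplicit false

namespace Cfsg.Agent.Lib.Helper16.PQ

open Cfsg.Agent.Lib.Helper72.PQ Cfsg.Agent.Lib.Helper12.Ward
open Subgroup Finset

universe u

theorem fm : FMStmt.{u} := by
  intro Γ _ _ W B c m hm hcm hWab hBW hcW hcB hfpf hcop hfix b hb w0 hw0
  classical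
  letI : CommGroup ↥W := { (inferInstance : Group ↥W) with
    mul_comm := fun v w => Subtype.ext (hWab v v.2 w w.2) }
  letI : Fintype ↥B := Fintype.ofFinite _
  let ρ : ↥B → ↥W → ↥W := fun x w => ⟨x.1 * w.1 * x.1⁻¹, conj_mem_of_nz (hBW x.2) w.2⟩
  let T : ↥W → ↥W := fun w => ⟨c * w.1 * c⁻¹, conj_mem_of_nz hcW w.2⟩
  let σ : ↥B → ↥B := fun x => ⟨c * x.1 * c⁻¹, conj_mem_of_nz hcB x.2⟩
  have hTj : ∀ j (w : ↥W), ((T^[j] w : ↥W) : Γ) = c ^ j * w.1 * (c ^ j)⁻¹ := by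
    intro j
    induction j with
    | zero => intro w; simp
    | succ j ih =>
      intro w
      rw [Function.iterate_succ_apply']
      show c * ((T^[j] w : ↥W) : Γ) * c⁻¹ = _
      rw [ih, pow_succ']; group
  have hσj : ∀ j (x : ↥B), ((σ^[j] x : ↥B) : Γ) = c ^ j * x.1 * (c ^ j)⁻¹ := by
    intro j
    induction j with
    | zero => intro w; simp
    | succ j ih =>
      intro w
      rw [Function.iterate_succ_apply']
      show c * ((σ^[j] w : ↥B) : Γ) * c⁻¹ = _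
      rw [ih, pow_succ']; group
  have hcardK : Fintype.card ↥B = Nat.card B := (Nat.card_eq_fintype_card).symm
  have hinj : ∀ j, 0 < j → j < m → Function.Injective (fun x : ↥B => x * (σ^[j] x)⁻¹) := by
    intro j hj0 hjp x x' h
    have h' : x.1 * (c ^ j * x.1 * (c ^ j)⁻¹)⁻¹ = x'.1 * (c ^ j * x'.1 * (c ^ j)⁻¹)⁻¹ := by
      have := congrArg Subtype.val h
      rw [← hσj, ← hσj]
      exact this
    have h2 : c ^ j * (x'.1⁻¹ * x.1) = (x'.1⁻¹ * x.1) * c ^ j := by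
      have e : c ^ j * (x'.1⁻¹ * x.1)
          = x'.1⁻¹ * (x'.1 * (c ^ j * x'.1 * (c ^ j)⁻¹)⁻¹) * c ^ j * x.1 := by group
      rw [e, ← h']; group
    have h3 := hfpf j hj0 hjp _ (B.mul_mem (B.inv_mem x'.2) x.2) h2
    apply Subtype.ext
    exact (inv_mul_eq_one.mp h3).symm
  have hTm : ∀ w₁ w₂ : ↥W, T (w₁ * w₂) = T w₁ * T w₂ :=
    fun w₁ w₂ => Subtype.ext (show c * (w₁.1 * w₂.1) * c⁻¹
      = (c * w₁.1 * c⁻¹) * (c * w₂.1 * c⁻¹) by group)
  have hTp : ∀ w : ↥W, T^[m] w = w := fun w => Subtype.ext (by rw [hTj, hcm]; group)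
  have hN : ∀ u : ↥W, ∏ j ∈ range m, T^[j] u = 1 := by
    intro u
    let Th : ↥W →* ↥W := MonoidHom.mk' T hTm
    have hTh : ∀ v, Th v = T v := fun _ => rfl
    have h1 : T (∏ j ∈ range m, T^[j] u) = ∏ j ∈ range m, T^[j + 1] u := by
      rw [← hTh, map_prod]
      refine Finset.prod_congr rfl (fun j _ => ?_)
      rw [hTh, Function.iterate_succ_apply']
    have h2 : ∏ j ∈ range m, T^[j + 1] u = ∏ j ∈ range m, T^[j] u := by
      have e1 := Finset.prod_range_succ (fun j => T^[j] u) m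
      have e2 := Finset.prod_range_succ' (fun j => T^[j] u) m
      rw [e1] at e2
      simp only [Function.iterate_zero, id_eq] at e2
      rw [hTp u] at e2
      exact (mul_right_cancel e2).symm
    have h3 : T (∏ j ∈ range m, T^[j] u) = ∏ j ∈ range m, T^[j] u := h1.trans h2
    have h4 : c * ((∏ j ∈ range m, T^[j] u : ↥W) : Γ) * c⁻¹ =
        ((∏ j ∈ range m, T^[j] u : ↥W) : Γ) := congrArg Subtype.val h3
    have h5 := hfix _ (∏ j ∈ range m, T^[j] u : ↥W).2 (by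
      calc c * ((∏ j ∈ range m, T^[j] u : ↥W) : Γ)
          = c * ((∏ j ∈ range m, T^[j] u : ↥W) : Γ) * c⁻¹ * c := by group
        _ = ((∏ j ∈ range m, T^[j] u : ↥W) : Γ) * c := by rw [h4])
    exact Subtype.ext h5
  have main := frob_fix (W := ↥W) (K := ↥B) m hm ρ T σ
    (fun w => Subtype.ext (show (1 : Γ) * w.1 * (1 : Γ)⁻¹ = w.1 by group))
    (fun x z w => Subtype.ext (show (x.1 * z.1) * w.1 * (x.1 * z.1)⁻¹
      = x.1 * (z.1 * w.1 * z.1⁻¹) * x.1⁻¹ by group))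
    (fun x w₁ w₂ => Subtype.ext (show x.1 * (w₁.1 * w₂.1) * x.1⁻¹
      = (x.1 * w₁.1 * x.1⁻¹) * (x.1 * w₂.1 * x.1⁻¹) by group))
    (fun x w => Subtype.ext (show c * (x.1 * w.1 * x.1⁻¹) * c⁻¹
      = (c * x.1 * c⁻¹) * (c * w.1 * c⁻¹) * (c * x.1 * c⁻¹)⁻¹ by group))
    (fun x => Subtype.ext (show c * x.1⁻¹ * c⁻¹ = (c * x.1 * c⁻¹)⁻¹ by group))
    hinj
    (by rw [hcardK]; exact hcop)
    ⟨w0, hw0⟩ (fun x => hN _) ⟨b, hb⟩
  have h6 : b * w0 * b⁻¹ = w0 := congrArg Subtype.val main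
  calc b * w0 = b * w0 * b⁻¹ * b := by group
    _ = w0 * b := by rw [h6]

end Cfsg.Agent.Lib.Helper16.PQ
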