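import Cfsg.Agent.Lib.Helper22.PTDefs

/-!
# S4705 project (helper22, "PT"): piece ORB (the orbit lemma)
-/

set_option autoImplicit false

namespace Cfsg.Agent.Lib.Helper16.PT

open Cfsg Cfsg.Agent.Lib.Helper22.BFD Cfsg.Agent.Lib.Helper22.PT
open scoped ComplexConjugate

universe u

theorem orb_real (b : ℝ) (hb0 : 0 ≤ b) (hb1 : b ≤ 1) (k : ℕ) (hk : 2 ≤ k) (h : b ^ k = b) :
    b = 0 ∨ b = 1 := by
  rcases eq_or_lt_of_le hb0 with h0 | h0
  · left; exact h0.symm
  rcases eq_or_lt_of_le hb1 with h1 | h1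
  · right; exact h1
  exfalso
  have := pow_lt_self_of_lt_one₀ h0 h1 (by omega : 1 < k)
  linarith

section leaves

variable {G : Type u} [Group G] [Fintype G]

/-- PIECE ORB -/
theorem orb (ζ : G → ℂ) (s : ℕ) : Orb ζ s := by
  intro C hC g hs hsq hle
  have hn : 0 < orderOf g := orderOf_pos g
  have hm0 : 0 < Nat.totient (orderOf g) := Nat.totient_pos.mpr hn
  have hgm : g ^ (s ^ Nat.totient (orderOf g)) = g := by
    have h1 : s ^ Nat.totient (orderOf g) ≡ 1 [MOD orderOf g] := Nat.ModEq.pow_totient hs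
    have h2 := pow_eq_pow_iff_modEq.mpr h1
    simpa using h2
  have hb : ∀ j : ℕ, ‖ζ (g ^ (s ^ j))‖ / C = (‖ζ g‖ / C) ^ (2 ^ j) := by
    intro j
    induction j with
    | zero => simp
    | succ j ih =>
      have h1 := hsq j
      have h2 : ‖ζ (g ^ (s ^ j))‖ ^ 2 = C * ‖ζ (g ^ (s ^ (j + 1)))‖ := by
        have h3 := congrArg norm h1
        rw [norm_pow, norm_mul, Complex.norm_real, Real.norm_of_nonneg hC.le] at h3
        exact h3
      have h5 : (‖ζ g‖ / C) ^ 2 ^ (j + 1) = ((‖ζ g‖ / C) ^ 2 ^ j) ^ 2 := by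
        rw [← pow_mul, pow_succ]
      rw [h5, ← ih, div_pow, h2]
      field_simp
  have h3 := hb (Nat.totient (orderOf g))
  rw [hgm] at h3
  have hb0 : 0 ≤ ‖ζ g‖ / C := div_nonneg (norm_nonneg _) hC.le
  have hb1 : ‖ζ g‖ / C ≤ 1 := by
    rw [div_le_one hC]
    simpa using hle 0
  have h2m : 2 ≤ 2 ^ Nat.totient (orderOf g) := by
    calc 2 = 2 ^ 1 := by norm_num
      _ ≤ 2 ^ Nat.totient (orderOf g) := Nat.pow_le_pow_right (by norm_num) hm0
  rcases orb_real _ hb0 hb1 _ h2m h3.symm with h | h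
  · left
    have h4 : ‖ζ g‖ = 0 := by
      rcases div_eq_zero_iff.mp h with h | h
      · exact h
      · exact absurd h hC.ne'
    exact norm_eq_zero.mp h4
  · right
    rw [div_eq_one_iff_eq hC.ne'] at h
    exact h

end leaves

end Cfsg.Agent.Lib.Helper16.PT
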