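import Cfsg.Agent.Lib.Helper22.PTDefs

/-!
# S4705 project (helper22, "PT"): piece SYLNN (a non-normal Sylow `p`-subgroup)
-/

set_option autoImplicit false

namespace Cfsg.Agent.Lib.Helper16.PT

open Cfsg Cfsg.Agent.Lib.Helper22.BFD Cfsg.Agent.Lib.Helper22.PT
open scoped ComplexConjugate

universe u

section leaves

variable {G : Type u} [Group G] [Fintype G]

/-- PIECE SYLNN -/
theorem sylnn (p : ℕ) [Fact p.Prime] (z : G) (ζ : G → ℂ) (h : Hyp G p z ζ) :
    ∃ P : Sylow p G, ¬ (P : Subgroup G).Normal := by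
  have hp : p.Prime := Fact.out
  have hpg : IsPGroup p (Subgroup.zpowers z) := by
    apply IsPGroup.of_card (n := 1)
    rw [Nat.card_zpowers, h.ord, pow_one]
  obtain ⟨P, hP⟩ := hpg.exists_le_sylow
  refine ⟨P, ?_⟩
  have hcard : Nat.card (P : Subgroup G) = p := by
    obtain ⟨n, hn⟩ := IsPGroup.iff_card.mp P.isPGroup'
    have h1 : p ^ n ∣ Nat.card G := hn ▸ Subgroup.card_subgroup_dvd_card _
    have h2 : p ∣ Nat.card (P : Subgroup G) := by
      have h3 := Subgroup.card_dvd_of_le hP
      rw [Nat.card_zpowers, h.ord] at h3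
      exact h3
    have hn1 : n = 1 := by
      rcases Nat.lt_or_ge n 2 with h3 | h3
      · interval_cases n
        · rw [hn, pow_zero, Nat.dvd_one] at h2
          exact absurd h2 hp.one_lt.ne'
        · rfl
      · exact absurd ((pow_dvd_pow p h3).trans h1) h.sq
    rw [hn, hn1, pow_one]
  have heq : Subgroup.zpowers z = (P : Subgroup G) := by
    apply Subgroup.eq_of_le_of_card_ge hP
    rw [hcard, Nat.card_zpowers, h.ord]
  rw [← heq]
  exact h.nn

end leaves

end Cfsg.Agent.Lib.Helper16.PT
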