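import Cfsg.Agent.Lib.Helper96.PiDefs
import Cfsg.Agent.Lib.Helper96.PiGlueB
import Cfsg.Agent.Lib.Helper96.PiOmega
import Cfsg.Agent.Lib.Helper9.HeUNIPPOW

/-!
Project PI (S5989, helper96): piece FULLTYP (helper16).
-/

set_option autoImplicit false
set_option linter.unusedSectionVars false
set_option linter.unusedVariables false

namespace Cfsg.Agent.Lib.Helper16.Pi

open Module Cfsg.Agent.Lib.Helper96.Sp Cfsg.Agent.Lib.Helper96.BG Cfsg.Agent.Lib.Helper96.Hy
  Cfsg.Agent.Lib.Helper96.Pi Cfsg.Agent.Lib.Helper47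

universe u

section Abstract

variable {F : Type u} [Field F] [Fintype F] {V : Type u} [AddCommGroup V] [Module F V]
  [FiniteDimensional F V] {B : LinearMap.BilinForm F V}

-- PIECE FULLTYP
theorem typ_top_of_fpf (hN : ND B ⊤) (r : ℕ) [Fact r.Prime] (hR : RFacts B r)
    (hpos : 0 < finrank F V) (T : Module.End F V) (hT : Isom B T) (hTr : T ^ r = 1)
    (hker : LinearMap.ker (T - 1) = ⊥) :
    Typ B ⊤ (if Even (orderOf ((Fintype.card F : ℕ) : ZMod r))
      then (-1) ^ (finrank F V / blk (Fintype.card F) r) else 1) := by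
  have hrange : LinearMap.range (T - 1) = ⊤ :=
    LinearMap.range_eq_top.mpr
      (LinearMap.injective_iff_surjective.mp (LinearMap.ker_eq_bot.mp hker))
  have hle : (⊤ : Submodule F V) ≤ LinearMap.range (T - 1) := by rw [hrange]
  have hdvd : blk (Fintype.card F) r ∣ finrank F (⊤ : Submodule F V) :=
    hR.blk_dvd T hT hTr ⊤ hle le_top hN
  rw [finrank_top] at hdvd
  have hmul : blk (Fintype.card F) r * (finrank F V / blk (Fintype.card F) r) = finrank F V :=
    Nat.mul_div_cancel' hdvd
  have hb : 1 ≤ finrank F V / blk (Fintype.card F) r := by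
    rcases Nat.eq_zero_or_pos (finrank F V / blk (Fintype.card F) r) with h | h
    · rw [h, mul_zero] at hmul
      omega
    · exact h
  exact hR.typ_range T hT hTr ⊤ hle le_top hN _ hb (by rw [finrank_top]; exact hmul.symm)

end Abstract

end Cfsg.Agent.Lib.Helper16.Pi
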