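import Mathlib

set_option autoImplicit false

namespace Cfsg.Agent.Lib.Helper16.S0730Z5

/-- Piece Z5 of S0730: in the sharply 3-transitive setting, `S` has no regular normal subgroup. -/
theorem no_regular_normal {α : Type*} [Fintype α] [DecidableEq α] (G : Subgroup (Equiv.Perm α))
    (hF3 : ∀ g ∈ G, ∀ u v w : α, u ≠ v → u ≠ w → v ≠ w → g u = u → g v = v → g w = w → g = 1)
    (h6 : 6 ≤ Fintype.card α) (heven : Even (Fintype.card α))
    (S : Subgroup (Equiv.Perm α)) (hSG : S ≤ G) (hSn : ∀ g ∈ G, ∀ s ∈ S, g * s * g⁻¹ ∈ S)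
    (a b : α) (hab : a ≠ b)
    (N : Subgroup (Equiv.Perm α)) (hNS : N ≤ S) (hNa : ∀ n ∈ N, n a = a)
    (hNt : ∀ y y' : α, y ≠ a → y' ≠ a → ∃ n ∈ N, n y = y')
    (z : Equiv.Perm α) (hzG : z ∈ G) (hza : z a = a) (hzb : z b = b) (hz1 : z ≠ 1)
    (hz2 : z * z = 1)
    (R : Subgroup (Equiv.Perm α)) (hRS : R ≤ S) (hRn : ∀ s ∈ S, ∀ r ∈ R, s * r * s⁻¹ ∈ R)
    (hRt : ∀ y y' : α, ∃ r ∈ R, r y = y')
    (hRr : ∀ r ∈ R, ∀ y : α, r y = y → r = 1) : False := by
  classical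
  have REG : ∀ R' : Subgroup (Equiv.Perm α), (∀ r ∈ R', ∀ y : α, r y = y → r = 1) →
      ∀ r ∈ R', ∀ r' ∈ R', ∀ y : α, r y = r' y → r = r' := by
    intro R' hreg r hr r' hr' y h
    have h1 : (r'⁻¹ * r) y = y := by
      rw [Equiv.Perm.mul_apply, h, Equiv.Perm.inv_eq_iff_eq]
    have h2 := hreg _ (R'.mul_mem (R'.inv_mem hr') hr) y h1
    calc r = r' * (r'⁻¹ * r) := by group
      _ = r' := by rw [h2, mul_one]
  have CONJ : ∀ R' : Subgroup (Equiv.Perm α), (∀ s ∈ S, ∀ r ∈ R', s * r * s⁻¹ ∈ R') →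
      (∀ r ∈ R', ∀ y : α, r y = y → r = 1) →
      ∀ r ∈ R', ∀ r1 ∈ R', r ≠ 1 → r1 ≠ 1 → ∃ n ∈ N, n * r1 * n⁻¹ = r := by
    intro R' hnorm hreg r hr r1 hr1 hne hne1
    have h1 : r a ≠ a := fun h => hne (hreg r hr a h)
    have h2 : r1 a ≠ a := fun h => hne1 (hreg r1 hr1 a h)
    obtain ⟨n, hn, hn1⟩ := hNt (r1 a) (r a) h2 h1
    refine ⟨n, hn, ?_⟩
    apply REG R' hreg _ (hnorm n (hNS hn) r1 hr1) _ hr a
    have h3 : n⁻¹ a = a := by
      rw [Equiv.Perm.inv_eq_iff_eq]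
      exact (hNa n hn).symm
    rw [Equiv.Perm.mul_apply, Equiv.Perm.mul_apply, h3, hn1]
  -- (1) an involution in R
  have hcard : Nat.card R = Fintype.card α := by
    rw [← Nat.card_eq_fintype_card]
    apply Nat.card_congr
    exact Equiv.ofBijective (fun r : R => (r : Equiv.Perm α) a)
      ⟨fun r r' h => Subtype.ext (REG R hRr r r.2 r' r'.2 a h), fun y => by
        obtain ⟨r, hr, h⟩ := hRt a y
        exact ⟨⟨r, hr⟩, h⟩⟩
  obtain ⟨r0', hr0'⟩ := exists_prime_orderOf_dvd_card' (G := R) 2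
    (by rw [hcard]; exact even_iff_two_dvd.1 heven)
  have hr0R : (r0' : Equiv.Perm α) ∈ R := r0'.2
  have hr0ne : (r0' : Equiv.Perm α) ≠ 1 := by
    intro h
    have h' : r0' = 1 := Subtype.ext h
    rw [h', orderOf_one] at hr0'
    norm_num at hr0'
  have hr0sq : (r0' : Equiv.Perm α) * (r0' : Equiv.Perm α) = 1 := by
    have h := pow_orderOf_eq_one r0'
    rw [hr0', pow_two] at h
    exact congrArg Subtype.val h
  -- (2) exponent 2, commutative
  have hexp : ∀ r ∈ R, r * r = 1 := by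
    intro r hr
    by_cases h : r = 1
    · rw [h, mul_one]
    · obtain ⟨n, hn, hn1⟩ := CONJ R hRn hRr r hr _ hr0R h hr0ne
      rw [← hn1]
      calc n * (r0' : Equiv.Perm α) * n⁻¹ * (n * (r0' : Equiv.Perm α) * n⁻¹)
          = n * ((r0' : Equiv.Perm α) * (r0' : Equiv.Perm α)) * n⁻¹ := by group
        _ = 1 := by rw [hr0sq]; group
  have hinv : ∀ r ∈ R, r⁻¹ = r := fun r hr => inv_eq_of_mul_eq_one_left (hexp r hr)
  have hcomm : ∀ r ∈ R, ∀ r' ∈ R, r * r' = r' * r := by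
    intro r hr r' hr'
    have h := hinv (r * r') (R.mul_mem hr hr')
    rw [mul_inv_rev, hinv r hr, hinv r' hr'] at h
    exact h.symm
  -- (3) R is normalized by G
  have hGn : ∀ g ∈ G, ∀ r ∈ R, g * r * g⁻¹ ∈ R := by
    intro g hg
    have hmem : ∀ x, x ∈ R.map (MulAut.conj g).toMonoidHom ↔ ∃ r ∈ R, g * r * g⁻¹ = x := by
      intro x
      rw [Subgroup.mem_map]
      simp only [MulEquiv.coe_toMonoidHom, MulAut.conj_apply]
    have hR'S : R.map (MulAut.conj g).toMonoidHom ≤ S := by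
      intro x hx
      obtain ⟨r, hr, rfl⟩ := (hmem x).1 hx
      exact hSn g hg r (hRS hr)
    have hR'n : ∀ s ∈ S, ∀ x ∈ R.map (MulAut.conj g).toMonoidHom,
        s * x * s⁻¹ ∈ R.map (MulAut.conj g).toMonoidHom := by
      intro s hs x hx
      obtain ⟨r, hr, rfl⟩ := (hmem x).1 hx
      have h1 : g⁻¹ * s * g ∈ S := by
        have h := hSn g⁻¹ (G.inv_mem hg) s hs
        rwa [inv_inv] at h
      exact (hmem _).2 ⟨(g⁻¹ * s * g) * r * (g⁻¹ * s * g)⁻¹, hRn _ h1 r hr, by group⟩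
    have hR'r : ∀ x ∈ R.map (MulAut.conj g).toMonoidHom, ∀ y : α, x y = y → x = 1 := by
      intro x hx y hy
      obtain ⟨r, hr, rfl⟩ := (hmem x).1 hx
      have h1 : r (g⁻¹ y) = g⁻¹ y := by
        have h : g (r (g⁻¹ y)) = y := by simpa [Equiv.Perm.mul_apply] using hy
        rw [Equiv.Perm.eq_inv_iff_eq, h]
      rw [hRr r hr _ h1]
      group
    intro r hr
    have hx0 : g * (r0' : Equiv.Perm α) * g⁻¹ ∈ R.map (MulAut.conj g).toMonoidHom :=
      (hmem _).2 ⟨_, hr0R, rfl⟩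
    have hx0ne : g * (r0' : Equiv.Perm α) * g⁻¹ ≠ 1 := by
      intro h
      apply hr0ne
      calc (r0' : Equiv.Perm α) = g⁻¹ * (g * (r0' : Equiv.Perm α) * g⁻¹) * g := by group
        _ = 1 := by rw [h]; group
    by_cases hA : ∃ x ∈ R.map (MulAut.conj g).toMonoidHom, x ≠ 1 ∧ x ∈ R
    · obtain ⟨x, hxR', hx1, hxR⟩ := hA
      have hgr : g * r * g⁻¹ ∈ R.map (MulAut.conj g).toMonoidHom := (hmem _).2 ⟨r, hr, rfl⟩
      by_cases h1 : g * r * g⁻¹ = 1
      · rw [h1]; exact R.one_mem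
      · obtain ⟨n, hn, hn1⟩ := CONJ _ hR'n hR'r _ hgr x hxR' h1 hx1
        rw [← hn1]
        exact hRn n (hNS hn) x hxR
    · exfalso
      push Not at hA
      have hcx : ∀ r' ∈ R, r' * (g * (r0' : Equiv.Perm α) * g⁻¹)
          = (g * (r0' : Equiv.Perm α) * g⁻¹) * r' := by
        intro r' hr'
        have hxS : g * (r0' : Equiv.Perm α) * g⁻¹ ∈ S := hR'S hx0
        have c1 : r' * (g * (r0' : Equiv.Perm α) * g⁻¹) * r'⁻¹
            * (g * (r0' : Equiv.Perm α) * g⁻¹)⁻¹ ∈ R := by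
          have h1 : (g * (r0' : Equiv.Perm α) * g⁻¹) * r'⁻¹
              * (g * (r0' : Equiv.Perm α) * g⁻¹)⁻¹ ∈ R := hRn _ hxS r'⁻¹ (R.inv_mem hr')
          have h2 := R.mul_mem hr' h1
          have e : r' * (g * (r0' : Equiv.Perm α) * g⁻¹) * r'⁻¹
              * (g * (r0' : Equiv.Perm α) * g⁻¹)⁻¹
              = r' * ((g * (r0' : Equiv.Perm α) * g⁻¹) * r'⁻¹
                * (g * (r0' : Equiv.Perm α) * g⁻¹)⁻¹) := by group
          rw [e]; exact h2
        have c2 : r' * (g * (r0' : Equiv.Perm α) * g⁻¹) * r'⁻¹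
            * (g * (r0' : Equiv.Perm α) * g⁻¹)⁻¹ ∈ R.map (MulAut.conj g).toMonoidHom :=
          Subgroup.mul_mem _ (hR'n r' (hRS hr') _ hx0) (Subgroup.inv_mem _ hx0)
        have c3 : r' * (g * (r0' : Equiv.Perm α) * g⁻¹) * r'⁻¹
            * (g * (r0' : Equiv.Perm α) * g⁻¹)⁻¹ = 1 := by
          by_contra hne
          exact hA _ c2 hne c1
        calc r' * (g * (r0' : Equiv.Perm α) * g⁻¹)
            = (r' * (g * (r0' : Equiv.Perm α) * g⁻¹) * r'⁻¹
                * (g * (r0' : Equiv.Perm α) * g⁻¹)⁻¹) * ((g * (r0' : Equiv.Perm α) * g⁻¹) * r') := by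
              group
          _ = (g * (r0' : Equiv.Perm α) * g⁻¹) * r' := by rw [c3, one_mul]
      obtain ⟨r1, hr1R, hr1a⟩ := hRt a ((g * (r0' : Equiv.Perm α) * g⁻¹) a)
      have hy : r1⁻¹ * (g * (r0' : Equiv.Perm α) * g⁻¹) = 1 := by
        apply Equiv.ext
        intro t
        obtain ⟨r', hr', rfl⟩ := hRt a t
        have e1 : r1⁻¹ * (g * (r0' : Equiv.Perm α) * g⁻¹) * r'
            = r' * (r1⁻¹ * (g * (r0' : Equiv.Perm α) * g⁻¹)) := by
          calc r1⁻¹ * (g * (r0' : Equiv.Perm α) * g⁻¹) * r'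
              = r1⁻¹ * ((g * (r0' : Equiv.Perm α) * g⁻¹) * r') := by group
            _ = r1⁻¹ * (r' * (g * (r0' : Equiv.Perm α) * g⁻¹)) := by rw [hcx r' hr']
            _ = (r1⁻¹ * r') * (g * (r0' : Equiv.Perm α) * g⁻¹) := by group
            _ = (r' * r1⁻¹) * (g * (r0' : Equiv.Perm α) * g⁻¹) := by
                rw [hcomm r1⁻¹ (R.inv_mem hr1R) r' hr']
            _ = r' * (r1⁻¹ * (g * (r0' : Equiv.Perm α) * g⁻¹)) := by group
        have e2 : (r1⁻¹ * (g * (r0' : Equiv.Perm α) * g⁻¹)) a = a := by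
          rw [Equiv.Perm.mul_apply, ← hr1a, Equiv.Perm.inv_eq_iff_eq]
        calc (r1⁻¹ * (g * (r0' : Equiv.Perm α) * g⁻¹)) (r' a)
            = (r1⁻¹ * (g * (r0' : Equiv.Perm α) * g⁻¹) * r') a := rfl
          _ = (r' * (r1⁻¹ * (g * (r0' : Equiv.Perm α) * g⁻¹))) a := by rw [e1]
          _ = r' a := by rw [Equiv.Perm.mul_apply, e2]
      have hxr : g * (r0' : Equiv.Perm α) * g⁻¹ = r1 := by
        calc g * (r0' : Equiv.Perm α) * g⁻¹
            = r1 * (r1⁻¹ * (g * (r0' : Equiv.Perm α) * g⁻¹)) := by group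
          _ = r1 := by rw [hy, mul_one]
      exact hA _ hx0 hx0ne (hxr ▸ hr1R)
  -- (4)
  obtain ⟨rb, hrbR, hrba⟩ := hRt a b
  have hrb1 : rb ≠ 1 := by
    intro h
    rw [h] at hrba
    exact hab (by simpa using hrba)
  have h4a : ∀ r ∈ R, z * r * z⁻¹ = r → r = 1 ∨ r = rb := by
    intro r hr h
    have h1 : z (r a) = r a := by
      have h' : z * r = r * z := by
        calc z * r = (z * r * z⁻¹) * z := by group
          _ = r * z := by rw [h]
      have h2 := congrArg (fun f : Equiv.Perm α => f a) h'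
      simp only [Equiv.Perm.mul_apply] at h2
      rw [h2, hza]
    by_cases ha' : r a = a
    · left; exact hRr r hr a ha'
    · by_cases hb' : r a = b
      · right; exact REG R hRr r hr rb hrbR a (by rw [hb', hrba])
      · exfalso
        exact hz1 (hF3 z hzG a b (r a) hab (Ne.symm ha') (Ne.symm hb') hza hzb h1)
  have h4b : ∀ r ∈ R, r ≠ 1 → r ≠ rb → z * r * z⁻¹ = r * rb := by
    intro r hr hr1 hrrb
    have hzr : z * r * z⁻¹ ∈ R := hGn z hzG r hr
    have hw : z * (r * (z * r * z⁻¹)) * z⁻¹ = r * (z * r * z⁻¹) := by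
      have e : z * (r * (z * r * z⁻¹)) * z⁻¹ = (z * r * z⁻¹) * ((z * z) * r * (z * z)⁻¹) := by
        group
      rw [e, hz2]
      simp only [one_mul, inv_one, mul_one]
      exact hcomm _ hzr r hr
    rcases h4a _ (R.mul_mem hr hzr) hw with h | h
    · exfalso
      have h1 : z * r * z⁻¹ = r := by
        have h' : z * r * z⁻¹ = r⁻¹ := by
          calc z * r * z⁻¹ = r⁻¹ * (r * (z * r * z⁻¹)) := by group
            _ = r⁻¹ := by rw [h, mul_one]
        rw [h', hinv r hr]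
      rcases h4a r hr h1 with h2 | h2
      · exact hr1 h2
      · exact hrrb h2
    · calc z * r * z⁻¹ = r⁻¹ * (r * (z * r * z⁻¹)) := by group
        _ = r * rb := by rw [h, hinv r hr]
  -- (5)
  obtain ⟨c1, hc1⟩ : ∃ c1 : α, c1 ∉ ({a, b} : Finset α) := by
    by_contra hcon
    push Not at hcon
    have h0 : ({a, b} : Finset α) = Finset.univ := Finset.eq_univ_iff_forall.2 hcon
    have h1 : ({a, b} : Finset α).card ≤ 2 := Finset.card_le_two
    rw [h0, Finset.card_univ] at h1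
    omega
  obtain ⟨r1, hr1R, hr1a⟩ := hRt a c1
  obtain ⟨c2, hc2⟩ : ∃ c2 : α, c2 ∉ ({a, b, c1, (r1 * rb) a} : Finset α) := by
    by_contra hcon
    push Not at hcon
    have h0 : ({a, b, c1, (r1 * rb) a} : Finset α) = Finset.univ :=
      Finset.eq_univ_iff_forall.2 hcon
    have h1 : ({a, b, c1, (r1 * rb) a} : Finset α).card ≤ 4 := Finset.card_le_four
    rw [h0, Finset.card_univ] at h1
    omega
  obtain ⟨r2, hr2R, hr2a⟩ := hRt a c2
  simp only [Finset.mem_insert, Finset.mem_singleton, not_or] at hc1 hc2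
  have hr1_1 : r1 ≠ 1 := by
    intro h
    rw [h] at hr1a
    exact hc1.1 (by simpa using hr1a.symm)
  have hr1_b : r1 ≠ rb := by
    intro h
    rw [h, hrba] at hr1a
    exact hc1.2 hr1a.symm
  have hr2_1 : r2 ≠ 1 := by
    intro h
    rw [h] at hr2a
    exact hc2.1 (by simpa using hr2a.symm)
  have hr2_b : r2 ≠ rb := by
    intro h
    rw [h, hrba] at hr2a
    exact hc2.2.1 hr2a.symm
  have h12_1 : r1 * r2 ≠ 1 := by
    intro h
    have h' : r2 = r1 := by
      calc r2 = r1⁻¹ * (r1 * r2) := by group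
        _ = r1 := by rw [h, mul_one, hinv r1 hr1R]
    rw [h', hr1a] at hr2a
    exact hc2.2.2.1 hr2a.symm
  have h12_b : r1 * r2 ≠ rb := by
    intro h
    have h' : r2 = r1 * rb := by
      calc r2 = r1⁻¹ * (r1 * r2) := by group
        _ = r1 * rb := by rw [h, hinv r1 hr1R]
    rw [h'] at hr2a
    exact hc2.2.2.2 hr2a.symm
  have e1 := h4b (r1 * r2) (R.mul_mem hr1R hr2R) h12_1 h12_b
  have e2 : z * (r1 * r2) * z⁻¹ = (z * r1 * z⁻¹) * (z * r2 * z⁻¹) := by group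
  rw [e2, h4b r1 hr1R hr1_1 hr1_b, h4b r2 hr2R hr2_1 hr2_b] at e1
  have e3 : r1 * rb * (r2 * rb) = r1 * r2 := by
    calc r1 * rb * (r2 * rb) = r1 * (rb * r2) * rb := by group
      _ = r1 * (r2 * rb) * rb := by rw [hcomm rb hrbR r2 hr2R]
      _ = r1 * r2 * (rb * rb) := by group
      _ = r1 * r2 := by rw [hexp rb hrbR, mul_one]
  rw [e3] at e1
  apply hrb1
  have e4 : r1 * r2 * rb = r1 * r2 * 1 := by rw [mul_one]; exact e1.symm
  exact mul_left_cancel e4

end Cfsg.Agent.Lib.Helper16.S0730Z5
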