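import Mathlib

/-!
# S4501, piece A2 (helper16 for helper30): the arithmetic of the main equation
`3 (2^b p^j)^2 d (d+1) = 3 p^a 2^b w^2`.
-/

set_option autoImplicit false
set_option linter.unusedVariables false

namespace Cfsg.Agent.Lib.Helper30.S4501.A2

/-- A2 -/
theorem arith_main (p a b s d j w : ℕ) (hp : p.Prime) (hp5 : 5 ≤ p) (ha : a ≤ 2) (ha1 : 1 ≤ a)
    (hs : 2 ≤ s) (hsb : s ≤ b) (hd : (d = 2 ^ s ∧ d + 1 = p) ∨ (d = p ∧ d + 1 = 2 ^ s))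
    (hj : j ≤ a) (hw : 0 < w) (hw2 : w ≤ 2 * d)
    (heq : 3 * (2 ^ b * p ^ j) ^ 2 * (d * (d + 1)) = 3 * p ^ a * 2 ^ b * w ^ 2) :
    a = 1 ∧ j = 0 ∧ (b = s ∨ (b = s + 2 ∧ d = 2 ^ s ∧ w = 2 * d)) := by
  have hdd : d * (d + 1) = p * 2 ^ s := by
    rcases hd with ⟨h1, h2⟩ | ⟨h1, h2⟩
    · rw [h2, h1]; ring
    · rw [h2, h1]
  have hdle : d ≤ 2 ^ s := by
    rcases hd with ⟨h1, h2⟩ | ⟨h1, h2⟩ <;> omega
  have hmain : 2 ^ (b + s) * p ^ (2 * j + 1) = p ^ a * w ^ 2 := by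
    rw [hdd] at heq
    have h2b : 0 < 3 * 2 ^ b := by positivity
    apply Nat.eq_of_mul_eq_mul_left h2b
    calc 3 * 2 ^ b * (2 ^ (b + s) * p ^ (2 * j + 1))
        = 3 * (2 ^ b * p ^ j) ^ 2 * (p * 2 ^ s) := by ring
      _ = 3 * p ^ a * 2 ^ b * w ^ 2 := heq
      _ = 3 * 2 ^ b * (p ^ a * w ^ 2) := by ring
  have hfp : Fact p.Prime := ⟨hp⟩
  have hw0 : w ≠ 0 := by omega
  have hp2 : ¬ p ∣ 2 ^ (b + s) := by
    intro h
    have h1 := hp.dvd_of_dvd_pow h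
    have h2 := Nat.le_of_dvd (by norm_num) h1
    omega
  have hval : 2 * j + 1 = a + 2 * padicValNat p w := by
    have h1 := congrArg (padicValNat p) hmain
    rw [padicValNat.mul (pow_pos (by norm_num) _).ne' (pow_pos hp.pos _).ne',
      padicValNat.mul (pow_pos hp.pos _).ne' (pow_pos hw _).ne',
      padicValNat.prime_pow, padicValNat.prime_pow, padicValNat.pow w 2,
      padicValNat.eq_zero_of_not_dvd hp2] at h1
    omega
  have ha1' : a = 1 := by omega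
  subst ha1'
  -- `w ^ 2 = 2 ^ (b + s) * p ^ (2 * j)`
  have hw2' : w ^ 2 = 2 ^ (b + s) * p ^ (2 * j) := by
    apply Nat.eq_of_mul_eq_mul_left hp.pos
    calc p * w ^ 2 = p ^ 1 * w ^ 2 := by rw [pow_one]
      _ = 2 ^ (b + s) * p ^ (2 * j + 1) := hmain.symm
      _ = p * (2 ^ (b + s) * p ^ (2 * j)) := by ring
  have hwle : w ≤ 2 ^ (s + 1) := by
    calc w ≤ 2 * d := hw2
      _ ≤ 2 * 2 ^ s := Nat.mul_le_mul_left 2 hdle
      _ = 2 ^ (s + 1) := by ring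
  have hwsq : w ^ 2 ≤ 2 ^ (2 * s + 2) := by
    calc w ^ 2 ≤ (2 ^ (s + 1)) ^ 2 := Nat.pow_le_pow_left hwle 2
      _ = 2 ^ (2 * s + 2) := by ring
  have h2s : 2 ^ (2 * s) ≤ 2 ^ (b + s) := Nat.pow_le_pow_right (by norm_num) (by omega)
  -- `j = 0`
  have hj0 : j = 0 := by
    by_contra hj0
    have h1 : 5 ^ 2 ≤ 5 ^ (2 * j) := Nat.pow_le_pow_right (by norm_num) (by omega)
    have h2 : 5 ^ (2 * j) ≤ p ^ (2 * j) := Nat.pow_le_pow_left hp5 _
    have h3 : 25 ≤ p ^ (2 * j) := by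
      have : (5 : ℕ) ^ 2 = 25 := by norm_num
      omega
    have h4 : 2 ^ (2 * s) * 25 ≤ 2 ^ (b + s) * p ^ (2 * j) := Nat.mul_le_mul h2s h3
    have h5 : 2 ^ (2 * s + 2) = 2 ^ (2 * s) * 4 := by ring
    have h6 : 0 < 2 ^ (2 * s) := by positivity
    rw [hw2'] at hwsq
    omega
  subst hj0
  rw [Nat.mul_zero, pow_zero, mul_one] at hw2'
  refine ⟨rfl, rfl, ?_⟩
  have hb : b + s ≤ 2 * s + 2 := by
    rw [hw2'] at hwsq
    exact (Nat.pow_le_pow_iff_right (by norm_num)).1 hwsq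
  have hcases : b = s ∨ b = s + 1 ∨ b = s + 2 := by omega
  rcases hcases with h | h | h
  · exact Or.inl h
  · exfalso
    subst h
    have h1 := congrArg (padicValNat 2) hw2'
    rw [padicValNat.pow w 2, padicValNat.prime_pow] at h1
    omega
  · right
    subst h
    have h1 : w ^ 2 = (2 ^ (s + 1)) ^ 2 := by
      rw [hw2']; ring
    have h2 : w = 2 ^ (s + 1) := Nat.pow_left_injective (by norm_num : (2 : ℕ) ≠ 0) h1
    have h3 : 2 ^ (s + 1) = 2 * 2 ^ s := by ring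
    refine ⟨rfl, ?_, ?_⟩
    · omega
    · omega

end Cfsg.Agent.Lib.Helper30.S4501.A2
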