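import Mathlib
import Cfsg.Prelude.Def_GeometricClasses

/-!
# SLP piece C3 (helper16, for helper71): a field subalgebra of degree `r` of `M_n(F)` has `r ∣ n`.
-/

set_option autoImplicit false

namespace Cfsg.Agent.Lib.Helper16.SLPC3

open Matrix Cfsg.Geo

variable {n : ℕ} {F : Type*} [Field F] [Fintype F]

omit [Fintype F] in
theorem c3_isField (hn : 1 ≤ n) {r : ℕ} {K : Subalgebra F (Matrix (Fin n) (Fin n) F)}
    (hK : IsFieldSubalgebra r K) : IsField ↥K where
  exists_pair_ne := by
    have : Nonempty (Fin n) := ⟨⟨0, hn⟩⟩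
    exact ⟨0, 1, fun h => zero_ne_one (α := Matrix (Fin n) (Fin n) F) (congrArg Subtype.val h)⟩
  mul_comm a b := Subtype.ext (hK.comm a a.2 b b.2)
  mul_inv_cancel {a} ha := by
    obtain ⟨y, hy, hay⟩ := hK.inv a a.2 (fun h => ha (Subtype.ext h))
    exact ⟨⟨y, hy⟩, Subtype.ext hay⟩

/-- C3 -/
theorem C3 (hn : 1 ≤ n) (r : ℕ) (K : Subalgebra F (Matrix (Fin n) (Fin n) F))
    (hK : IsFieldSubalgebra r K) : r ∣ n := by
  letI : Field ↥K := (c3_isField hn hK).toField
  letI : Module ↥K (Fin n → F) :=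
    { smul := fun k v => (k : Matrix (Fin n) (Fin n) F) *ᵥ v
      one_smul := fun v => Matrix.one_mulVec v
      mul_smul := fun a b v => (Matrix.mulVec_mulVec v a.1 b.1).symm
      smul_zero := fun a => Matrix.mulVec_zero a.1
      smul_add := fun a v w => Matrix.mulVec_add a.1 v w
      add_smul := fun a b v => Matrix.add_mulVec a.1 b.1 v
      zero_smul := fun v => Matrix.zero_mulVec v }
  have : IsScalarTower F ↥K (Fin n → F) := ⟨fun c k v => Matrix.smul_mulVec c k.1 v⟩
  have h := Module.finrank_mul_finrank F ↥K (Fin n → F)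
  have h2 : Module.finrank F ↥K = r := hK.finrank_eq
  rw [h2, Module.finrank_fin_fun] at h
  exact Dvd.intro _ h

end Cfsg.Agent.Lib.Helper16.SLPC3
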