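import Mathlib
import Cfsg.Prelude.Def_GeometricClasses
import Cfsg.Agent.Lib.Helper98.SympM2

/-!
# S6002, piece SM-PAIRS (helper16 for helper98): two anticommuting pairs, commuting with each
other, which generate `R = 2^{1+4}_-` together with `-1`.
-/

set_option autoImplicit false

namespace Cfsg.Agent.Lib.Helper98.SM

open Matrix
open Cfsg.Agent.Lib.Helper98.Symp (comm_or_anti card_le_of_subset_finset w_comm)

theorem pairs_mem_cent {F : Type*} [Field F] (H : Subgroup (GL (Fin 2 ⊕ Fin 2) F))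
    (y b : GL (Fin 2 ⊕ Fin 2) F) :
    b ∈ (H ⊓ Subgroup.centralizer {y} : Subgroup (GL (Fin 2 ⊕ Fin 2) F)) ↔
      b ∈ H ∧ b * y = y * b := by
  rw [Subgroup.mem_inf, Subgroup.mem_centralizer_iff]
  constructor
  · rintro ⟨h1, h2⟩
    exact ⟨h1, (h2 y (Set.mem_singleton y)).symm⟩
  · rintro ⟨h1, h2⟩
    refine ⟨h1, fun h hh => ?_⟩
    rw [Set.mem_singleton_iff] at hh
    rw [hh]
    exact h2.symm

/-- `fixpair` without hypotheses on the squares -/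
theorem pairs_fixpair {G : Type*} [Monoid G] [HasDistribNeg G] (g h r : G)
    (hgh : g * h = -(h * g))
    (hrg : r * g = g * r ∨ r * g = -(g * r)) (hrh : r * h = h * r ∨ r * h = -(h * r)) :
    ∃ w : G, (w = 1 ∨ w = g ∨ w = h ∨ w = h * g) ∧ (w * r) * g = g * (w * r) ∧
      (w * r) * h = h * (w * r) := by
  have hhg : h * g = -(g * h) := by rw [hgh, neg_neg]
  rcases hrg with a | a <;> rcases hrh with b | b
  · exact ⟨1, Or.inl rfl, by rw [one_mul]; exact a, by rw [one_mul]; exact b⟩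
  · refine ⟨g, Or.inr (Or.inl rfl), ?_, ?_⟩
    · rw [mul_assoc, a]
    · rw [mul_assoc, b, mul_neg, ← mul_assoc, hgh, neg_mul, neg_neg, mul_assoc]
  · refine ⟨h, Or.inr (Or.inr (Or.inl rfl)), ?_, ?_⟩
    · rw [mul_assoc, a, mul_neg, ← mul_assoc, hhg, neg_mul, neg_neg, mul_assoc]
    · rw [mul_assoc, b]
  · refine ⟨h * g, Or.inr (Or.inr (Or.inr rfl)), ?_, ?_⟩
    · calc (h * g * r) * g = h * g * (r * g) := by rw [mul_assoc]
        _ = -(h * g * (g * r)) := by rw [a, mul_neg]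
        _ = g * h * (g * r) := by rw [hgh, neg_mul]
        _ = g * (h * g * r) := by simp only [mul_assoc]
    · calc (h * g * r) * h = h * g * (r * h) := by rw [mul_assoc]
        _ = -(h * g * (h * r)) := by rw [b, mul_neg]
        _ = -(h * (g * h) * r) := by simp only [mul_assoc]
        _ = h * (h * g) * r := by rw [hgh, mul_neg, neg_mul, neg_neg]
        _ = h * (h * g * r) := by simp only [mul_assoc]

theorem exists_pairs {F : Type*} [Field F] {R : Subgroup (GL (Fin 2 ⊕ Fin 2) F)} (hG : GoodM R) :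
    ∃ g₁ h₁ g₂ h₂ : GL (Fin 2 ⊕ Fin 2) F, g₁ ∈ R ∧ h₁ ∈ R ∧ g₂ ∈ R ∧ h₂ ∈ R ∧
      g₁ * h₁ = -(h₁ * g₁) ∧ g₂ * h₂ = -(h₂ * g₂) ∧
      g₂ * g₁ = g₁ * g₂ ∧ g₂ * h₁ = h₁ * g₂ ∧ h₂ * g₁ = g₁ * h₂ ∧ h₂ * h₁ = h₁ * h₂ ∧
      ∀ K : Subgroup (GL (Fin 2 ⊕ Fin 2) F), g₁ ∈ K → h₁ ∈ K → g₂ ∈ K → h₂ ∈ K →
        (-1 : GL (Fin 2 ⊕ Fin 2) F) ∈ K → R ≤ K := by
  classical
  have hRfin : Finite R := hG.fin
  obtain ⟨g₁, hg₁, h₁, hh₁, hne₁⟩ := hG.exists_noncomm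
  have ha₁ : g₁ * h₁ = -(h₁ * g₁) := (comm_or_anti R hG.hsq g₁ h₁ hg₁ hh₁).resolve_left hne₁
  -- the centraliser `C1` of the first pair
  obtain ⟨C1, hC1⟩ : ∃ C1 : Subgroup (GL (Fin 2 ⊕ Fin 2) F),
      C1 = (R ⊓ Subgroup.centralizer {g₁}) ⊓ Subgroup.centralizer {h₁} := ⟨_, rfl⟩
  have hC1mem : ∀ x, x ∈ C1 ↔ x ∈ R ∧ x * g₁ = g₁ * x ∧ x * h₁ = h₁ * x := by
    intro x
    rw [hC1, pairs_mem_cent, pairs_mem_cent, and_assoc]
  have hC1R : C1 ≤ R := fun x hx => ((hC1mem x).1 hx).1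
  have h16 := hG.card_cent_noncentral g₁ h₁ hg₁ hh₁ (fun h => hne₁ h.symm)
  have h8 : Nat.card C1 = 8 := by
    have h := hG.half (R ⊓ Subgroup.centralizer {g₁}) inf_le_left h₁ g₁ hh₁
      ((pairs_mem_cent R g₁ g₁).2 ⟨hg₁, rfl⟩) ha₁
    rw [h16, ← hC1] at h
    omega
  -- every element of `R` is moved into `C1` by one of `1, g₁, h₁, h₁ g₁`
  have hred : ∀ ρ ∈ R, ∃ w : GL (Fin 2 ⊕ Fin 2) F,
      (w = 1 ∨ w = g₁ ∨ w = h₁ ∨ w = h₁ * g₁) ∧ w * ρ ∈ C1 := by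
    intro ρ hρ
    obtain ⟨w, hw, hw1, hw2⟩ := pairs_fixpair g₁ h₁ ρ ha₁
      (comm_or_anti R hG.hsq ρ g₁ hρ hg₁) (comm_or_anti R hG.hsq ρ h₁ hρ hh₁)
    refine ⟨w, hw, (hC1mem _).2 ⟨R.mul_mem ?_ hρ, hw1, hw2⟩⟩
    rcases hw with rfl | rfl | rfl | rfl
    · exact R.one_mem
    · exact hg₁
    · exact hh₁
    · exact R.mul_mem hh₁ hg₁
  -- `C1` is not abelian
  have hnab : ∃ g₂ ∈ C1, ∃ h₂ ∈ C1, g₂ * h₂ ≠ h₂ * g₂ := by
    by_contra hcon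
    push Not at hcon
    have hsub : ∀ c ∈ (C1 : Set (GL (Fin 2 ⊕ Fin 2) F)),
        c ∈ ({1, -1} : Finset (GL (Fin 2 ⊕ Fin 2) F)) := by
      intro c hc
      have hc' := (hC1mem c).1 hc
      have hcen : ∀ s ∈ R, c * s = s * c := by
        intro ρ hρ
        obtain ⟨w, hw, hwρ⟩ := hred ρ hρ
        have e1 : c * w = w * c := w_comm g₁ h₁ w c hw hc'.2.1 hc'.2.2
        have e2 : c * (w * ρ) = (w * ρ) * c := hcon c hc (w * ρ) hwρ
        have e3 : w * (c * ρ) = w * (ρ * c) := by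
          rw [← mul_assoc, ← e1, mul_assoc, e2, mul_assoc]
        exact mul_left_cancel e3
      have h1 := hG.hcen c hc'.1 hcen
      simp only [Finset.mem_insert, Finset.mem_singleton]
      exact h1
    have h1 := card_le_of_subset_finset (C1 : Set (GL (Fin 2 ⊕ Fin 2) F)) _ hsub
    have h2 : ({1, -1} : Finset (GL (Fin 2 ⊕ Fin 2) F)).card ≤ 2 := Finset.card_le_two
    have h3 : Nat.card (C1 : Set (GL (Fin 2 ⊕ Fin 2) F)) = 8 := h8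
    omega
  obtain ⟨g₂, hg₂, h₂, hh₂, hne₂⟩ := hnab
  have hg₂' := (hC1mem g₂).1 hg₂
  have hh₂' := (hC1mem h₂).1 hh₂
  have ha₂ : g₂ * h₂ = -(h₂ * g₂) :=
    (comm_or_anti R hG.hsq g₂ h₂ hg₂'.1 hh₂'.1).resolve_left hne₂
  -- the centraliser `S` of the second pair in `C1`
  obtain ⟨S, hS⟩ : ∃ S : Subgroup (GL (Fin 2 ⊕ Fin 2) F),
      S = (C1 ⊓ Subgroup.centralizer {g₂}) ⊓ Subgroup.centralizer {h₂} := ⟨_, rfl⟩
  have hSmem : ∀ x, x ∈ S ↔ x ∈ C1 ∧ x * g₂ = g₂ * x ∧ x * h₂ = h₂ * x := by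
    intro x
    rw [hS, pairs_mem_cent, pairs_mem_cent, and_assoc]
  have h2S : Nat.card S = 2 := by
    have ha := hG.half C1 hC1R g₂ h₂ hg₂'.1 hh₂ (anti_symm ha₂)
    have hb := hG.half (C1 ⊓ Subgroup.centralizer {g₂}) (inf_le_left.trans hC1R) h₂ g₂ hh₂'.1
      ((pairs_mem_cent C1 g₂ g₂).2 ⟨hg₂, rfl⟩) ha₂
    rw [← hS] at hb
    omega
  have hnegS : (-1 : GL (Fin 2 ⊕ Fin 2) F) ∈ S :=
    (hSmem _).2 ⟨(hC1mem _).2 ⟨hG.hneg, GoodM.neg_comm g₁, GoodM.neg_comm h₁⟩,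
      GoodM.neg_comm g₂, GoodM.neg_comm h₂⟩
  have hSpm : ∀ x ∈ S, x = 1 ∨ x = -1 := by
    intro x hx
    by_contra hcon
    push Not at hcon
    have hSfin : (S : Set (GL (Fin 2 ⊕ Fin 2) F)).Finite :=
      Set.Finite.subset (Set.toFinite (R : Set (GL (Fin 2 ⊕ Fin 2) F)))
        (fun y hy => hC1R ((hSmem y).1 hy).1)
    have hmem : ∀ y ∈ ({1, -1, x} : Finset (GL (Fin 2 ⊕ Fin 2) F)),
        y ∈ (S : Set (GL (Fin 2 ⊕ Fin 2) F)) := by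
      intro y hy
      simp only [Finset.mem_insert, Finset.mem_singleton] at hy
      rcases hy with rfl | rfl | rfl
      · exact Subgroup.one_mem _
      · exact hnegS
      · exact hx
    have h3 : ({1, -1, x} : Finset (GL (Fin 2 ⊕ Fin 2) F)).card = 3 :=
      Finset.card_eq_three.mpr ⟨1, -1, x, fun h => hG.neg_one_ne h.symm,
        fun h => hcon.1 h.symm, fun h => hcon.2 h.symm, rfl⟩
    have hge := card_ge_of_finset_subset _ hSfin _ hmem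
    rw [h3] at hge
    have hd' : Nat.card (S : Set (GL (Fin 2 ⊕ Fin 2) F)) = 2 := h2S
    omega
  refine ⟨g₁, h₁, g₂, h₂, hg₁, hh₁, hg₂'.1, hh₂'.1, ha₁, ha₂, hg₂'.2.1, hg₂'.2.2, hh₂'.2.1,
    hh₂'.2.2, ?_⟩
  intro K hKg₁ hKh₁ hKg₂ hKh₂ hKneg ρ hρ
  obtain ⟨w, hw, hwρ⟩ := hred ρ hρ
  have hwρ' := (hC1mem _).1 hwρ
  obtain ⟨w', hw', hw1', hw2'⟩ := pairs_fixpair g₂ h₂ (w * ρ) ha₂
    (comm_or_anti R hG.hsq (w * ρ) g₂ hwρ'.1 hg₂'.1)
    (comm_or_anti R hG.hsq (w * ρ) h₂ hwρ'.1 hh₂'.1)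
  have hw'C : w' ∈ C1 := by
    rcases hw' with rfl | rfl | rfl | rfl
    · exact C1.one_mem
    · exact hg₂
    · exact hh₂
    · exact C1.mul_mem hh₂ hg₂
  have hS2 : w' * (w * ρ) ∈ S := (hSmem _).2 ⟨C1.mul_mem hw'C hwρ, hw1', hw2'⟩
  have hwK : w ∈ K := by
    rcases hw with rfl | rfl | rfl | rfl
    · exact K.one_mem
    · exact hKg₁
    · exact hKh₁
    · exact K.mul_mem hKh₁ hKg₁
  have hw'K : w' ∈ K := by
    rcases hw' with rfl | rfl | rfl | rfl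
    · exact K.one_mem
    · exact hKg₂
    · exact hKh₂
    · exact K.mul_mem hKh₂ hKg₂
  have hK2 : w' * (w * ρ) ∈ K := by
    rcases hSpm _ hS2 with h | h
    · rw [h]; exact K.one_mem
    · rw [h]; exact hKneg
  have e : ρ = w⁻¹ * (w'⁻¹ * (w' * (w * ρ))) := by group
  rw [e]
  exact K.mul_mem (K.inv_mem hwK) (K.mul_mem (K.inv_mem hw'K) hK2)

end Cfsg.Agent.Lib.Helper98.SM
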