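import Mathlib
import Cfsg.Agent.Lib.Helper52.SP8EBDefs

/-! SP8-EB (sub-project of S5823, architect helper52): piece PERMG (proof by helper16).
Transported factor permutations lie in `G`. -/

set_option autoImplicit false
set_option linter.unusedSectionVars false
set_option linter.unusedVariables false

namespace Cfsg.Agent.Lib.Helper52.SP8EB

open Matrix Cfsg.Geo Cfsg.Agent.Lib.Helper71.Asch

variable {n : ℕ} {F : Type*} [Field F] [Fintype F]

theorem permg_permM_mul (σ τ : Equiv.Perm (Fin 3)) :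
    (permM σ : Matrix (Fin 3 → Fin 2) (Fin 3 → Fin 2) F) * permM τ = permM (σ * τ) := by
  ext x z
  simp only [permM, Matrix.mul_apply, Matrix.of_apply]
  rw [Finset.sum_eq_single (x ∘ σ)]
  · rw [if_pos rfl, one_mul]
    rfl
  · intro y _ hy
    rw [if_neg hy, zero_mul]
  · intro h
    exact absurd (Finset.mem_univ _) h

theorem permg_permM_one : (permM 1 : Matrix (Fin 3 → Fin 2) (Fin 3 → Fin 2) F) = 1 := by
  ext x y
  simp [permM, Matrix.one_apply, eq_comm]

theorem permg_mulVec (σ : Equiv.Perm (Fin 3)) (x : (Fin 3 → Fin 2) → F) :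
    (permM σ : Matrix (Fin 3 → Fin 2) (Fin 3 → Fin 2) F) *ᵥ x = fun a => x (a ∘ σ) := by
  funext a
  simp [permM, Matrix.mulVec, dotProduct]

theorem permg_tw_mulVec (e : Fin n ≃ (Fin 3 → Fin 2)) (P : GL (Fin n) F)
    (A : Matrix (Fin 3 → Fin 2) (Fin 3 → Fin 2) F) (x : (Fin 3 → Fin 2) → F) :
    tw e P A *ᵥ (P.1 *ᵥ (x ∘ e)) = P.1 *ᵥ ((A *ᵥ x) ∘ e) := by
  have h1 : (P⁻¹ : GL (Fin n) F).1 *ᵥ (P.1 *ᵥ (x ∘ e)) = x ∘ e := by
    rw [Matrix.mulVec_mulVec, ← Units.val_mul, inv_mul_cancel, Units.val_one, Matrix.one_mulVec]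
  have h2 : Matrix.reindex e.symm e.symm A *ᵥ (x ∘ e) = (A *ᵥ x) ∘ e := by
    funext i
    simp only [Matrix.mulVec, dotProduct, Matrix.reindex_apply, Matrix.submatrix_apply,
      Equiv.symm_symm, Function.comp_apply]
    exact Equiv.sum_comp e (fun b => A (e i) b * x b)
  unfold tw
  rw [← Matrix.mulVec_mulVec, ← Matrix.mulVec_mulVec, h1, h2]

theorem permg_exists (e : Fin n ≃ (Fin 3 → Fin 2)) (P : GL (Fin n) F) (u : Fin n → F) :
    ∃ x : (Fin 3 → Fin 2) → F, u = P.1 *ᵥ (x ∘ e) := by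
  refine ⟨((P⁻¹ : GL (Fin n) F).1 *ᵥ u) ∘ e.symm, ?_⟩
  have h : (((P⁻¹ : GL (Fin n) F).1 *ᵥ u) ∘ e.symm) ∘ e = (P⁻¹ : GL (Fin n) F).1 *ᵥ u := by
    funext i
    simp
  rw [h, Matrix.mulVec_mulVec, ← Units.val_mul, mul_inv_cancel, Units.val_one, Matrix.one_mulVec]

/-- PERMG. -/
theorem PERMG (f : (Fin n → F) → (Fin n → F) → F) (e : Fin n ≃ (Fin 3 → Fin 2)) (P : GL (Fin n) F)
    (f₁ : (Fin 2 → F) → (Fin 2 → F) → F)
    (htp : IsTensorPowerFormStructure id f f₁ e P) : HPermG f e P := by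
  intro σ g hg
  refine Subgroup.mem_inf.mpr ⟨?_, ?_⟩
  · rw [mem_tensorWreathSubgroup_iff]
    have h1 : (permM σ : Matrix (Fin 3 → Fin 2) (Fin 3 → Fin 2) F) * permM σ.symm = 1 := by
      rw [permg_permM_mul, ← permg_permM_one]
      congr 1
      ext i
      simp
    have h2 : (permM σ.symm : Matrix (Fin 3 → Fin 2) (Fin 3 → Fin 2) F) * permM σ = 1 := by
      rw [permg_permM_mul, ← permg_permM_one]
      congr 1
      ext i
      simp
    refine ⟨⟨permM σ, permM σ.symm, h1, h2⟩, ?_, hg⟩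
    apply Subgroup.subset_closure
    right
    exact ⟨σ, fun x y => rfl⟩
  · intro u v
    obtain ⟨c, hc, hform⟩ := htp
    obtain ⟨x, hx⟩ := permg_exists e P u
    obtain ⟨y, hy⟩ := permg_exists e P v
    rw [hx, hy, hg, permg_tw_mulVec, permg_tw_mulVec, hform, hform, permg_mulVec, permg_mulVec]
    congr 1
    let E : (Fin 3 → Fin 2) ≃ (Fin 3 → Fin 2) :=
      ⟨fun a => a ∘ σ, fun a => a ∘ σ.symm, fun a => by funext i; simp,
        fun a => by funext i; simp⟩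
    rw [← Equiv.sum_comp E (fun a => ∑ b, x a * (∏ i, gramMatrix f₁ (a i) (b i)) * id (y b))]
    apply Finset.sum_congr rfl
    intro a _
    rw [← Equiv.sum_comp E (fun b => x (E a) * (∏ i, gramMatrix f₁ ((E a) i) (b i)) * id (y b))]
    apply Finset.sum_congr rfl
    intro b _
    have h3 : ∏ i, gramMatrix f₁ ((E a) i) ((E b) i) = ∏ i, gramMatrix f₁ (a i) (b i) :=
      Equiv.prod_comp σ (fun i => gramMatrix f₁ (a i) (b i))
    rw [h3]
    rfl

end Cfsg.Agent.Lib.Helper52.SP8EB
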