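import Mathlib
import Cfsg.Prelude.Def_GeometricClasses
import Cfsg.Agent.Lib.Helper71.SpK1

/-!
# S5664, job J6 (helper16 for helper71): case (ii), the configuration `Cfg2`

If `hW ⊆ W^⊥` for the `L`-line `W` through `u`, `h` has the maximality property `MaxP` and
`W ∩ hW ≠ 0`, then `W ∩ hW` is a hyperplane of `W`.
-/

set_option autoImplicit false

namespace Cfsg.Agent.Lib.Helper16.SpKJ6

open Matrix Cfsg.Agent.Lib.Helper71.SpK Cfsg.Agent.Lib.Helper97

variable {ι : Type} [Fintype ι] [DecidableEq ι] {F : Type*} [Field F]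
variable {f : (ι → F) → (ι → F) → F} {L : Type*} [Field L] [Algebra F L]

theorem case2_cfg (S : KS f L) (hf : Cfsg.Geo.IsSymplecticForm f) [FiniteDimensional F L]
    (hr : (Module.finrank F L).Prime)
    (M : Subgroup (GL ι F)) (hNM : S.NG ≤ M) {u : ι → F} (hu : u ≠ 0) {h : GL ι F}
    (hhM : h ∈ M) (hne : gim (S.line u) h ≠ S.line u)
    (hD : S.line u ⊓ gim (S.line u) h ≠ ⊥) (hmax : MaxP M (S.line u) h)
    (hperp : ∀ y ∈ gim (S.line u) h, S.B y u = 0) : S.Cfg2 M u h := by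
  classical
  refine ⟨hhM, hu, hperp, ?_⟩
  have hfr : Module.finrank F ↥(gim (S.line u) h) = Module.finrank F ↥(S.line u) :=
    finrank_gim _ _
  have hWB : ¬ S.line u ≤ gim (S.line u) h := fun hle =>
    hne (Submodule.eq_of_le_of_finrank_eq hle hfr.symm).symm
  have hBW : ¬ gim (S.line u) h ≤ S.line u := fun hle =>
    hne (Submodule.eq_of_le_of_finrank_eq hle hfr)
  obtain ⟨y₀, hy₀B, hy₀W⟩ := SetLike.not_le_iff_exists.mp hBW
  -- the Eichler elements, evaluated on `u^⊥`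
  have eich : ∀ z : ι → F, S.B u z = 0 → ∀ l : L, ∃ x ∈ M,
      (∀ v : ι → F, S.B v u = 0 →
        (x : Matrix ι ι F) *ᵥ v = v + S.φ (l * S.B v z) *ᵥ u) := by
    intro z hz l
    obtain ⟨g, hg, hgx⟩ := S.exists_eich (u := u) (z := S.φ l *ᵥ z)
      (by rw [S.B_act_right, hz, mul_zero])
    refine ⟨g, hNM hg, fun v hv => ?_⟩
    rw [hgx, hv, S.φ_zero_mulVec, add_zero, S.B_act_right]
  have fixW : ∀ z : ι → F, S.B u z = 0 → ∀ w ∈ S.line u, S.B w u = 0 ∧ S.B w z = 0 := by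
    intro z hz w hw
    refine ⟨S.B_line hw, ?_⟩
    obtain ⟨k, rfl⟩ := S.mem_line.mp hw
    rw [S.B_act, hz, mul_zero]
  have fixD : ∀ z : ι → F, S.B u z = 0 → ∀ (l : L) (x : GL ι F),
      (∀ v : ι → F, S.B v u = 0 →
        (x : Matrix ι ι F) *ᵥ v = v + S.φ (l * S.B v z) *ᵥ u) →
      ∀ d ∈ S.line u ⊓ gim (S.line u) h, (x : Matrix ι ι F) *ᵥ d = d := by
    intro z hz l x hx d hd
    obtain ⟨hd1, hd2⟩ := fixW z hz d hd.1
    rw [hx d hd1, hd2, mul_zero, S.φ_zero_mulVec, add_zero]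
  -- Step 1: `hW` is contained in the `L`-span of `u` and `y₀`
  have step1 : ∀ y ∈ gim (S.line u) h, ∃ a a' : L, S.φ a *ᵥ u + S.φ a' *ᵥ y₀ = y := by
    intro y hy
    by_contra hcon
    push Not at hcon
    obtain ⟨z, hz1, hz2, hz3⟩ := S.exists_dual2 hf (u := u) (w := y₀) (y := y) hcon
    apply hWB
    intro w hw
    obtain ⟨l, rfl⟩ := S.mem_line.mp hw
    obtain ⟨x, hxM, hx⟩ := eich z hz1 l
    have h2 : (x : Matrix ι ι F) *ᵥ y₀ = y₀ := by
      rw [hx y₀ (hperp y₀ hy₀B), hz2, mul_zero, S.φ_zero_mulVec, add_zero]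
    have h3 := hmax x hxM (fixD z hz1 l x hx) ⟨y₀, hy₀B, hy₀W, by rw [h2]; exact hy₀B⟩ y hy
    rw [hx y (hperp y hy), hz3, mul_one] at h3
    have h4 := (gim (S.line u) h).sub_mem h3 hy
    rwa [add_sub_cancel_left] at h4
  -- the multiplier algebra of `{k | k u ∈ hW}`
  let E : Subalgebra F L :=
    { carrier := {e | ∀ k : L, S.φ k *ᵥ u ∈ gim (S.line u) h →
        S.φ (e * k) *ᵥ u ∈ gim (S.line u) h}
      mul_mem' := by
        intro a b ha hb k hk
        rw [mul_assoc]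
        exact ha _ (hb k hk)
      add_mem' := by
        intro a b ha hb k hk
        rw [add_mul, S.φ_add_mulVec]
        exact (gim (S.line u) h).add_mem (ha k hk) (hb k hk)
      algebraMap_mem' := by
        intro c k hk
        rw [S.φ_mul_mulVec, S.φ_algebraMap_mulVec]
        exact (gim (S.line u) h).smul_mem c hk }
  have hEmem : ∀ e : L, e ∈ E ↔ ∀ k : L, S.φ k *ᵥ u ∈ gim (S.line u) h →
      S.φ (e * k) *ᵥ u ∈ gim (S.line u) h := fun e => Iff.rfl
  -- Step 2: the `y₀`-coefficient lies in `E`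
  have step2 : ∀ a a' : L, S.φ a *ᵥ u + S.φ a' *ᵥ y₀ ∈ gim (S.line u) h → a' ∈ E := by
    intro a a' hy
    rw [hEmem]
    intro k hk
    obtain ⟨z, hz1, hz2⟩ := S.exists_dual hf (u := u) (y := y₀) hy₀W
    obtain ⟨x, hxM, hx⟩ := eich z hz1 k
    have h2 : (x : Matrix ι ι F) *ᵥ y₀ = y₀ + S.φ k *ᵥ u := by
      rw [hx y₀ (hperp y₀ hy₀B), hz2, mul_one]
    have h3 := hmax x hxM (fixD z hz1 k x hx)
      ⟨y₀, hy₀B, hy₀W, by rw [h2]; exact (gim (S.line u) h).add_mem hy₀B hk⟩ _ hy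
    have hBy : S.B (S.φ a *ᵥ u + S.φ a' *ᵥ y₀) z = a' := by
      rw [S.B_add, S.B_act, S.B_act, hz1, hz2, mul_zero, zero_add, mul_one]
    rw [hx _ (hperp _ hy), hBy] at h3
    have h4 := (gim (S.line u) h).sub_mem h3 hy
    rw [add_sub_cancel_left] at h4
    rwa [mul_comm]
  haveI := Subalgebra.isSimpleOrder_of_finrank_prime F L hr
  have hE : E = ⊥ := by
    rcases eq_bot_or_eq_top E with hE | hE
    · exact hE
    · exfalso
      apply hWB
      obtain ⟨d, hd, hd0⟩ := (Submodule.ne_bot_iff _).mp hD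
      obtain ⟨k, hk⟩ := S.mem_line.mp hd.1
      have hk0 : k ≠ 0 := by
        rintro rfl
        rw [S.φ_zero_mulVec] at hk
        exact hd0 hk.symm
      intro w hw
      obtain ⟨l, rfl⟩ := S.mem_line.mp hw
      have h1 : l * k⁻¹ ∈ E := by
        rw [hE]
        exact Algebra.mem_top
      have h2 := (hEmem _).mp h1 k (by rw [hk]; exact hd.2)
      rwa [mul_assoc, inv_mul_cancel₀ hk0, mul_one] at h2
  -- Step 3: `hW = (W ∩ hW) ⊕ F y₀`
  have hle : gim (S.line u) h ≤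
      (S.line u ⊓ gim (S.line u) h) ⊔ Submodule.span F {y₀} := by
    intro y hy
    obtain ⟨a, a', rfl⟩ := step1 y hy
    have ha' := step2 a a' hy
    rw [hE] at ha'
    obtain ⟨c', rfl⟩ := Algebra.mem_bot.mp ha'
    rw [S.φ_algebraMap_mulVec] at hy ⊢
    refine Submodule.add_mem_sup ⟨S.act_mem_line a u, ?_⟩
      (Submodule.smul_mem _ c' (Submodule.mem_span_singleton_self y₀))
    have h1 := (gim (S.line u) h).sub_mem hy ((gim (S.line u) h).smul_mem c' hy₀B)
    rwa [add_sub_cancel_right] at h1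
  have hge : (S.line u ⊓ gim (S.line u) h) ⊔ Submodule.span F {y₀} ≤ gim (S.line u) h :=
    sup_le inf_le_right (by
      rw [Submodule.span_singleton_le_iff_mem]
      exact hy₀B)
  have heq := le_antisymm hle hge
  have hdisj : (S.line u ⊓ gim (S.line u) h) ⊓ Submodule.span F {y₀} = ⊥ := by
    rw [Submodule.eq_bot_iff]
    rintro v ⟨hv1, hv2⟩
    obtain ⟨c, rfl⟩ := Submodule.mem_span_singleton.mp hv2
    by_contra hne0
    have hc : c ≠ 0 := by
      rintro rfl
      exact hne0 (zero_smul _ _)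
    apply hy₀W
    have h1 := (S.line u).smul_mem c⁻¹ hv1.1
    rwa [smul_smul, inv_mul_cancel₀ hc, one_smul] at h1
  have hy₀0 : y₀ ≠ 0 := by
    rintro rfl
    exact hy₀W (Submodule.zero_mem _)
  have h1 := Submodule.finrank_sup_add_finrank_inf_eq (S.line u ⊓ gim (S.line u) h)
    (Submodule.span F {y₀})
  rw [hdisj, finrank_bot, add_zero, finrank_span_singleton hy₀0, ← heq, hfr,
    S.finrank_line hu] at h1
  exact h1.symm

end Cfsg.Agent.Lib.Helper16.SpKJ6
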