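import Mathlib
import Cfsg.Agent.Lib.Helper91.SuU

set_option autoImplicit false

/-! Piece EA3 of the S5172 project (helper91): the normalizer of the standard Sylow subgroup `U`
of the even unitary group is block upper triangular (flag argument; adapted from
`Helper86.SpA3`). -/

namespace Cfsg.Agent.Lib.Helper16.SuEA3

open Matrix Cfsg.Agent.Lib.Helper91.SpU Cfsg.Agent.Lib.Helper91.SuU

variable (l : ℕ) (K : Type*) [Field K] (σ : K →+* K)

/-- the flag `V_k = ⟨e_0, …, e_{k-1}⟩` -/
def VV (k : ℕ) (v : Fin l ⊕ Fin l → K) : Prop :=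
  (∀ j, v (Sum.inr j) = 0) ∧ ∀ j : Fin l, k ≤ (j : ℕ) → v (Sum.inl j) = 0

theorem mulVec_sum (M : Matrix (Fin l ⊕ Fin l) (Fin l ⊕ Fin l) K) (v : Fin l ⊕ Fin l → K)
    (x : Fin l ⊕ Fin l) :
    (M *ᵥ v) x = ∑ i, M x (Sum.inl i) * v (Sum.inl i) + ∑ i, M x (Sum.inr i) * v (Sum.inr i) := by
  simp [Matrix.mulVec, dotProduct, Fintype.sum_sum_type]

theorem step_inU (k : ℕ) (u : GU l K σ) (hu : InU l K σ u)
    (v : Fin l ⊕ Fin l → K) (hv : VV l K (k + 1) v) :
    VV l K k (mat l K σ u *ᵥ v - v) := by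
  obtain ⟨hC, hA0, hA1⟩ := hu
  refine ⟨fun j => ?_, fun j hj => ?_⟩
  · rw [Pi.sub_apply, mulVec_sum, hv.1 j, sub_zero]
    have h1 : ∀ i, mat l K σ u (Sum.inr j) (Sum.inl i) = 0 := fun i => congrFun (congrFun hC j) i
    simp [h1, hv.1]
  · rw [Pi.sub_apply, mulVec_sum]
    have h2 : ∑ i, mat l K σ u (Sum.inl j) (Sum.inr i) * v (Sum.inr i) = 0 := by
      simp [hv.1]
    have h3 : ∑ i, mat l K σ u (Sum.inl j) (Sum.inl i) * v (Sum.inl i) = v (Sum.inl j) := by
      rw [Finset.sum_eq_single j]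
      · have : mat l K σ u (Sum.inl j) (Sum.inl j) = 1 := hA1 j
        rw [this, one_mul]
      · intro i _ hij
        rcases lt_or_gt_of_ne hij with h | h
        · have : mat l K σ u (Sum.inl j) (Sum.inl i) = 0 := hA0 j i h
          rw [this, zero_mul]
        · have hi : k + 1 ≤ (i : ℕ) := by
            have : (j : ℕ) < (i : ℕ) := h
            omega
          rw [hv.2 i hi, mul_zero]
      · intro h
        exact absurd (Finset.mem_univ j) h
    rw [h2, h3, add_zero, sub_self]

theorem usq_sub_inl (B : Matrix (Fin l) (Fin l) K) (hB : B.map σ = -Bᵀ) (w : Fin l ⊕ Fin l → K)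
    (x : Fin l) :
    (mat l K σ (usq l K σ B hB) *ᵥ w - w) (Sum.inl x) = ∑ i, B x i * w (Sum.inr i) := by
  rw [Pi.sub_apply, mulVec_sum, usq_mat]
  simp [Matrix.one_apply]

theorem uphi_sub_inl (hσ : ∀ x, σ (σ x) = x) (s : SpecialLinearGroup (Fin l) K)
    (w : Fin l ⊕ Fin l → K) (x : Fin l) :
    (mat l K σ (uphi l K σ hσ s) *ᵥ w - w) (Sum.inl x) =
      ∑ i, (s : Matrix (Fin l) (Fin l) K) x i * w (Sum.inl i) - w (Sum.inl x) := by
  rw [Pi.sub_apply, mulVec_sum, uphi_mat]
  simp

theorem claim (hσ : ∀ x, σ (σ x) = x) (ε : K) (hε0 : ε ≠ 0) (hε : σ ε = -ε)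
    (U : Subgroup (GU l K σ)) (hU : ∀ g, g ∈ U ↔ InU l K σ g)
    (g : GU l K σ) (hg : g ∈ Subgroup.normalizer (U : Set (GU l K σ))) :
    ∀ k, k ≤ l → ∀ v, VV l K k v → VV l K k (mat l K σ g *ᵥ v) := by
  intro k
  induction k with
  | zero =>
    intro _ v hv
    have hv0 : v = 0 := by
      funext x
      rcases x with j | j
      · exact hv.2 j (Nat.zero_le _)
      · exact hv.1 j
    subst hv0
    rw [Matrix.mulVec_zero]
    exact ⟨fun _ => rfl, fun _ _ => rfl⟩
  | succ k ih =>
    intro hk v hv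
    have ih' := ih (by omega)
    obtain ⟨w, hw⟩ : ∃ w, w = mat l K σ g *ᵥ v := ⟨_, rfl⟩
    rw [← hw]
    have star : ∀ u ∈ U, VV l K k (mat l K σ u *ᵥ w - w) := by
      intro u hu
      have hu' : g⁻¹ * u * g ∈ U := by
        have h := (Subgroup.mem_normalizer_iff.mp hg) (g⁻¹ * u * g)
        have e : g * (g⁻¹ * u * g) * g⁻¹ = u := by group
        rw [e] at h
        exact h.mpr hu
      have h1 := step_inU l K σ k (g⁻¹ * u * g) ((hU _).mp hu') v hv
      have h2 := ih' _ h1
      have e : mat l K σ g *ᵥ (mat l K σ (g⁻¹ * u * g) *ᵥ v - v) = mat l K σ u *ᵥ w - w := by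
        rw [Matrix.mulVec_sub, Matrix.mulVec_mulVec, hw]
        have e1 : mat l K σ g * mat l K σ (g⁻¹ * u * g) = mat l K σ u * mat l K σ g := by
          have e2 : g * (g⁻¹ * u * g) = u * g := by group
          exact congrArg (mat l K σ) e2
        rw [e1, ← Matrix.mulVec_mulVec]
      rw [e] at h2
      exact h2
    have ha : ∀ j, w (Sum.inr j) = 0 := by
      intro j
      by_contra hne
      by_cases hkj : k ≤ (j : ℕ)
      · have hu : uyy l K σ j ε hε ∈ U := (hU _).mpr (uyy_inU l K σ j ε hε)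
        have h := (star _ hu).2 j hkj
        unfold uyy at h
        rw [usq_sub_inl] at h
        simp [Matrix.single_apply] at h
        rcases h with h | h
        · exact hε0 h
        · exact hne h
      · have hkm : k < l := by omega
        have hjl : j ≠ (⟨k, hkm⟩ : Fin l) := by
          intro h
          have := congrArg Fin.val h
          simp at this
          omega
        have hB : (Matrix.single j (⟨k, hkm⟩ : Fin l) (1 : K) +
            Matrix.single (⟨k, hkm⟩ : Fin l) j (-1 : K)).map σ =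
            -(Matrix.single j (⟨k, hkm⟩ : Fin l) (1 : K) +
            Matrix.single (⟨k, hkm⟩ : Fin l) j (-1 : K))ᵀ := by
          rw [Matrix.transpose_add, Matrix.transpose_single, Matrix.transpose_single]
          ext r s
          simp only [Matrix.map_apply, Matrix.add_apply, Matrix.single_apply, Matrix.neg_apply]
          split_ifs <;> simp
        have hu : usq l K σ _ hB ∈ U := (hU _).mpr (usq_inU l K σ _ hB)
        have h := (star _ hu).2 (⟨k, hkm⟩ : Fin l) (le_refl k)
        rw [usq_sub_inl] at h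
        simp [Matrix.single_apply, Matrix.add_apply, hjl] at h
        exact hne h
    have hb : ∀ j : Fin l, k + 1 ≤ (j : ℕ) → w (Sum.inl j) = 0 := by
      intro j hj
      by_contra hne
      have hkm : k < l := by omega
      have hij : (⟨k, hkm⟩ : Fin l) ≠ j := by
        intro h
        have := congrArg Fin.val h
        simp at this
        omega
      have hlt : (⟨k, hkm⟩ : Fin l) < j := by
        rw [Fin.lt_def]
        simp
        omega
      obtain ⟨s, hs⟩ : ∃ s : SpecialLinearGroup (Fin l) K,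
          (s : Matrix (Fin l) (Fin l) K) = Matrix.transvection (⟨k, hkm⟩ : Fin l) j 1 :=
        ⟨⟨Matrix.transvection (⟨k, hkm⟩ : Fin l) j 1, Matrix.det_transvection_of_ne _ _ hij 1⟩,
          rfl⟩
      have hsUT : IsUT l K (s : Matrix (Fin l) (Fin l) K) := by
        rw [hs]
        refine ⟨fun a b hba => ?_, fun a => ?_⟩
        · have hab : a ≠ b := ne_of_gt hba
          have h2 : ¬ ((⟨k, hkm⟩ : Fin l) = a ∧ j = b) := by
            rintro ⟨rfl, rfl⟩
            exact absurd hba (not_lt.mpr hlt.le)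
          simp [Matrix.transvection, hab, h2]
        · have h2 : ¬ ((⟨k, hkm⟩ : Fin l) = a ∧ j = a) := by
            rintro ⟨h1, h2⟩
            exact hij (h1.trans h2.symm)
          simp [Matrix.transvection, h2]
      have hu : uphi l K σ hσ s ∈ U := (hU _).mpr (uphi_inU l K σ hσ s hsUT)
      have h := (star _ hu).2 (⟨k, hkm⟩ : Fin l) (le_refl k)
      rw [uphi_sub_inl, hs] at h
      simp [Matrix.transvection, Matrix.one_apply, Matrix.single_apply, Matrix.add_apply, add_mul,
        Finset.sum_add_distrib] at h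
      exact hne h
    exact ⟨ha, hb⟩

/-- PIECE EA3: the normalizer of `U` is block upper triangular. -/
theorem normalizer_U_tri (l : ℕ) (K : Type*) [Field K] (σ : K →+* K) (hσ : ∀ x, σ (σ x) = x)
    (ε : K) (hε0 : ε ≠ 0) (hε : σ ε = -ε)
    (U : Subgroup (GU l K σ)) (hU : ∀ g, g ∈ U ↔ InU l K σ g)
    (g : GU l K σ) (hg : g ∈ Subgroup.normalizer (U : Set (GU l K σ))) :
    (mat l K σ g).toBlocks₂₁ = 0 ∧ ∀ i j : Fin l, j < i → (mat l K σ g).toBlocks₁₁ i j = 0 := by
  have cl := claim l K σ hσ ε hε0 hε U hU g hg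
  have key : ∀ j : Fin l, VV l K ((j : ℕ) + 1) (mat l K σ g *ᵥ Pi.single (Sum.inl j) 1) := by
    intro j
    apply cl ((j : ℕ) + 1) (by have := j.2; omega)
    refine ⟨fun x => by simp, fun x hx => ?_⟩
    have hxj : x ≠ j := by
      intro h
      subst h
      omega
    simp [hxj]
  have col : ∀ (j : Fin l) (x : Fin l ⊕ Fin l),
      (mat l K σ g *ᵥ Pi.single (Sum.inl j) 1) x = mat l K σ g x (Sum.inl j) := by
    intro j x
    rw [Matrix.mulVec_single_one]
    rfl
  refine ⟨?_, ?_⟩
  · ext i j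
    have h := (key j).1 i
    rw [col] at h
    exact h
  · intro i j hji
    have hji' : (j : ℕ) + 1 ≤ (i : ℕ) := by
      have : (j : ℕ) < (i : ℕ) := hji
      omega
    have h := (key j).2 i hji'
    rw [col] at h
    exact h

end Cfsg.Agent.Lib.Helper16.SuEA3
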