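import Mathlib
import Cfsg.Prelude.Def_GeometricClasses
import Cfsg.Agent.Lib.Helper98.T73Defs
import Cfsg.Agent.Lib.Helper21.O72R2BWD
import Cfsg.Agent.Lib.Helper30.O72WITT
import Cfsg.Agent.Lib.Helper54.OrthForms

/-!
# Project T73 (S5973, architect helper98): piece DER1 (proof by helper16)

When `-1` is a nonsquare, `Ω⁺_{2d}(F)` contains a non-scalar involution all of whose invariant
totally singular subspaces have dimension at most `d - 2`: the product of the reflections in
`e₁ + f₁` and `e₂ + f₂`.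
-/

set_option autoImplicit false
set_option linter.unusedSectionVars false
set_option linter.unusedVariables false

namespace Cfsg.Agent.Lib.Helper98.T73

section Der1Abstract

open Module Cfsg.Agent.Lib.Helper96.Sp Cfsg.Agent.Lib.Helper98.O72

variable {F : Type*} [Field F] [Fintype F] {V : Type*} [AddCommGroup V] [Module F V]
  [FiniteDimensional F V] {B : LinearMap.BilinForm F V}

/-- a subspace of any smaller dimension -/
theorem der1_sub (U₀ : Submodule F V) (n : ℕ) (hn : n ≤ finrank F U₀) :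
    ∃ W' : Submodule F V, W' ≤ U₀ ∧ finrank F W' = n := by
  have h1 : LinearIndependent F
      (fun j : Fin (finrank F U₀) => ((Module.finBasis F U₀ j : U₀) : V)) :=
    (Module.finBasis F U₀).linearIndependent.map' U₀.subtype (Submodule.ker_subtype U₀)
  have hli : LinearIndependent F
      (fun j : Fin n => ((Module.finBasis F U₀ (Fin.castLE hn j) : U₀) : V)) :=
    h1.comp (Fin.castLE hn) (Fin.castLE_injective hn)
  refine ⟨Submodule.span F
    (Set.range (fun j : Fin n => ((Module.finBasis F U₀ (Fin.castLE hn j) : U₀) : V))), ?_, ?_⟩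
  · rw [Submodule.span_le]
    rintro _ ⟨j, rfl⟩
    exact (Module.finBasis F U₀ (Fin.castLE hn j)).2
  · rw [finrank_span_eq_card hli, Fintype.card_fin]

/-- Witt: a totally isotropic subspace lies in a totally isotropic subspace of any dimension that
occurs. -/
theorem der1_witt (hS : B.IsSymm) (hchar2 : (2 : F) ≠ 0) (hN : ND B ⊤)
    (U₀ W : Submodule F V) (hU₀ : Orth B U₀ U₀) (hW : Orth B W W)
    (hle : finrank F W ≤ finrank F U₀) :
    ∃ U : Submodule F V, Orth B U U ∧ W ≤ U ∧ finrank F U = finrank F U₀ := by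
  obtain ⟨W', hW'le, hW'f⟩ := der1_sub U₀ (finrank F W) hle
  have hW'o : Orth B W' W' := orth_mono hU₀ hW'le hW'le
  obtain ⟨h, hh, hmap⟩ := witt_ti hS hchar2 hN W' W hW'o hW hW'f
  refine ⟨U₀.map (h : V →ₗ[F] V), ?_, ?_, ?_⟩
  · rintro _ ⟨a, ha, rfl⟩ _ ⟨b, hb, rfl⟩
    rw [hh a b]
    exact hU₀ a ha b hb
  · rw [← hmap]
    exact Submodule.map_mono hW'le
  · exact LinearEquiv.finrank_map_eq h U₀

/-- the equality case of `ti_bound_of_aniso`: `W` is a maximal totally isotropic subspace -/
theorem der1_eq (hS : B.IsSymm) (hchar2 : (2 : F) ≠ 0) (hN : ND B ⊤)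
    (T : Module.End F V) (hT : Isom B T) (hT2 : T * T = 1)
    (haniso : ∀ v ∈ LinearMap.ker (T + 1), B v v = 0 → v = 0)
    (W : Submodule F V) (hW : W.map T ≤ W) (hWti : Orth B W W)
    (heq : finrank F V ≤ 2 * finrank F W + finrank F (LinearMap.ker (T + 1)))
    (U : Submodule F V) (hWU : W ≤ U) (hU : Orth B U U) : U ≤ W := by
  have hTT : ∀ w : V, T (T w) = w := by
    intro w
    have h := congrArg (fun f : Module.End F V => f w) hT2
    simpa using h
  have hfix : ∀ w ∈ W, T w = w := by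
    intro w hw
    have hTw : T w ∈ W := hW (Submodule.mem_map_of_mem hw)
    have hu : w - T w ∈ W := W.sub_mem hw hTw
    have hk : w - T w ∈ LinearMap.ker (T + 1) := by
      rw [LinearMap.mem_ker, LinearMap.add_apply, Module.End.one_apply, map_sub, hTT]
      abel
    have h0 := haniso _ hk (hWti _ hu _ hu)
    exact (sub_eq_zero.mp h0).symm
  have horth : ∀ w ∈ W, ∀ v ∈ LinearMap.ker (T + 1), B v w = 0 := by
    intro w hw v hv
    have hv' : T v = -v := by
      rw [LinearMap.mem_ker, LinearMap.add_apply, Module.End.one_apply] at hv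
      exact eq_neg_of_add_eq_zero_left hv
    have h1 := hT v w
    rw [hv', hfix w hw, map_neg, LinearMap.neg_apply] at h1
    have h2 : (2 : F) * B v w = 0 := by linear_combination -h1
    exact (mul_eq_zero.mp h2).resolve_left hchar2
  have hle : W ⊔ LinearMap.ker (T + 1) ≤ B.orthogonal W := by
    apply sup_le
    · intro w hw
      rw [mem_perp_iff' hS hchar2]
      exact fun w' hw' => hWti w hw w' hw'
    · intro v hv
      rw [mem_perp_iff' hS hchar2]
      exact fun w hw => horth w hw v hv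
  have hinf : W ⊓ LinearMap.ker (T + 1) = ⊥ := by
    rw [eq_bot_iff]
    rintro v ⟨hv1, hv2⟩
    rw [Submodule.mem_bot]
    exact haniso v hv2 (hWti v hv1 v hv1)
  have h1 := LinearMap.BilinForm.finrank_add_finrank_orthogonal hS.isRefl W
  rw [perp_top hS hchar2 hN, inf_bot_eq, finrank_bot, add_zero] at h1
  have h2 := Submodule.finrank_sup_add_finrank_inf_eq W (LinearMap.ker (T + 1))
  rw [hinf, finrank_bot, add_zero] at h2
  have hEq : W ⊔ LinearMap.ker (T + 1) = B.orthogonal W :=
    Submodule.eq_of_le_of_finrank_le hle (by omega)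
  intro v hv
  have hvp : v ∈ B.orthogonal W := by
    rw [mem_perp_iff' hS hchar2]
    intro w hw
    exact hU v hv w (hWU hw)
  rw [← hEq] at hvp
  obtain ⟨w, hw, k, hk, rfl⟩ := Submodule.mem_sup.mp hvp
  have hvv := hU _ hv _ hv
  have e1 := hWti w hw w hw
  have e2 := horth w hw k hk
  have e3 : B w k = 0 := by rw [sym_swap hS hchar2]; exact e2
  have hkk : B k k = 0 := by
    simp only [map_add, LinearMap.add_apply] at hvv
    rw [e1, e2, e3] at hvv
    simpa using hvv
  have hk0 := haniso k hk hkk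
  rw [hk0, add_zero]
  exact hw

end Der1Abstract

section Der1Concrete

open Module Cfsg Cfsg.Agent.Lib.Helper96.Sp Cfsg.Agent.Lib.Helper51 Cfsg.Agent.Lib.Helper98.O72
open scoped MatrixGroups

variable {F : Type*} [Field F] [Fintype F]

theorem der1_Qe (d : ℕ) (i0 : Fin d) :
    QPlus d F (Pi.single (Sum.inl i0) 1 + Pi.single (Sum.inr i0) 1 : Fin d ⊕ Fin d → F) = 1 := by
  rw [QPlus_apply]
  simp [Pi.single_apply]

theorem der1_pol (d : ℕ) (i0 i1 : Fin d) (h : i0 ≠ i1) :
    QuadraticMap.polar ⇑(QPlus d F)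
      (Pi.single (Sum.inl i0) 1 + Pi.single (Sum.inr i0) 1 : Fin d ⊕ Fin d → F)
      (Pi.single (Sum.inl i1) 1 + Pi.single (Sum.inr i1) 1) = 0 := by
  rw [polar_QPlus]
  apply Finset.sum_eq_zero
  intro i _
  by_cases hi : i = i0
  · subst hi
    simp [Pi.single_apply, h]
  · simp [Pi.single_apply, hi]

theorem der1_pol2 (d : ℕ) (i0 i1 : Fin d) :
    QuadraticMap.polar ⇑(QPlus d F)
      (Pi.single (Sum.inl i1) 1 + Pi.single (Sum.inr i1) 1 : Fin d ⊕ Fin d → F)
      (Pi.single (Sum.inl i0) 1 - Pi.single (Sum.inr i0) 1) = 0 := by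
  rw [polar_QPlus]
  apply Finset.sum_eq_zero
  intro i _
  by_cases hi : i = i0
  · subst hi
    by_cases hi1 : i = i1
    · subst hi1
      simp [Pi.single_apply]
    · simp [Pi.single_apply, hi1]
  · simp [Pi.single_apply, hi]

end Der1Concrete

open Cfsg.Agent.Lib.Helper47 Module Polynomial

universe u

variable {F : Type u} [Field F] [Fintype F]

open Cfsg Cfsg.Agent.Lib.Helper96.Sp Cfsg.Agent.Lib.Helper51 Cfsg.Agent.Lib.Helper98.O72 in
/-- DER1 -/
theorem exists_invol_der (h2 : (2 : F) ≠ 0) (hns : ¬ IsSquare (-1 : F)) (d : ℕ) (hd : 2 ≤ d) :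
    ∃ x : GL (Fin d ⊕ Fin d) F, x ∈ Cfsg.Geo.omegaGL (Cfsg.quadFormPlus d F) ∧ x * x = 1 ∧
      (∀ z : F, (x : Matrix (Fin d ⊕ Fin d) (Fin d ⊕ Fin d) F)
        ≠ z • (1 : Matrix (Fin d ⊕ Fin d) (Fin d ⊕ Fin d) F)) ∧
      ∀ W : Submodule F (Fin d ⊕ Fin d → F), (∀ w ∈ W, Cfsg.quadFormPlus d F w = 0) →
        W.map (Matrix.toLin' (x : Matrix (Fin d ⊕ Fin d) (Fin d ⊕ Fin d) F)) ≤ W →
        finrank F W + 2 ≤ d := by
  classical
  obtain ⟨i0, i1, hi⟩ : ∃ i0 i1 : Fin d, i0 ≠ i1 :=
    ⟨⟨0, by omega⟩, ⟨1, by omega⟩, by simp [Fin.ext_iff]⟩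
  obtain ⟨e, he⟩ : ∃ e : Fin d ⊕ Fin d → F,
      e = Pi.single (Sum.inl i0) 1 + Pi.single (Sum.inr i0) 1 := ⟨_, rfl⟩
  obtain ⟨u, hu⟩ : ∃ u : Fin d ⊕ Fin d → F,
      u = Pi.single (Sum.inl i1) 1 + Pi.single (Sum.inr i1) 1 := ⟨_, rfl⟩
  obtain ⟨w0, hw0⟩ : ∃ w0 : Fin d ⊕ Fin d → F,
      w0 = Pi.single (Sum.inl i0) 1 - Pi.single (Sum.inr i0) 1 := ⟨_, rfl⟩
  have hQe : QPlus d F e = 1 := by rw [he]; exact der1_Qe d i0
  have hQu : QPlus d F u = 1 := by rw [hu]; exact der1_Qe d i1
  have hpol : QuadraticMap.polar ⇑(QPlus d F) e u = 0 := by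
    rw [he, hu]; exact der1_pol d i0 i1 hi
  have hew : QuadraticMap.polar ⇑(QPlus d F) e w0 = 0 := by
    rw [he, hw0]; exact der1_pol2 d i0 i0
  have huw : QuadraticMap.polar ⇑(QPlus d F) u w0 = 0 := by
    rw [hu, hw0]; exact der1_pol2 d i0 i1
  have hvs : ∀ v ∈ [e, u], QPlus d F v ≠ 0 := by
    intro v hv
    rcases List.mem_pair.1 hv with h | h
    · rw [h, hQe]; exact one_ne_zero
    · rw [h, hQu]; exact one_ne_zero
  obtain ⟨M, hM⟩ : ∃ M : Matrix (Fin d ⊕ Fin d) (Fin d ⊕ Fin d) F,
      M = ([e, u].map (fun v => reflectionMatrix ⇑(QPlus d F) v)).prod := ⟨_, rfl⟩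
  have hMM : M * M = 1 := by rw [hM]; exact r2bwd_sq (QPlus d F) h2 e u hQe hQu hpol
  have hMe : M.mulVec e = -e := by
    have h := r2bwd_act (QPlus d F) e u hQe hQu hpol 1 0 0 (QuadraticMap.polar_zero_right _ _)
      (QuadraticMap.polar_zero_right _ _)
    rw [← hM] at h
    simpa using h
  have hMu : M.mulVec u = -u := by
    have h := r2bwd_act (QPlus d F) e u hQe hQu hpol 0 1 0 (QuadraticMap.polar_zero_right _ _)
      (QuadraticMap.polar_zero_right _ _)
    rw [← hM] at h
    simpa using h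
  have hMw : M.mulVec w0 = w0 := by
    have h := r2bwd_act (QPlus d F) e u hQe hQu hpol 0 0 w0 hew huw
    rw [← hM] at h
    simpa using h
  have hgM : (((reflList (QPlus d F) [e, u] hvs : isometryGroup F ⇑(QPlus d F)) :
      GL (Fin d ⊕ Fin d) F) :
      Matrix (Fin d ⊕ Fin d) (Fin d ⊕ Fin d) F) = M := by
    rw [coe_reflList, hM]
  have hdet : Cfsg.Agent.Lib.Helper54.detO (QPlus d F) (reflList (QPlus d F) [e, u] hvs) = 1 := by
    rw [Cfsg.Agent.Lib.Helper54.detO_reflList]
    simp
  have hχ : spinChar (QPlus d F) 1 (reflList (QPlus d F) [e, u] hvs) = 1 := by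
    rw [spinChar_reflList (QPlus d F) h2 1 one_ne_zero]
    simp [hQe, hQu]
  have hF : ringChar F ≠ 2 := by
    intro h
    apply h2
    have h3 := CharP.cast_eq_zero F (ringChar F)
    rw [h] at h3
    exact_mod_cast h3
  have hcomm := Cfsg.Agent.Lib.Helper54.mem_commutator_of_det_spin (QPlus d F) hF
    Cfsg.Agent.Lib.Helper54.polarSep_plus _ hdet hχ
  obtain ⟨x, hxΩ, hxM⟩ : ∃ x : GL (Fin d ⊕ Fin d) F,
      x ∈ Cfsg.Geo.omegaGL ⇑(QPlus d F) ∧
        (x : Matrix (Fin d ⊕ Fin d) (Fin d ⊕ Fin d) F) = M :=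
    ⟨_, Cfsg.Agent.Lib.Helper52.coe_mem_omegaGL (QPlus d F) hcomm, hgM⟩
  rw [coe_QPlus] at hxΩ
  refine ⟨x, hxΩ, ?_, ?_, ?_⟩
  · apply Units.ext
    rw [Units.val_mul, hxM, hMM]
    rfl
  · intro z hz
    rw [hxM] at hz
    have h3 := hMe
    rw [hz, Matrix.smul_mulVec, Matrix.one_mulVec] at h3
    have h4 := congrFun h3 (Sum.inl i0)
    rw [he] at h4
    simp at h4
    have h5 := hMw
    rw [hz, Matrix.smul_mulVec, Matrix.one_mulVec] at h5
    have h6 := congrFun h5 (Sum.inl i0)
    rw [hw0] at h6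
    simp at h6
    apply h2
    rw [h4] at h6
    linear_combination -h6
  · intro W hWq hWinv
    rw [hxM] at hWinv
    obtain ⟨B, hB⟩ : ∃ B : LinearMap.BilinForm F (Fin d ⊕ Fin d → F),
        B = QuadraticMap.polarBilin (QPlus d F) := ⟨_, rfl⟩
    have hS : B.IsSymm := ⟨fun a b => by
      rw [hB, QuadraticMap.polarBilin_apply_apply, QuadraticMap.polarBilin_apply_apply]
      exact QuadraticMap.polar_comm _ a b⟩
    have hN : ND B ⊤ := by
      intro a _ ha
      apply Cfsg.Agent.Lib.Helper54.polarSep_plus a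
      intro y
      have h := ha y Submodule.mem_top
      rw [hB, QuadraticMap.polarBilin_apply_apply] at h
      rw [QuadraticMap.polar_comm]
      exact h
    have hT : Isom B (Matrix.toLin' M) := by
      intro a b
      rw [hB, QuadraticMap.polarBilin_apply_apply, QuadraticMap.polarBilin_apply_apply,
        Matrix.toLin'_apply, Matrix.toLin'_apply, ← hgM]
      exact isometry_polar (QPlus d F) _ a b
    have hT2 : (Matrix.toLin' M : Module.End F (Fin d ⊕ Fin d → F)) *
        Matrix.toLin' M = 1 := by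
      rw [Module.End.mul_eq_comp, ← Matrix.toLin'_mul, hMM, Matrix.toLin'_one]
      rfl
    have haniso : ∀ v ∈ LinearMap.ker
        ((Matrix.toLin' M : Module.End F (Fin d ⊕ Fin d → F)) + 1),
        B v v = 0 → v = 0 := by
      intro v hv hvv
      rw [LinearMap.mem_ker, LinearMap.add_apply, Matrix.toLin'_apply, Module.End.one_apply] at hv
      rw [hM] at hv
      obtain ⟨a, b, rfl⟩ := r2bwd_ker (QPlus d F) h2 e u hQe hQu hpol v hv
      rw [hB, QuadraticMap.polarBilin_apply_apply, Cfsg.Agent.Lib.Helper51.polar_self,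
        r2bwd_norm (QPlus d F) e u hQe hQu hpol] at hvv
      have h5 : a * a + b * b = 0 := by
        rcases mul_eq_zero.1 hvv with h | h
        · exact absurd h h2
        · exact h
      have hb0 : b = 0 := by
        by_contra hb
        apply hns
        refine ⟨a / b, ?_⟩
        field_simp
        linear_combination -h5
      have ha0 : a = 0 := by
        rw [hb0, mul_zero, add_zero] at h5
        exact mul_self_eq_zero.1 h5
      rw [ha0, hb0, zero_smul, zero_smul, add_zero]
    have hq : ∀ w ∈ W, QPlus d F w = 0 := by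
      intro w hw
      have h := hWq w hw
      rw [← coe_QPlus] at h
      exact h
    have hWti : Orth B W W := by
      intro a ha b hb
      rw [hB, QuadraticMap.polarBilin_apply_apply]
      unfold QuadraticMap.polar
      rw [hq _ (W.add_mem ha hb), hq a ha, hq b hb]
      simp
    have hbound := ti_bound_of_aniso hS h2 hN (Matrix.toLin' M) hT hT2 haniso W hWinv hWti
    have hV : finrank F (Fin d ⊕ Fin d → F) = 2 * d := by
      rw [Module.finrank_fintype_fun_eq_card, Fintype.card_sum, Fintype.card_fin]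
      omega
    have hker : 2 ≤ finrank F (LinearMap.ker
        ((Matrix.toLin' M : Module.End F (Fin d ⊕ Fin d → F)) + 1)) := by
      have hli : LinearIndependent F ![e, u] := by
        rw [LinearIndependent.pair_iff]
        intro s t hst
        have h6 := congrFun hst (Sum.inl i0)
        have h7 := congrFun hst (Sum.inl i1)
        rw [he, hu] at h6 h7
        simp [Pi.single_apply, hi, hi.symm] at h6 h7
        exact ⟨h6, h7⟩
      have hspan : Submodule.span F (Set.range ![e, u]) ≤ LinearMap.ker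
          ((Matrix.toLin' M : Module.End F (Fin d ⊕ Fin d → F)) + 1) := by
        rw [Submodule.span_le]
        rintro _ ⟨i, rfl⟩
        fin_cases i
        · show e ∈ LinearMap.ker
            ((Matrix.toLin' M : Module.End F (Fin d ⊕ Fin d → F)) + 1)
          rw [LinearMap.mem_ker, LinearMap.add_apply, Matrix.toLin'_apply,
            Module.End.one_apply, hMe, neg_add_cancel]
        · show u ∈ LinearMap.ker
            ((Matrix.toLin' M : Module.End F (Fin d ⊕ Fin d → F)) + 1)
          rw [LinearMap.mem_ker, LinearMap.add_apply, Matrix.toLin'_apply,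
            Module.End.one_apply, hMu, neg_add_cancel]
      have h8 := Submodule.finrank_mono hspan
      rw [finrank_span_eq_card hli, Fintype.card_fin] at h8
      exact h8
    rw [hV] at hbound
    by_contra hcon
    have hWd : finrank F W + 1 = d := by omega
    obtain ⟨U₀, hU₀⟩ : ∃ U₀ : Submodule F (Fin d ⊕ Fin d → F),
        U₀ = Submodule.span F (Set.range
          (fun i : Fin d => (Pi.single (Sum.inl i) 1 : Fin d ⊕ Fin d → F))) := ⟨_, rfl⟩
    have hU₀f : finrank F U₀ = d := by
      have hli : LinearIndependent F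
          (fun i : Fin d => (Pi.single (Sum.inl i) 1 : Fin d ⊕ Fin d → F)) :=
        (Pi.linearIndependent_single_one (Fin d ⊕ Fin d) F).comp Sum.inl Sum.inl_injective
      rw [hU₀, finrank_span_eq_card hli, Fintype.card_fin]
    have hU₀z : ∀ v ∈ U₀, ∀ i : Fin d, v (Sum.inr i) = 0 := by
      intro v hv i
      rw [hU₀] at hv
      refine Submodule.span_induction ?_ ?_ ?_ ?_ hv
      · rintro _ ⟨j, rfl⟩
        simp
      · simp
      · intro a b _ _ ha hb
        simp [ha, hb]
      · intro c a _ ha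
        simp [ha]
    have hU₀o : Orth B U₀ U₀ := by
      intro a ha b hb
      rw [hB, QuadraticMap.polarBilin_apply_apply, polar_QPlus]
      apply Finset.sum_eq_zero
      intro i _
      rw [hU₀z a ha i, hU₀z b hb i]
      ring
    obtain ⟨U, hUo, hWU, hUf⟩ := der1_witt hS h2 hN U₀ W hU₀o hWti (by omega)
    have hUW := der1_eq hS h2 hN (Matrix.toLin' M) hT hT2 haniso W hWinv hWti
      (by rw [hV]; omega) U hWU hUo
    have h9 := Submodule.finrank_mono hUW
    omega

end Cfsg.Agent.Lib.Helper98.T73
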