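import Cfsg.Agent.Lib.Helper22.TH1
import Cfsg.Agent.Lib.Helper22.TGDefs

/-!
# TG project (S4442), piece IND (helper16): ring homomorphisms and group representations induced
on the Tate groups `QA`, `QB`.
-/

set_option autoImplicit false

namespace Cfsg.Agent.Lib.Helper16.TG

open Cfsg Cfsg.Agent.Lib.Helper22.TA Cfsg.Agent.Lib.Helper22.TB Cfsg.Agent.Lib.Helper22.TG

theorem ind_hom_A {X : Type*} [AddCommGroup X] (p : ℕ) (σ : X →ₗ[ℤ] X) {R : Type*} [Ring R]
    (φ : R →+* (X →ₗ[ℤ] X)) (hφ : ∀ a, φ a ∘ₗ σ = σ ∘ₗ φ a) :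
    ∃ φQ : R →+* (QA p σ →ₗ[ℤ] QA p σ), ∀ a, IndA p σ (φ a) (φQ a) := by
  have hex : ∀ a, ∃ f : QA p σ →ₗ[ℤ] QA p σ, IndA p σ (φ a) f :=
    fun a => IndA.exists_of_comm (hφ a)
  choose F hF using hex
  refine ⟨{ toFun := F
            map_one' := ?_
            map_mul' := ?_
            map_zero' := ?_
            map_add' := ?_ }, hF⟩
  · have h : IndA p σ (φ 1) 1 := by
      rw [map_one]
      exact IndA.one
    exact (hF 1).unique h
  · intro a b
    have h : IndA p σ (φ (a * b)) (F a * F b) := by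
      rw [map_mul]
      exact (hF a).mul (hF b)
    exact (hF (a * b)).unique h
  · have h : IndA p σ (φ 0) 0 := by
      rw [map_zero]
      exact IndA.zero
    exact (hF 0).unique h
  · intro a b
    have h : IndA p σ (φ (a + b)) (F a + F b) := by
      rw [map_add]
      exact (hF a).add (hF b)
    exact (hF (a + b)).unique h

theorem ind_hom_B {X : Type*} [AddCommGroup X] (p : ℕ) (σ : X →ₗ[ℤ] X) {R : Type*} [Ring R]
    (φ : R →+* (X →ₗ[ℤ] X)) (hφ : ∀ a, φ a ∘ₗ σ = σ ∘ₗ φ a) :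
    ∃ φQ : R →+* (QB p σ →ₗ[ℤ] QB p σ), ∀ a, IndB p σ (φ a) (φQ a) := by
  have hex : ∀ a, ∃ f : QB p σ →ₗ[ℤ] QB p σ, IndB p σ (φ a) f :=
    fun a => IndB.exists_of_comm (hφ a)
  choose F hF using hex
  refine ⟨{ toFun := F
            map_one' := ?_
            map_mul' := ?_
            map_zero' := ?_
            map_add' := ?_ }, hF⟩
  · have h : IndB p σ (φ 1) 1 := by
      rw [map_one]
      exact IndB.one
    exact (hF 1).unique h
  · intro a b
    have h : IndB p σ (φ (a * b)) (F a * F b) := by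
      rw [map_mul]
      exact (hF a).mul (hF b)
    exact (hF (a * b)).unique h
  · have h : IndB p σ (φ 0) 0 := by
      rw [map_zero]
      exact IndB.zero
    exact (hF 0).unique h
  · intro a b
    have h : IndB p σ (φ (a + b)) (F a + F b) := by
      rw [map_add]
      exact (hF a).add (hF b)
    exact (hF (a + b)).unique h

theorem ind_rep_A {Γ : Type*} [Group Γ] [Fintype Γ] {X : Type*} [AddCommGroup X] (p : ℕ)
    [Fact p.Prime] (z : Γ) (hz : orderOf z = p) (ρ : Γ →* (X →ₗ[ℤ] X))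
    {H : Type*} [Group H] (ι : H →* Γ)
    (hι : ∀ h, ι h ∈ Subgroup.normalizer ((Subgroup.zpowers z : Subgroup Γ) : Set Γ)) :
    ∃ ρQ : H →* (QA p (ρ z) →ₗ[ℤ] QA p (ρ z)), ∀ h, IndA p (ρ z) (ρ (ι h)) (ρQ h) := by
  have hex : ∀ h, ∃ f : QA p (ρ z) →ₗ[ℤ] QA p (ρ z), IndA p (ρ z) (ρ (ι h)) f :=
    fun h => (Cfsg.Agent.Lib.Helper22.TAP.normalizer_ind p z hz ρ (ι h) (hι h)).1
  choose F hF using hex
  refine ⟨{ toFun := F
            map_one' := ?_
            map_mul' := ?_ }, hF⟩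
  · have h : IndA p (ρ z) (ρ (ι 1)) 1 := by
      rw [map_one, map_one]
      exact IndA.one
    exact (hF 1).unique h
  · intro a b
    have h : IndA p (ρ z) (ρ (ι (a * b))) (F a * F b) := by
      rw [map_mul, map_mul]
      exact (hF a).mul (hF b)
    exact (hF (a * b)).unique h

theorem ind_rep_B {Γ : Type*} [Group Γ] [Fintype Γ] {X : Type*} [AddCommGroup X] (p : ℕ)
    [Fact p.Prime] (z : Γ) (hz : orderOf z = p) (ρ : Γ →* (X →ₗ[ℤ] X))
    {H : Type*} [Group H] (ι : H →* Γ)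
    (hι : ∀ h, ι h ∈ Subgroup.normalizer ((Subgroup.zpowers z : Subgroup Γ) : Set Γ)) :
    ∃ ρQ : H →* (QB p (ρ z) →ₗ[ℤ] QB p (ρ z)), ∀ h, IndB p (ρ z) (ρ (ι h)) (ρQ h) := by
  have hex : ∀ h, ∃ f : QB p (ρ z) →ₗ[ℤ] QB p (ρ z), IndB p (ρ z) (ρ (ι h)) f :=
    fun h => (Cfsg.Agent.Lib.Helper22.TAP.normalizer_ind p z hz ρ (ι h) (hι h)).2
  choose F hF using hex
  refine ⟨{ toFun := F
            map_one' := ?_
            map_mul' := ?_ }, hF⟩
  · have h : IndB p (ρ z) (ρ (ι 1)) 1 := by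
      rw [map_one, map_one]
      exact IndB.one
    exact (hF 1).unique h
  · intro a b
    have h : IndB p (ρ z) (ρ (ι (a * b))) (F a * F b) := by
      rw [map_mul, map_mul]
      exact (hF a).mul (hF b)
    exact (hF (a * b)).unique h

end Cfsg.Agent.Lib.Helper16.TG
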