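import Mathlib
import Cfsg.Agent.Lib.Helper98.U84Defs
import Cfsg.Agent.Lib.Helper47.PrimeOrd

/-!
S5984 piece U84-CYCB (helper16 for helper98): a non-identity matrix with `M ^ r = 1` has a
cyclotomic factor of degree at most `n` in its characteristic polynomial.
-/

set_option autoImplicit false

namespace Cfsg.Agent.Lib.Helper98.U84

open Matrix Polynomial

/-! ### U84-CYCB -/
theorem exists_cyc_le {F : Type*} [Field F] [Fintype F] {p : ℕ} [Fact p.Prime] [CharP F p]
    {r : ℕ} (hr : r.Prime) (hrp : r ≠ p) {n : ℕ} (M : Matrix (Fin n) (Fin n) F)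
    (hM : M ^ r = 1) (hM1 : M ≠ 1) :
    ∃ f : F[X], Cfsg.Agent.Lib.Helper47.IsCycFactor r f ∧ f.natDegree ≤ n := by
  obtain ⟨c, s, hs, hc⟩ :=
    Cfsg.Agent.Lib.Helper47.charpoly_factors_of_pow_eq_one p hr hrp M hM
  rcases Multiset.empty_or_exists_mem s with h0 | ⟨f, hf⟩
  · exfalso
    apply hM1
    rw [h0, Multiset.prod_zero, mul_one] at hc
    exact Cfsg.Agent.Lib.Helper47.eq_one_of_charpoly_eq p hr hrp M hM c hc
  · refine ⟨f, hs f hf, ?_⟩
    have hdvd : f ∣ M.charpoly := by
      rw [hc]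
      exact dvd_mul_of_dvd_right (Multiset.dvd_prod hf) _
    have hle := Polynomial.natDegree_le_of_dvd hdvd (Matrix.charpoly_monic M).ne_zero
    rw [Matrix.charpoly_natDegree_eq_dim, Fintype.card_fin] at hle
    exact hle

end Cfsg.Agent.Lib.Helper98.U84
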