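import Cfsg.Agent.Lib.Helper22.W2Defs
import Cfsg.Agent.Lib.Helper83.Linear

/-!
# S4707 project (helper22, "W2"): piece PERMSUM (Burnside's lemma for the permutation character)
-/

set_option autoImplicit false

namespace Cfsg.Agent.Lib.Helper16.W2

open Cfsg Cfsg.Agent.Lib.Helper83 Cfsg.Agent.Lib.Helper22.W2
open scoped ComplexConjugate

universe u

section perm

variable {α : Type*} [Fintype α] [DecidableEq α]

/-- orbits of a transitive group on pairs = orbits of a point stabilizer -/
theorem permsum_rank (G : Subgroup (Equiv.Perm α)) (htr : MulAction.IsPretransitive G α) (a₀ : α) :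
    Nat.card (MulAction.orbitRel.Quotient G (α × α)) =
      Nat.card (MulAction.orbitRel.Quotient (MulAction.stabilizer G a₀) α) := by
  symm
  let f : MulAction.orbitRel.Quotient (MulAction.stabilizer G a₀) α →
      MulAction.orbitRel.Quotient G (α × α) :=
    Quotient.map' (fun b => (a₀, b)) (by
      intro b b' h
      rw [MulAction.orbitRel_apply] at h ⊢
      obtain ⟨s, hs⟩ := h
      refine ⟨s.1, ?_⟩
      apply Prod.ext
      · exact s.2
      · exact hs)
  apply Nat.card_congr (Equiv.ofBijective f ⟨?_, ?_⟩)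
  · intro q q'
    refine Quotient.inductionOn₂' q q' ?_
    intro b b' h
    have h1 : (Quotient.mk'' (a₀, b) : MulAction.orbitRel.Quotient G (α × α)) =
        Quotient.mk'' (a₀, b') := h
    rw [Quotient.eq''] at h1 ⊢
    rw [MulAction.orbitRel_apply] at h1 ⊢
    obtain ⟨g, hg⟩ := h1
    have hg1 : g • a₀ = a₀ := congrArg Prod.fst hg
    have hg2 : g • b' = b := congrArg Prod.snd hg
    exact ⟨⟨g, hg1⟩, hg2⟩
  · intro q
    refine Quotient.inductionOn' q ?_
    rintro ⟨a, b⟩
    obtain ⟨g, hg⟩ := MulAction.exists_smul_eq G a a₀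
    refine ⟨Quotient.mk'' (g • b), ?_⟩
    show (Quotient.mk'' (a₀, g • b) : MulAction.orbitRel.Quotient G (α × α)) =
      Quotient.mk'' (a, b)
    rw [Quotient.eq'', MulAction.orbitRel_apply]
    exact ⟨g, Prod.ext hg rfl⟩

theorem permsum_fix1 (G : Subgroup (Equiv.Perm α)) (g : G)
    [Fintype (MulAction.fixedBy α g)] :
    Fintype.card (MulAction.fixedBy α g) =
      (Finset.univ.filter (fun a : α => (g : Equiv.Perm α) a = a)).card := by
  apply Fintype.card_of_subtype
  intro x
  rw [Finset.mem_filter, MulAction.mem_fixedBy]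
  exact ⟨fun h => h.2, fun h => ⟨Finset.mem_univ _, h⟩⟩

theorem permsum_fix2 (G : Subgroup (Equiv.Perm α)) (g : G)
    [Fintype (MulAction.fixedBy (α × α) g)] :
    Fintype.card (MulAction.fixedBy (α × α) g) =
      (Finset.univ.filter (fun a : α => (g : Equiv.Perm α) a = a)).card *
        (Finset.univ.filter (fun a : α => (g : Equiv.Perm α) a = a)).card := by
  rw [← Finset.card_product]
  apply Fintype.card_of_subtype
  rintro ⟨x, y⟩
  rw [Finset.mem_product, Finset.mem_filter, Finset.mem_filter, MulAction.mem_fixedBy,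
    Prod.smul_mk, Prod.mk.injEq]
  exact ⟨fun h => ⟨h.1.2, h.2.2⟩, fun h => ⟨⟨Finset.mem_univ _, h.1⟩, ⟨Finset.mem_univ _, h.2⟩⟩⟩

/-- PIECE PERMSUM -/
theorem permsum (G : Subgroup (Equiv.Perm α)) [Fintype G]
    (hprim : MulAction.IsPreprimitive G α) (a₀ : α)
    (hrank : Nat.card (MulAction.orbitRel.Quotient (MulAction.stabilizer G a₀) α) = 3) :
    ∑ g : G, fixc G g = (Nat.card G : ℂ) ∧
    ∑ g : G, fixc G g * conj (fixc G g) = 3 * (Nat.card G : ℂ) := by
  classical
  have htr : MulAction.IsPretransitive G α := hprim.toIsPretransitive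
  haveI : Nonempty α := ⟨a₀⟩
  constructor
  · haveI : Fintype (MulAction.orbitRel.Quotient G α) := Fintype.ofFinite _
    have hB := MulAction.sum_card_fixedBy_eq_card_orbits_mul_card_group G α
    have h1 : Fintype.card (MulAction.orbitRel.Quotient G α) = 1 := by
      rw [Fintype.card_eq_one_iff_nonempty_unique]
      exact (MulAction.pretransitive_iff_unique_quotient_of_nonempty G α).mp htr
    rw [h1, one_mul] at hB
    have h2 : ∑ g : G, fixc G g =
        ((∑ g : G, Fintype.card (MulAction.fixedBy α g) : ℕ) : ℂ) := by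
      rw [Nat.cast_sum]
      apply Finset.sum_congr rfl
      intro g _
      unfold fixc
      rw [permsum_fix1]
    rw [h2, hB, Nat.card_eq_fintype_card]
  · haveI : Fintype (MulAction.orbitRel.Quotient G (α × α)) := Fintype.ofFinite _
    have hB := MulAction.sum_card_fixedBy_eq_card_orbits_mul_card_group G (α × α)
    have h1 : Fintype.card (MulAction.orbitRel.Quotient G (α × α)) = 3 := by
      rw [← Nat.card_eq_fintype_card, permsum_rank G htr a₀, hrank]
    rw [h1] at hB
    have h2 : ∑ g : G, fixc G g * conj (fixc G g) =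
        ((∑ g : G, Fintype.card (MulAction.fixedBy (α × α) g) : ℕ) : ℂ) := by
      rw [Nat.cast_sum]
      apply Finset.sum_congr rfl
      intro g _
      unfold fixc
      rw [permsum_fix2, Complex.conj_natCast, Nat.cast_mul]
    rw [h2, hB, Nat.card_eq_fintype_card]
    push_cast
    ring

end perm

end Cfsg.Agent.Lib.Helper16.W2
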