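import Mathlib

set_option autoImplicit false
set_option linter.unusedVariables false
set_option linter.unusedSimpArgs false

/-!
# S5588, piece CONJ (helper16 for helper38): a conjugation lemma for seven involutions forming the
diagram of type `E₇`.
-/

namespace Cfsg.Agent.Lib.Helper16.Y5Conj

theorem swap_mid {K : Type*} [Group K] {a b : K} (h : a * b = b * a) (z : K) :
    b * (a * z) = a * (b * z) := by
  rw [← mul_assoc, ← h, mul_assoc]

theorem inv_mid {K : Type*} [Group K] {a : K} (h : a * a = 1) (z : K) : a * (a * z) = z := by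
  rw [← mul_assoc, h, one_mul]

/-- PIECE CONJ -/
theorem coxeter_conj {K : Type*} [Group K] (x1 x2 x3 x4 x5 x6 x7 f : K)
    (h1 : x1 * x1 = 1) (h2 : x2 * x2 = 1) (h3 : x3 * x3 = 1) (h4 : x4 * x4 = 1) (h5 : x5 * x5 = 1)
    (h6 : x6 * x6 = 1) (h7 : x7 * x7 = 1)
    (c13 : x1 * x3 = x3 * x1) (c14 : x1 * x4 = x4 * x1) (c15 : x1 * x5 = x5 * x1)
    (c16 : x1 * x6 = x6 * x1) (c17 : x1 * x7 = x7 * x1) (c24 : x2 * x4 = x4 * x2)
    (c25 : x2 * x5 = x5 * x2) (c26 : x2 * x6 = x6 * x2) (c27 : x2 * x7 = x7 * x2)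
    (c35 : x3 * x5 = x5 * x3) (c36 : x3 * x6 = x6 * x3) (c46 : x4 * x6 = x6 * x4)
    (c47 : x4 * x7 = x7 * x4) (c57 : x5 * x7 = x7 * x5) (c67 : x6 * x7 = x7 * x6)
    (f1 : f * x1 = x1 * f) (f3 : f * x3 = x3 * f) (f4 : f * x4 = x4 * f) (f5 : f * x5 = x5 * f)
    (f6 : f * x6 = x6 * f) (f7 : f * x7 = x7 * f)
    (hf : f = (x1 * x2 * x3 * x4 * x5 * x6 * x7) ^ 9) :
    f = (x3 * x4 * x2 * x7 * x5 * x1 * x6) ^ 9 := by
  have hginv : (x3 * x1 * x4 * x5 * x6 * x7)⁻¹ = x7 * x6 * x5 * x4 * x1 * x3 := by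
    apply inv_eq_of_mul_eq_one_right
    simp only [mul_assoc, h1, h3, h4, h5, h6, h7, inv_mid h1, inv_mid h3, inv_mid h4, inv_mid h5,
      inv_mid h6, inv_mid h7, mul_one]
  have e1 : x3 * x4 * x2 * x7 * x5 * x1 * x6 =
      (x3 * x1 * x4 * x5 * x6 * x7) * (x1 * x2 * x3 * x4 * x5 * x6 * x7) *
        (x3 * x1 * x4 * x5 * x6 * x7)⁻¹ := by
    rw [hginv]
    simp only [mul_assoc, h1, h2, h3, h4, h5, h6, h7, inv_mid h1, inv_mid h2, inv_mid h3,
      inv_mid h4, inv_mid h5, inv_mid h6, inv_mid h7, mul_one, one_mul,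
      c13.symm, c14.symm, c15.symm, c16.symm, c17.symm, c24.symm, c25.symm, c26.symm, c27.symm,
      c35.symm, c36.symm, c46.symm, c47.symm, c57.symm, c67.symm,
      swap_mid c13, swap_mid c14, swap_mid c15, swap_mid c16, swap_mid c17, swap_mid c24,
      swap_mid c25, swap_mid c26, swap_mid c27, swap_mid c35, swap_mid c36, swap_mid c46,
      swap_mid c47, swap_mid c57, swap_mid c67]
  have hc : Commute f (x3 * x1 * x4 * x5 * x6 * x7) :=
    (((((show Commute f x3 from f3).mul_right (show Commute f x1 from f1)).mul_right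
      (show Commute f x4 from f4)).mul_right (show Commute f x5 from f5)).mul_right
      (show Commute f x6 from f6)).mul_right (show Commute f x7 from f7)
  rw [e1, conj_pow, ← hf, ← hc.eq, mul_inv_cancel_right]

end Cfsg.Agent.Lib.Helper16.Y5Conj
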